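import Cfsg.Agent.H3.Generous

set_option autoImplicit false

namespace Cfsg.Agent.H3

open MulAction Function
open scoped Pointwise

variable {G α : Type*} [Group G] [MulAction G α]

theorem fixing_insert [DecidableEq α] (s : Finset α) (a : α) :
    fixingSubgroup G ((insert a s : Finset α) : Set α) =
      fixingSubgroup G (s : Set α) ⊓ stabilizer G a := by
  ext g
  simp only [Finset.coe_insert, mem_fixingSubgroup_iff, Set.mem_insert_iff, forall_eq_or_imp,
    Subgroup.mem_inf, mem_stabilizer_iff]
  exact and_comm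

theorem ktrans_of_const_orders [Finite G] [Finite α] {k : ℕ} (hk : 1 < k) (hkn : k ≤ Nat.card α)
    (l m : ℕ) (hfaith : ∀ g : G, (∀ x : α, g • x = x) → g = 1) (hl : 1 < l)
    (hkm1 : ∀ s : Finset α, s.card = k - 1 → Nat.card (fixingSubgroup G (s : Set α)) = l)
    (hkm : ∀ s : Finset α, s.card = k → Nat.card (fixingSubgroup G (s : Set α)) = m) :
    IsMultiplyPretransitive G α (k - 1) := by
  classical
  have := Fintype.ofFinite α
  have horb : ∀ s : Finset α, s.card = k - 1 → ∀ a ∉ s,
      (orbit (fixingSubgroup G (s : Set α)) a).ncard * m = l := by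
    intro s hs a ha
    rw [← hkm1 s hs, ← hkm (insert a s) (by rw [Finset.card_insert_of_notMem ha, hs]; omega),
      fixing_insert, card_orbit_mul_card_inf]
  obtain ⟨s0, -, hs0⟩ := Finset.exists_subset_card_eq (s := (Finset.univ : Finset α)) (n := k - 1)
    (by rw [Finset.card_univ, ← Nat.card_eq_fintype_card]; omega)
  have hout : ∀ s : Finset α, s.card = k - 1 → ∃ a, a ∉ s := by
    intro s hs
    by_contra hcon
    push Not at hcon
    have := Finset.card_le_card (s := Finset.univ) (t := s) (fun a _ => hcon a)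
    rw [Finset.card_univ, ← Nat.card_eq_fintype_card] at this
    omega
  obtain ⟨a0, ha0⟩ := hout s0 hs0
  set d := (orbit (fixingSubgroup G (s0 : Set α)) a0).ncard with hd
  have hdm : d * m = l := horb s0 hs0 a0 ha0
  have hm : 0 < m := Nat.pos_of_ne_zero (by rintro rfl; omega)
  have hd' : ∀ s : Finset α, s.card = k - 1 → ∀ a ∉ s,
      (orbit (fixingSubgroup G (s : Set α)) a).ncard = d := fun s hs a ha =>
    Nat.eq_of_mul_eq_mul_right hm (by rw [horb s hs a ha, hdm])
  have hd1 : d ≠ 1 := by
    intro h1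
    have : fixingSubgroup G (s0 : Set α) = ⊥ := by
      rw [eq_bot_iff]
      intro g hg
      apply hfaith
      intro x
      by_cases hx : x ∈ s0
      · exact (mem_fixingSubgroup_iff G).1 hg x hx
      · obtain ⟨y, hy⟩ := Set.ncard_eq_one.1 ((hd' s0 hs0 x hx).trans h1)
        have e1 : g • x ∈ orbit (fixingSubgroup G (s0 : Set α)) x := ⟨⟨g, hg⟩, rfl⟩
        have e2 : x ∈ orbit (fixingSubgroup G (s0 : Set α)) x := mem_orbit_self _
        rw [hy] at e1 e2
        exact e1.trans e2.symm
    have h2 := hkm1 s0 hs0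
    rw [this, Subgroup.card_bot] at h2
    omega
  obtain ⟨p, hp, hpd⟩ := Nat.exists_prime_and_dvd hd1
  apply gleason hp (by omega)
  intro s hs
  obtain ⟨P, hP⟩ := exists_sylowIn hp (fixingSubgroup G (s : Set α))
  refine ⟨P, hP.pgroup, fun x => ⟨fun hx g hg => (mem_fixingSubgroup_iff G).1 (hP.le hg) x hx,
    fun hx => ?_⟩⟩
  by_contra hxs
  apply hP.not_dvd
  have hle : P ≤ fixingSubgroup G (s : Set α) ⊓ stabilizer G x :=
    fun g hg => ⟨hP.le hg, hx g hg⟩
  have h1 := hP.card_mul
  rw [← card_orbit_mul_card_inf (fixingSubgroup G (s : Set α)) x, hd' s hs x hxs] at h1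
  obtain ⟨c, hc⟩ := Subgroup.card_dvd_of_le hle
  rw [hc] at h1
  have : P.relIndex (fixingSubgroup G (s : Set α)) = d * c :=
    Nat.eq_of_mul_eq_mul_left (Nat.card_pos (α := P)) (by rw [h1]; ring)
  rw [this]
  exact hpd.mul_right _

end Cfsg.Agent.H3
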