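import Cfsg.Agent.H9.E4.R0

/-! Simply laced root sets in dimension six: frames. -/

set_option autoImplicit false
set_option linter.unusedSimpArgs false
set_option linter.unusedSectionVars false
set_option linter.unusedVariables false

namespace Cfsg.Agent.H9.E4

open Module Matrix Cfsg.Agent.Orth

variable {k W : Type*} [Field k] [AddCommGroup W] [Module k W] [FiniteDimensional k W]
  {Q : QuadraticForm k W} {R : W → Prop} {n : ℕ} {a b c m x w z : W}

/-- orthonormal frames carrying a system of type `D` -/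
structure Fr (Q : QuadraticForm k W) (R : W → Prop) (e : Fin n → W) : Prop where
  on : ∀ i j, B Q (e i) (e j) = if i = j then 1 else 0
  rt : ∀ i j, i ≠ j → R (e i - e j) ∧ R (e i + e j)

/-- the roots of type `D` -/
def InD (k : Type*) [Field k] [Module k W] (e : Fin n → W) (x : W) : Prop :=
  ∃ i j, i ≠ j ∧ ∃ s t : k, s * s = 1 ∧ t * t = 1 ∧ x = s • e i + t • e j

theorem Fr.li {e : Fin n → W} (F : Fr Q R e) : LinearIndependent k e :=
  Fintype.linearIndependent_iff.2 fun g hg i => by
    simpa [F.on] using congrArg (B Q (e i)) hg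

namespace RS6

variable (h : RS6 Q R)
include h

theorem sub {u v : W} (hu : R u) (hv : R v) (e : B Q u v = 1) : R (u - v) := by
  simpa [e] using h.refl u v hu hv

theorem add {u v : W} (hu : R u) (hv : R v) (e : B Q u v = -1) : R (u + v) := by
  simpa using h.sub hu (h.neg v hv) (by simp [e])

theorem ne_zero {u : W} (hu : R u) : u ≠ 0 := by
  rintro rfl
  exact h.two (by simpa using (h.bb 0 hu).symm)

theorem rt' {e : Fin n → W} (F : Fr Q R e) {i j : Fin n} (hij : i ≠ j) {s t : k} (hs : s * s = 1)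
    (ht : t * t = 1) : R (s • e i + t • e j) := by
  rcases mul_self_eq_one_iff.1 hs with rfl | rfl <;> rcases mul_self_eq_one_iff.1 ht with rfl | rfl
  · simpa using (F.rt i j hij).2
  · simpa [sub_eq_add_neg] using (F.rt i j hij).1
  · simpa [sub_eq_add_neg, add_comm] using h.neg _ (F.rt i j hij).1
  · simpa [sub_eq_add_neg, add_comm] using h.neg _ (F.rt i j hij).2

theorem sign {e : Fin n → W} (F : Fr Q R e) {s : Fin n → k} (hs : ∀ i, s i * s i = 1) :
    Fr Q R fun i => s i • e i :=
  ⟨fun i j => by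
    by_cases hij : i = j
    · simp [hij, F.on, hs]
    · simp [hij, F.on], fun i j hij => ⟨by
    simpa [sub_eq_add_neg] using h.rt' F hij (hs i) (t := -s j) (by simp [hs]),
    h.rt' F hij (hs i) (hs j)⟩⟩

theorem fr_of {e : Fin (n + 1) → W} (he : ∀ i j, B Q (e i) (e j) = if i = j then 1 else 0)
    (p0 : ∀ j, j ≠ 0 → R (e 0 - e j) ∧ R (e 0 + e j)) : Fr Q R e := by
  refine ⟨he, fun i j hij => ?_⟩
  by_cases hi : i = 0
  · subst hi; exact p0 j hij.symm
  by_cases hj : j = 0
  · subst hj
    exact ⟨by simpa using h.neg _ (p0 i hi).1, add_comm (e i) _ ▸ (p0 i hi).2⟩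
  exact ⟨by simpa using h.sub (p0 j hj).1 (p0 i hi).1 (by simp [he, hi, hj, hij.symm, Ne.symm]),
    by convert h.sub (p0 j hj).2 (p0 i hi).1 (by simp [he, hi, hj, hij.symm, Ne.symm]) using 1; abel⟩

/-- the position of a root relative to a frame -/
theorem quad {e : Fin (n + 2) → W} (F : Fr Q R e) (hx : R x) :
    InD k e x ∨ (∀ i, B Q (e i) x = 0) ∨
      (∃ i, B Q (e i) x * B Q (e i) x = 1 ∧ ∀ j, j ≠ i → B Q (e j) x = 0) ∨
      ∀ i, 2 * B Q (e i) x * (2 * B Q (e i) x) = 1 := by
  refine or_iff_not_imp_left.2 fun hh => or_iff_not_imp_left.2 fun h0 => ?_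
  unfold InD at hh
  push Not at hh h0
  have h2 := h.two
  set y : Fin (n + 2) → k := fun i => B Q (e i) x with hy
  have key : ∀ i j, i ≠ j → y i ≠ 0 →
      (y j ≠ 0 ∧ 2 * y i * (2 * y i) = 1) ∨ (y j = 0 ∧ y i * y i = 1) := by
    intro i j hij hi
    have a1 := h.f1 _ x (F.rt i j hij).2 hx (fun e => hh i j hij 1 1 (by simp) (by simp) (by simp [e]))
      fun e => hh i j hij (-1) (-1) (by simp) (by simp) (by simp [e, add_comm])
    have a2 := h.f1 _ x (F.rt i j hij).1 hx (fun e => hh i j hij 1 (-1) (by simp) (by simp)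
      (by simp [e, sub_eq_add_neg])) fun e => hh i j hij (-1) 1 (by simp) (by simp)
      (by simp [e, sub_eq_add_neg, add_comm])
    simp only [map_add, map_sub, LinearMap.add_apply, LinearMap.sub_apply] at a1 a2
    change y i + y j = 0 ∨ y i + y j = 1 ∨ y i + y j = -1 at a1
    change y i - y j = 0 ∨ y i - y j = 1 ∨ y i - y j = -1 at a2
    by_cases hj : y j = 0
    · refine Or.inr ⟨hj, ?_⟩
      rw [hj, add_zero] at a1
      rcases a1 with e | e | e
      exacts [absurd e hi, by simp [e], by simp [e]]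
    · refine Or.inl ⟨hj, ?_⟩
      have a3 : 2 * y i * (2 * y i) = (y i + y j + (y i - y j)) ^ 2 := by ring
      have a4 : y i + y j + (y i - y j) ≠ 0 := fun e => mul_ne_zero h2 hi (by linear_combination e)
      have a5 : y i + y j - (y i - y j) ≠ 0 := fun e => mul_ne_zero h2 hj (by linear_combination e)
      rw [a3]
      rcases a1 with e | e | e <;> rcases a2 with e' | e' | e' <;> rw [e, e'] at a4 a5 ⊢ <;>
        simp at a4 a5 ⊢
  obtain ⟨i, hi⟩ := h0
  by_cases c1 : ∀ j, j ≠ i → y j = 0
  · obtain ⟨j, hj⟩ := exists_ne i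
    exact Or.inl ⟨i, ((key i j hj.symm hi).resolve_left fun e => e.1 (c1 j hj)).2, c1⟩
  push Not at c1
  obtain ⟨j, hj, c1⟩ := c1
  refine Or.inr fun l => ?_
  by_cases hl : y l = 0
  swap
  · by_cases li : l = i
    · exact ((key l j (li ▸ hj.symm) hl).resolve_right fun e => c1 e.1).2
    · exact ((key l i li hl).resolve_right fun e => hi e.1).2
  have il : i ≠ l := by rintro rfl; exact hi hl
  have jl : j ≠ l := by rintro rfl; exact c1 hl
  have q1 := ((key i l il hi).resolve_left fun e => e.1 hl).2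
  have q2 := ((key j l jl c1).resolve_left fun e => e.1 hl).2
  have q3 := ((key i j hj.symm hi).resolve_right fun e => c1 e.1).2
  have b1 : ∀ i, B Q x (e i) = y i := fun i => B_comm Q _ _
  have := h.tri x (y i • e i + y j • e j) ((-y i) • e i + (1 : k) • e l) hx (h.rt' F hj.symm q1 q2)
    (h.rt' F il (by simp [q1]) (by simp)) (by simp [b1, q1, q2]; linear_combination q3 - 4 * q1)
    (by simp [b1, q1, hl]) (by simp [F.on, hj, hj.symm, il, jl, il.symm, jl.symm, q1])
    (hh _ _ hj.symm _ _ q1 q2) (hh _ _ il _ _ (by simp [q1]) (by simp)) fun e' => by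
      simpa [F.on, il.symm, jl.symm] using congrArg (B Q (e l)) e'
  exact (hh j l jl (-y j) (-1) (by simp [q2]) (by simp)
    (by linear_combination (norm := module) this)).elim

theorem ext {e : Fin (n + 2) → W} (F : Fr Q R e) (hx : R x) {i : Fin (n + 2)}
    (h1 : B Q (e i) x * B Q (e i) x = 1) (h0 : ∀ j, j ≠ i → B Q (e j) x = 0) :
    ∃ e' : Fin (n + 3) → W, Fr Q R e' := by
  set s := B Q (e i) x with hs
  have b1 : ∀ j, B Q (e j) (x - s • e i) = 0 := fun j => by
    by_cases hj : j = i
    · simp [hj, F.on, ← hs]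
    · simp [hj, F.on, h0]
  have b2 : ∀ j, B Q (x - s • e i) (e j) = 0 := fun j => (B_comm Q _ _).trans (b1 j)
  have p : ∀ j, j ≠ i → ∀ t : k, t * t = 1 → R (x - s • e i + t • e j) := fun j hj t ht => by
    convert h.sub hx (h.rt' F hj.symm h1 (t := -t) (by simp [ht])) (by
      simp [B_comm Q x, ← hs, h1, h0 j hj]) using 1
    module
  have p' : ∀ j, ∀ t : k, t * t = 1 → R (x - s • e i + t • e j) := fun j t ht => by
    by_cases hj : j = i
    · obtain ⟨l, hl⟩ := exists_ne i
      by_cases ts : t = s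
      · simpa [hj, ts] using hx
      · convert h.add (p l hl (-1) (by simp)) (h.rt' F hl (s := 1) (by simp) ht) (by
          simp only [map_add, map_smul, LinearMap.add_apply, LinearMap.smul_apply, b2, F.on]
          simp [hl]) using 1
        rw [hj]; module
    · exact p j hj t ht
  refine ⟨Fin.cons (x - s • e i) e, h.fr_of (fun j l => ?_) fun j hj => ?_⟩
  · refine Fin.cases ?_ (fun j => ?_) j <;> refine Fin.cases ?_ (fun l => ?_) l
    · simp [h.bb x hx, F.on, B_comm Q x (e i), ← hs]; linear_combination -h1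
    · simpa [(Fin.succ_ne_zero _).symm] using b2 l
    · simpa using b1 j
    · simp [F.on]
  · obtain ⟨j, rfl⟩ := Fin.exists_succ_eq.2 hj
    exact ⟨by simpa [sub_eq_add_neg] using p' j (-1) (by simp), by simpa using p' j 1 (by simp)⟩

theorem red {ι : Type*} [Fintype ι] {e : ι → W} {i : ι} (hi : e i ≠ 0)
    (H : ∀ x, R x → x ∈ Submodule.span k (Set.range e) ∨ ∀ i, B Q (e i) x = 0) :
    Submodule.span k (Set.range e) = ⊤ ∧ 6 ≤ Fintype.card ι := by
  have := (h.irr (Submodule.span k (Set.range e)) fun x hx w hw => by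
    rcases H x hx with e | e
    · exact Submodule.sub_mem _ (Submodule.smul_mem _ _ e) hw
    · have : B Q w x = 0 := mem_perp_span.2 (by rintro _ ⟨i, rfl⟩; exact e i) w hw
      simpa [B_comm Q x w, this] using hw).resolve_left fun e' =>
      hi (by simpa [e'] using Submodule.subset_span (R := k) (Set.mem_range_self (f := e) i))
  have h1 := finrank_range_le_card (R := k) e
  rw [Set.finrank, this, finrank_top, h.dim] at h1
  exact ⟨this, h1⟩

omit h in
theorem _root_.Cfsg.Agent.H9.E4.InD.mem {e : Fin n → W} (hx : InD k e x) :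
    x ∈ Submodule.span k (Set.range e) := by
  obtain ⟨i, j, -, s, t, -, -, rfl⟩ := hx
  exact Submodule.add_mem _ (Submodule.smul_mem _ _ (Submodule.subset_span ⟨i, rfl⟩))
    (Submodule.smul_mem _ _ (Submodule.subset_span ⟨j, rfl⟩))

theorem norm {e : Fin n → W} (F : Fr Q R e) (hx : ∀ i, 2 * B Q (e i) x * (2 * B Q (e i) x) = 1) :
    ∃ e' : Fin n → W, Fr Q R e' ∧ ∀ i, B Q (e' i) x = 2⁻¹ :=
  ⟨_, h.sign F hx, fun i => eq_inv_of_mul_eq_one_right (by simp; linear_combination hx i)⟩

theorem fr4 (ra : R a) (rb : R b) (rc : R c) (rm : R m) (ab : B Q a b = 0) (ac : B Q a c = 0)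
    (bc : B Q b c = 0) (ma : B Q m a = 1) (mb : B Q m b = 1) (mc : B Q m c = 1) :
    ∃ e : Fin 4 → W, Fr Q R e := by
  have h2 := h.two
  set t : k := 2⁻¹ with ht
  have t2 : 2 * t = 1 := mul_inv_cancel₀ h2
  have r0 := h.sub (h.sub rm ra ma) rb (by simp [mb, ab])
  have r1 := h.sub r0 rc (by simp [mc, ac, bc])
  have m1 : ∀ {u v : W}, R u → v = u → R v := fun hu e => e ▸ hu
  refine ⟨![t • (a + b), t • (a - b), m - t • (a + b), c - m + t • (a + b)],
    h.fr_of (fun i j => ?_) fun j hj => ?_⟩
  · fin_cases i <;> fin_cases j <;>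
      simp [h.bb _ ra, h.bb _ rb, h.bb _ rc, h.bb _ rm, ab, ac, bc, ma, mb, mc, B_comm Q b a,
        B_comm Q c a, B_comm Q c b, B_comm Q a m, B_comm Q b m, B_comm Q c m] <;> grind
  · fin_cases j
    · exact absurd rfl hj
    · exact ⟨m1 rb (by simp; linear_combination (norm := module) t2 • b),
        m1 ra (by simp; linear_combination (norm := module) t2 • a)⟩
    · exact ⟨m1 (h.neg _ r0) (by simp; linear_combination (norm := module) t2 • (a + b)),
        m1 rm (by simp)⟩
    · exact ⟨m1 (h.sub rm rc mc) (by simp), m1 (h.neg _ r1) (by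
        simp; linear_combination (norm := module) t2 • (a + b))⟩

theorem fr5 {e : Fin 4 → W} (F : Fr Q R e) : ∃ e : Fin 5 → W, Fr Q R e := by
  by_contra! hh
  refine absurd (h.red (i := 0) (F.li.ne_zero 0) fun x hx => ?_).2 (by simp)
  rcases h.quad F hx with c | c | ⟨i, c1, c2⟩ | c
  · exact Or.inl c.mem
  · exact Or.inr c
  · exact (h.ext F hx c1 c2).elim fun e' F' => (hh e' F').elim
  obtain ⟨e, F, he⟩ := h.norm F c
  have h2 := h.two
  set t : k := 2⁻¹ with ht
  have t2 : 2 * t = 1 := mul_inv_cancel₀ h2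
  have m1 : ∀ {u v : W}, R u → v = u → R v := fun hu e => e ▸ hu
  have F' : Fr Q R ![t • (e 0 + e 1 + e 2 + e 3), t • (e 0 + e 1 - e 2 - e 3),
      t • (e 0 - e 1 + e 2 - e 3), t • (e 0 - e 1 - e 2 + e 3)] := by
    refine h.fr_of (fun i j => ?_) fun j hj => ?_
    · fin_cases i <;> fin_cases j <;> simp [F.on] <;> grind
    · fin_cases j
      · exact absurd rfl hj
      · exact ⟨m1 (F.rt 2 3 (by decide)).2 (by
          simp; linear_combination (norm := module) t2 • (e 2 + e 3)), m1 (F.rt 0 1 (by decide)).2 (by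
          simp; linear_combination (norm := module) t2 • (e 0 + e 1))⟩
      · exact ⟨m1 (F.rt 1 3 (by decide)).2 (by
          simp; linear_combination (norm := module) t2 • (e 1 + e 3)), m1 (F.rt 0 2 (by decide)).2 (by
          simp; linear_combination (norm := module) t2 • (e 0 + e 2))⟩
      · exact ⟨m1 (F.rt 1 2 (by decide)).2 (by
          simp; linear_combination (norm := module) t2 • (e 1 + e 2)), m1 (F.rt 0 3 (by decide)).2 (by
          simp; linear_combination (norm := module) t2 • (e 0 + e 3))⟩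
  obtain ⟨e', F''⟩ := h.ext F' hx (i := 0) (by simp [he]; grind) fun j hj => by
    fin_cases j
    · exact absurd rfl hj
    all_goals simp [he]
  exact (hh e' F'').elim

theorem td {e : Fin 6 → W} (F : Fr Q R e) : TD Q R := by
  refine ⟨e, F.on, F.rt, fun x hx => ?_⟩
  have hs := F.li.span_eq_top_of_card_eq_finrank' (by simp [h.dim])
  obtain ⟨c, rfl⟩ := (Submodule.mem_span_range_iff_exists_fun k).1 (hs ▸ Submodule.mem_top (x := x))
  have bb := h.bb _ hx
  have h2 := h.two
  rcases h.quad F hx with c | c | ⟨i, c1, c2⟩ | c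
  · exact c
  · simp [F.on] at c bb
    simp [c, h2.symm] at bb
  · simp [F.on] at c1 c2 bb
    rw [Finset.sum_eq_single i (fun j _ hj => by simp [c2 j hj]) (by simp), c1] at bb
    exact absurd (by linear_combination -bb) (one_ne_zero (α := k))
  · simp [F.on] at c bb
    rw [Fin.sum_univ_six] at bb
    exact absurd (by linear_combination c 0 + c 1 + c 2 + c 3 + c 4 + c 5 - 4 * bb) h2

end RS6

end Cfsg.Agent.H9.E4
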