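import Cfsg.Agent.H3.E4R1

/-! Simply laced root sets in dimension six: the case `E₆`. -/

set_option autoImplicit false
set_option linter.unusedSimpArgs false
set_option linter.unusedSectionVars false
set_option linter.unusedVariables false

namespace Cfsg.Agent.H9.E4

open Module Matrix Cfsg.Agent.Orth

variable {k W : Type*} [Field k] [AddCommGroup W] [Module k W] [FiniteDimensional k W]
  {Q : QuadraticForm k W} {R : W → Prop} {n : ℕ} {a b c m x w z : W}

theorem lat (e : Fin 5 → W) (x : W) (m : Fin 5 → ℤ) (t σ : ℤ) (h1 : ∑ i, m i = 2 * σ)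
    (h2 : ∑ i, m i * m i + 2 * t * σ + 2 * t * t = 2) :
    ∃ n : Fin 6 → ℤ, n ⬝ᵥ C6 *ᵥ n = 2 ∧ ∑ i, (m i : k) • e i + (t : k) • x =
      ∑ i, (n i : k) • ![-x, e 3 + e 4, e 2 - e 3, e 1 - e 2, e 0 - e 1, e 3 - e 4] i := by
  rw [Fin.sum_univ_five] at h1 h2
  obtain e3 : m 3 = 2 * σ - m 0 - m 1 - m 2 - m 4 := by omega
  refine ⟨![-t, σ, m 0 + m 1 + m 2, m 0 + m 1, m 0, σ - m 4], ?_, ?_⟩
  · rw [e3] at h2
    simp [C6, Matrix.mulVec, dotProduct, Fin.sum_univ_succ]
    linear_combination h2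
  · simp [Fin.sum_univ_succ, Fin.sum_univ_five, e3]
    module

namespace RS6

variable (h : RS6 Q R)
include h

theorem te' {e : Fin 5 → W} (F : Fr Q R e) (hx : R x) (he : ∀ i, B Q (e i) x = 2⁻¹)
    (hn : x - ∑ i, (2⁻¹ : k) • e i ≠ 0) (tri : ∀ x, R x → InD k e x ∨ (∀ i, B Q (e i) x = 0) ∨
      ∀ i, 2 * B Q (e i) x * (2 * B Q (e i) x) = 1) : TE Q R := by
  classical
  have h2 := h.two
  set t : k := 2⁻¹ with ht
  have t2 : 2 * t = 1 := mul_inv_cancel₀ h2
  have he' : ∀ i, B Q x (e i) = t := fun i => (B_comm Q _ _).trans (he i)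
  obtain ⟨w, hw⟩ : ∃ w, w = x - ∑ i, t • e i := ⟨_, rfl⟩
  rw [← hw] at hn
  have bw : ∀ i, B Q (e i) w = 0 := fun i => by simp [hw, F.on, he]
  have bw' : ∀ i, B Q w (e i) = 0 := fun i => (B_comm Q _ _).trans (bw i)
  have sp : ∀ z, ∃ c : k, z = c • w + ∑ i, B Q (e i) z • e i := fun z => by
    have h1 := h.nd.finrank_perp (Submodule.span k (Set.range e))
    rw [finrank_span_eq_card F.li, h.dim, Fintype.card_fin] at h1
    obtain ⟨c, hc⟩ := (finrank_eq_one_iff_of_nonzero' (⟨w, mem_perp_span.2 (by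
      rintro _ ⟨i, rfl⟩; exact bw i)⟩ : perp Q (Submodule.span k (Set.range e)))
      (fun e => hn (congrArg Subtype.val e))).1 (Nat.add_right_cancel (m := 5) h1) ⟨z - ∑ i, B Q (e i) z • e i,
        mem_perp_span.2 (by rintro _ ⟨i, rfl⟩; simp [F.on])⟩
    exact ⟨c, (eq_sub_iff_add_eq.1 (congrArg Subtype.val hc)).symm⟩
  have wx : B Q w x = B Q w w := by
    nth_rw 3 [hw]
    simp [bw']
  have xw : B Q x w = 3 * t * t := by
    simp [hw, h.bb x hx, he']
    grind
  have ww : B Q w w = 3 * t * t := by rw [← wx, B_comm, xw]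
  have w0 : B Q w w ≠ 0 := fun e' => hn (h.nd w fun z => by
    obtain ⟨c, hc⟩ := sp z
    rw [hc]; simp [e', bw])
  have h3 : (3 : k) ≠ 0 := fun e' => w0 (by simp [ww, e'])
  have half : ∀ z, R z → B Q w z = B Q w w → B Q x z ≠ t := fun z hz e1 e2 => by
    rcases h.f1 x z hx hz (by rintro rfl; rw [h.bb _ hx] at e2; exact h3 (by grind))
      (by rintro rfl; simp [wx] at e1; exact mul_ne_zero h2 w0 (by linear_combination -e1))
      with e | e | e <;> rw [e2] at e
    · simp [e] at t2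
    · exact one_ne_zero (α := k) (by linear_combination t2 - 2 * e)
    · exact h3 (by linear_combination 2 * e - t2)
  have P2 : ∀ z, R z → B Q w z = B Q w w → (∀ i, 2 * B Q (e i) z * (2 * B Q (e i) z) = 1) →
      ∃ (m : Fin 5 → ℤ) (σ : ℤ), ∑ i, m i = 2 * σ ∧ (∀ i, m i * m i = -m i) ∧
        z = ∑ i, (m i : k) • e i + x := fun z hz e1 c => by
    obtain ⟨m, hm, hy⟩ : ∃ m : Fin 5 → ℤ, (∀ i, m i = 0 ∨ m i = -1) ∧ ∀ i, B Q (e i) z = t + m i :=
      ⟨fun i => if B Q (e i) z = t then 0 else -1, fun i => by beta_reduce; split_ifs <;> simp, fun i => by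
        beta_reduce
        split_ifs with a
        · simp [a]
        · rcases mul_self_eq_one_iff.1 (c i) with a' | a'
          · exact absurd (by grind) a
          · push_cast; grind⟩
    have ez : z = ∑ i, (m i : k) • e i + x := by
      obtain ⟨c, hc⟩ := sp z
      have : c = 1 := mul_right_cancel₀ w0 (by rw [hc] at e1; simpa [bw'] using e1)
      rw [hc, this, hw]
      simp only [hy, add_smul, Finset.sum_add_distrib]
      module
    have xz : B Q x z = ((∑ i, m i : ℤ) : k) * t + 2 := by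
      rw [ez]; simp [he', h.bb x hx, Finset.sum_mul]
    obtain ⟨σ, hσ | hσ⟩ := Int.even_or_odd' (∑ i, m i)
    · exact ⟨m, σ, hσ, fun i => by rcases hm i with a | a <;> simp [a], ez⟩
    exfalso
    have m0 := hm 0
    have m1 := hm 1
    have m2 := hm 2
    have m3 := hm 3
    have m4 := hm 4
    have hs := Fin.sum_univ_five m
    rcases (by omega : ∑ i, m i = -1 ∨ ∑ i, m i = -3 ∨ ∑ i, m i = -5) with a | a | a <;>
      rw [a] at xz hs
    · obtain ⟨i, j, ij, mi, mj⟩ : ∃ i j, i ≠ j ∧ m i = 0 ∧ m j = 0 := by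
        by_contra! hh
        have := hh 0 1 (by decide)
        have := hh 2 3 (by decide)
        omega
      exact half _ (h.sub hz (F.rt i j ij).2 (by simp [B_comm Q z, hy, mi, mj]; grind))
        (by simp [bw', e1]) (by simp [he', xz]; grind)
    · exact half _ hz e1 (by rw [xz]; push_cast; grind)
    · exact half _ (h.add hz (F.rt 0 1 (by decide)).2 (by
        simp [B_comm Q z, hy, show m 0 = -1 by omega, show m 1 = -1 by omega]; grind))
        (by simp [bw', e1]) (by simp [he', xz]; grind)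
  refine ⟨h3, ![-x, e 3 + e 4, e 2 - e 3, e 1 - e 2, e 0 - e 1, e 3 - e 4], fun i => ?_,
    fun i j => ?_, fun z hz => ?_⟩
  · fin_cases i
    exacts [h.neg x hx, (F.rt 3 4 (by decide)).2, (F.rt 2 3 (by decide)).1, (F.rt 1 2 (by decide)).1,
      (F.rt 0 1 (by decide)).1, (F.rt 3 4 (by decide)).1]
  · fin_cases i <;> fin_cases j <;> simp [C6, F.on, he, he', h.bb x hx] <;> grind
  obtain ⟨c, hc⟩ := sp z
  have wz : B Q w z = c * B Q w w := by rw [hc]; simp [bw']
  have zz : c * c * B Q w w + ∑ i, B Q (e i) z * B Q (e i) z = 2 := by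
    have := h.bb z hz
    nth_rw 1 [hc] at this
    simpa [wz, mul_assoc] using this
  rcases tri z hz with ⟨i, j, ij, s, s', hs, hs', rfl⟩ | c0 | c1
  · obtain ⟨a, ha, rfl⟩ : ∃ a : ℤ, (a = 1 ∨ a = -1) ∧ s = a :=
      (mul_self_eq_one_iff.1 hs).elim (⟨1, by simp, by simp [·]⟩) (⟨-1, by simp, by simp [·]⟩)
    obtain ⟨b, hb, rfl⟩ : ∃ a : ℤ, (a = 1 ∨ a = -1) ∧ s' = a :=
      (mul_self_eq_one_iff.1 hs').elim (⟨1, by simp, by simp [·]⟩) (⟨-1, by simp, by simp [·]⟩)
    obtain ⟨n, h1, h2⟩ := lat (k := k) e x (Pi.single i a + Pi.single j b) 0 ((a + b) / 2)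
      (by simp [Finset.sum_add_distrib]; omega) (by
        simp [Finset.sum_add_distrib, mul_add, add_mul, Pi.single_apply, ij, ij.symm]
        rcases ha with rfl | rfl <;> rcases hb with rfl | rfl <;> simp)
    refine ⟨n, h1, h2 ▸ ?_⟩
    simp [Finset.sum_add_distrib, add_smul, Pi.single_apply]
  · exfalso
    simp only [c0, mul_zero, zero_smul, Finset.sum_const_zero, add_zero] at hc zz
    have xz : B Q x z = c * (3 * t * t) := by rw [hc]; simp [xw]
    rw [ww] at zz
    rcases h.f1 x z hx hz (by rintro rfl; simp [c0, ht, h2.symm] at he)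
      (by rintro rfl; simp [he, ht, h2] at c0) with e | e | e <;> rw [xz] at e
    · exact h2 (by linear_combination c * e - zz)
    · exact one_ne_zero (α := k) (by grind)
    · exact one_ne_zero (α := k) (by grind)
  have cc : c * c = 1 := mul_right_cancel₀ w0 (by
    rw [Fin.sum_univ_five, ww] at zz
    have := c1 0
    have := c1 1
    have := c1 2
    have := c1 3
    have := c1 4
    grind)
  rcases mul_self_eq_one_iff.1 cc with rfl | rfl
  · obtain ⟨m, σ, h1, h4, ez⟩ := P2 z hz (by simp [wz]) c1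
    obtain ⟨n, h5, h6⟩ := lat (k := k) e x m 1 σ h1 (by simp [h4, h1])
    exact ⟨n, h5, h6 ▸ by simpa using ez⟩
  · obtain ⟨m, σ, h1, h4, ez⟩ := P2 _ (h.neg z hz) (by simp [wz]) (by simpa using c1)
    obtain ⟨n, h5, h6⟩ := lat (k := k) e x (-m) (-1) (-σ) (by simp [h1]) (by simp [h4, h1])
    exact ⟨n, h5, h6 ▸ by simpa [neg_eq_iff_eq_neg, add_comm] using ez⟩

theorem te {e : Fin 5 → W} (F : Fr Q R e) (h6 : ∀ e : Fin 6 → W, ¬ Fr Q R e) : TE Q R := by
  have tri : ∀ {e : Fin 5 → W}, Fr Q R e → ∀ x, R x → InD k e x ∨ (∀ i, B Q (e i) x = 0) ∨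
      ∀ i, 2 * B Q (e i) x * (2 * B Q (e i) x) = 1 := fun F x hx =>
    (h.quad F hx).imp_right fun c => c.imp_right fun c => c.resolve_left fun ⟨i, c1, c2⟩ =>
      (h.ext F hx c1 c2).elim h6
  obtain ⟨x, hx, c, hn⟩ : ∃ x, R x ∧ (∀ i, 2 * B Q (e i) x * (2 * B Q (e i) x) = 1) ∧
      x ∉ Submodule.span k (Set.range e) := by
    by_contra! hh
    refine absurd (h.red (i := 0) (F.li.ne_zero 0) fun x hx => ?_).2 (by simp)
    rcases tri F x hx with c | c | c
    exacts [Or.inl c.mem, Or.inr c, Or.inl (hh x hx c)]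
  exact h.te' (h.sign F c) hx
    (fun i => eq_inv_of_mul_eq_one_right (by simp; linear_combination c i)) (fun e' => hn (by
      rw [sub_eq_zero.1 e']
      exact Submodule.sum_mem _ fun i _ => Submodule.smul_mem _ _
        (Submodule.smul_mem _ _ (Submodule.subset_span ⟨i, rfl⟩)))) (tri (h.sign F c))

theorem de {e : Fin 4 → W} (F : Fr Q R e) : TD Q R ∨ TE Q R := by
  obtain ⟨e, F⟩ := h.fr5 F
  by_cases h6 : ∃ e : Fin 6 → W, Fr Q R e
  · exact Or.inl (h6.elim fun _ => h.td)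
  · exact Or.inr (h.te F (not_exists.1 h6))

end RS6

end Cfsg.Agent.H9.E4
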