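import Cfsg.Agent.H3.E4R2

/-! Simply laced root sets in dimension six: type `A` and the classification. -/

set_option autoImplicit false
set_option linter.unusedSimpArgs false
set_option linter.unusedSectionVars false
set_option linter.unusedVariables false

namespace Cfsg.Agent.H9.E4

open Module Matrix Cfsg.Agent.Orth

variable {k W : Type*} [Field k] [AddCommGroup W] [Module k W] [FiniteDimensional k W]
  {Q : QuadraticForm k W} {R : W → Prop} {S : Finset W} {x : W}

/-- cliques of roots -/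
def Cq (Q : QuadraticForm k W) (R : W → Prop) (S : Finset W) : Prop :=
  (∀ s ∈ S, R s) ∧ ∀ s ∈ S, ∀ t ∈ S, s ≠ t → B Q s t = 1 ∧ t ≠ -s

theorem Cq.ins [DecidableEq W] (hS : Cq Q R S) (hx : R x) (e : ∀ s ∈ S, B Q x s = 1 ∧ s ≠ -x) :
    Cq Q R (insert x S) := by
  refine ⟨by simpa [hx] using hS.1, ?_⟩
  simp only [Finset.mem_insert]
  rintro s (rfl | hs) t (rfl | ht) hst
  · exact absurd rfl hst
  · exact e t ht
  · exact ⟨(B_comm Q _ _).trans (e s hs).1, fun e' => (e s hs).2 (by simp [e'])⟩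
  · exact hS.2 s hs t ht hst

namespace RS6

variable (h : RS6 Q R)
include h

theorem cq_max {u : W} (hu : R u) : ∃ S, Cq Q R S ∧ S.Nonempty ∧
    ∀ T, Cq Q R T → T.card ≤ S.card := by
  classical
  have hm : ∀ T, T ∈ h.fin.toFinset.powerset.filter (Cq Q R) ↔ Cq Q R T := fun T => by
    simp only [Finset.mem_filter, Finset.mem_powerset, and_iff_right_iff_imp]
    exact fun hT s hs => by simpa using hT.1 s hs
  have h1 : Cq Q R {u} := ⟨by simpa using hu, by simp⟩
  obtain ⟨S, hS, hS'⟩ := Finset.exists_max_image _ Finset.card ⟨_, (hm _).2 h1⟩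
  exact ⟨S, (hm S).1 hS, Finset.card_pos.1 (by simpa using hS' _ ((hm _).2 h1)),
    fun T hT => hS' T ((hm T).2 hT)⟩

theorem cq_pos (h4 : ¬ ∃ e : Fin 4 → W, Fr Q R e) (hS : Cq Q R S) (hm : ∀ T, Cq Q R T → T.card ≤ S.card) (hx : R x)
    (n1 : ∀ s ∈ S, x ≠ s ∧ x ≠ -s) (n2 : ∀ s ∈ S, ∀ t ∈ S, x ≠ s - t)
    (h01 : ∀ s ∈ S, B Q x s = 0 ∨ B Q x s = 1) {s : W} (hs : s ∈ S) (e : B Q x s = 1) : False := by
  classical
  have h2 := h.two
  have big : ∀ y, y ∉ S → ¬ Cq Q R (insert y S) := fun y hy c => by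
    have := hm _ c
    rw [Finset.card_insert_of_notMem hy] at this
    omega
  by_cases c1 : ∀ t ∈ S, B Q x t = 1
  · exact big x (fun hx => (n1 x hx).1 rfl) (hS.ins hx fun t ht =>
      ⟨c1 t ht, fun e => (n1 t ht).2 (by simp [e])⟩)
  push Not at c1
  obtain ⟨t, ht, c1⟩ := c1
  replace c1 := (h01 t ht).resolve_right c1
  have st : s ≠ t := by rintro rfl; simp [e] at c1
  have ss := h.bb s (hS.1 s hs)
  by_cases c2 : ∀ r ∈ S, r ≠ s → B Q x r = 0
  · refine big (s - x) (fun hx => n2 s hs _ hx (by simp)) (hS.ins (h.sub (hS.1 s hs) hx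
      ((B_comm Q _ _).trans e)) fun r hr => ?_)
    by_cases rs : r = s
    · subst rs
      refine ⟨by simp [ss, e]; ring, fun e' => ?_⟩
      have e2 : x = (2 : k) • r := by linear_combination (norm := module) -e'
      have e3 : (3 : k) = 0 := by rw [e2] at e; simp [ss] at e; linear_combination e
      exact (n1 r hr).2 (by linear_combination (norm := module) e2 + e3 • r)
    · have sr := (hS.2 s hs r hr (Ne.symm rs)).1
      refine ⟨by simp [sr, c2 r hr rs], fun e' => ?_⟩
      have e2 : x = s + r := by linear_combination (norm := module) -e'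
      have := h.bb x hx
      rw [e2] at this
      simp [ss, sr, B_comm Q r s, h.bb r (hS.1 r hr)] at this
      exact mul_ne_zero h2 h2 (by linear_combination this)
  push Not at c2
  obtain ⟨r, hr, rs, c2⟩ := c2
  replace c2 := (h01 r hr).resolve_left c2
  have rt : r ≠ t := by rintro rfl; simp [c2] at c1
  have sr := (hS.2 s hs r hr (Ne.symm rs)).1
  refine h4 <| h.fr4 hx (h.sub (hS.1 s hs) (hS.1 r hr) sr) (hS.1 t ht) (hS.1 s hs) (by simp [e, c2]) c1
    (by simp [(hS.2 s hs t ht st).1, (hS.2 r hr t ht rt).1]) ((B_comm Q _ _).trans e)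
    (by simp [ss, sr]; ring) (hS.2 s hs t ht st).1

theorem cq_cases [DecidableEq W] (h4 : ¬ ∃ e : Fin 4 → W, Fr Q R e) (hS : Cq Q R S) (hm : ∀ T, Cq Q R T → T.card ≤ S.card)
    (hx : R x) : (∃ s ∈ insert 0 S, ∃ t ∈ insert 0 S, x = s - t) ∨ ∀ s ∈ S, B Q x s = 0 := by
  by_contra! hh
  obtain ⟨n, s, hs, e⟩ := hh
  have n1 : ∀ s ∈ S, x ≠ s ∧ x ≠ -s := fun s hs =>
    ⟨by simpa using n s (by simp [hs]) 0 (by simp), by simpa using n 0 (by simp) s (by simp [hs])⟩
  have n2 : ∀ s ∈ S, ∀ t ∈ S, x ≠ s - t := fun s hs t ht => n s (by simp [hs]) t (by simp [ht])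
  have k1 : ∀ s ∈ S, B Q x s = 0 ∨ B Q x s = 1 ∨ B Q x s = -1 := fun s hs =>
    B_comm Q x s ▸ h.f1 s x (hS.1 s hs) hx (n1 s hs).1 (n1 s hs).2
  have k2 : ∀ s ∈ S, ∀ t ∈ S, B Q x s = 1 → B Q x t = -1 → False := fun s hs t ht a b => by
    have st : s ≠ t := by rintro rfl; exact h.two (by linear_combination b - a)
    have := h.tri (-s) x t (h.neg _ (hS.1 s hs)) hx (hS.1 t ht) (by simp [B_comm Q s x, a])
      (by simp [(hS.2 s hs t ht st).1]) b (n1 s hs).2.symm (hS.2 s hs t ht st).2.symm (n1 t ht).1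
    exact n2 s hs t ht (by linear_combination (norm := module) this)
  rcases (k1 s hs).resolve_left e with e | e
  · exact h.cq_pos h4 hS hm hx n1 n2 (fun t ht => (k1 t ht).imp_right fun a =>
      a.resolve_right (k2 s hs t ht e)) hs e
  · refine h.cq_pos h4 hS hm (h.neg x hx) (fun s hs => ⟨fun e => (n1 s hs).2 (by simp [← e]),
      fun e => (n1 s hs).1 (neg_injective e)⟩) (fun s hs t ht e => n2 t ht s hs (by
        linear_combination (norm := module) -e)) (fun t ht => ?_) hs (by simp [e])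
    rcases k1 t ht with a | a | a
    exacts [by simp [a], (k2 t ht s hs a e).elim, by simp [a]]

theorem cq_sum (hS : Cq Q R S) (g : W → k) {t : W} (ht : t ∈ S) :
    B Q t (∑ s ∈ S, g s • s) = g t + ∑ s ∈ S, g s := by
  classical
  rw [← Finset.add_sum_erase _ _ ht, ← Finset.add_sum_erase _ _ ht, map_add, map_sum,
    Finset.sum_congr rfl (g := g) fun s hs => by
      simp [(hS.2 t ht s (Finset.mem_of_mem_erase hs) (Finset.ne_of_mem_erase hs).symm).1]]
  simp [h.bb t (hS.1 t ht)]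
  ring

theorem ta (h4 : ¬ ∃ e : Fin 4 → W, Fr Q R e) : TA (k := k) R := by
  classical
  have h2 := h.two
  obtain ⟨u, hu⟩ := h.ex
  obtain ⟨S, hS, ⟨s0, hs0⟩, hm⟩ := h.cq_max hu
  have hP : ∀ p ∈ insert 0 S, p ∈ Submodule.span k (Set.range fun s : S => (s : W)) := fun p hp => by
    rcases Finset.mem_insert.1 hp with rfl | hp
    exacts [Submodule.zero_mem _, Submodule.subset_span ⟨⟨p, hp⟩, rfl⟩]
  obtain ⟨hT, hc⟩ := h.red (e := fun s : S => (s : W)) (i := ⟨s0, hs0⟩) (h.ne_zero (hS.1 s0 hs0))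
    fun x hx => (h.cq_cases h4 hS hm hx).imp
      (fun ⟨s, hs, t, ht, e⟩ => e ▸ Submodule.sub_mem _ (hP s hs) (hP t ht))
      fun e s => (B_comm Q _ _).trans (e s s.2)
  have hz : ∀ x, (∀ s ∈ S, B Q s x = 0) → x = 0 := fun x hx => h.nd x fun w =>
    mem_perp_span.2 (by rintro _ ⟨s, rfl⟩; exact hx s s.2) w (hT ▸ Submodule.mem_top)
  rw [Fintype.card_coe] at hc
  have c6 : S.card = 6 := by
    by_contra c
    obtain ⟨S', h1, h3⟩ := Finset.exists_subset_card_eq (s := S) (n := 7) (by omega)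
    have hS' : Cq Q R S' := ⟨fun s hs => hS.1 s (h1 hs), fun s hs t ht => hS.2 s (h1 hs) t (h1 ht)⟩
    have li : LinearIndepOn k id (S' : Set W) := linearIndepOn_finset_iff.2 fun g hg => by
      have e : ∀ t ∈ S', g t = -∑ s ∈ S', g s := fun t ht => by
        have := h.cq_sum hS' g ht
        simp only [id] at hg
        rw [hg, map_zero] at this
        linear_combination -this
      have e2 := Finset.sum_congr rfl e
      rw [Finset.sum_const, h3, nsmul_eq_mul] at e2
      have e3 : ∑ s ∈ S', g s = 0 := (mul_eq_zero.1 (show (2 : k) * (2 * 2) * ∑ s ∈ S', g s = 0 by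
        push_cast at e2; linear_combination e2)).resolve_left (mul_ne_zero h2 (mul_ne_zero h2 h2))
      exact fun t ht => by rw [e t ht, e3, neg_zero]
    have := li.fintype_card_le_finrank
    simp [h3, h.dim] at this
  have h0 : (0 : W) ∉ S := fun h0 => h.ne_zero (hS.1 0 h0) rfl
  let q := (Finset.equivFinOfCardEq (s := insert 0 S) (n := 7)
    (by rw [Finset.card_insert_of_notMem h0, c6])).symm
  refine ⟨fun h7 => ?_, fun i => q i, fun i j hij => ?_, fun x hx => ?_⟩
  · have li := linearIndependent_of_top_le_span_of_card_eq_finrank hT.ge (by simp [c6, h.dim])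
    have := hz (∑ s ∈ S, (1 : k) • s) fun t ht => by
      rw [h.cq_sum hS (fun _ => 1) ht]; simp [c6]; linear_combination h7
    rw [← Finset.sum_coe_sort S] at this
    exact one_ne_zero (Fintype.linearIndependent_iff.1 li (fun _ => 1) this ⟨s0, hs0⟩)
  · have ne : (q i : W) ≠ q j := fun e => hij (q.injective (Subtype.ext e))
    rcases Finset.mem_insert.1 (q i).2 with a | a <;> rcases Finset.mem_insert.1 (q j).2 with b | b
    · exact absurd (a.trans b.symm) ne
    · simpa [a] using h.neg _ (hS.1 _ b)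
    · simpa [b] using hS.1 _ a
    · exact h.sub (hS.1 _ a) (hS.1 _ b) (hS.2 _ a _ b ne).1
  · obtain ⟨s, hs, t, ht, rfl⟩ := (h.cq_cases h4 hS hm hx).resolve_right fun e =>
      h.ne_zero hx (hz x fun s hs => (B_comm Q _ _).trans (e s hs))
    refine ⟨q.symm ⟨s, hs⟩, q.symm ⟨t, ht⟩, fun e => h.ne_zero hx (sub_eq_zero.2 ?_), by simp⟩
    exact congrArg Subtype.val (q.symm.injective e)

theorem cases : TA (k := k) R ∨ TD Q R ∨ TE Q R :=
  (em _).symm.imp h.ta fun ⟨_, F⟩ => h.de F

end RS6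

end Cfsg.Agent.H9.E4
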