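import Mathlib

/-! Eigenspaces of elements normalising an extraspecial-type group. -/

set_option autoImplicit false

namespace Cfsg.Agent.H3

open Module Module.End

section Seq

variable {C : Type*} [AddCommGroup C]

theorem seq_lin {d : ℕ → C} {m : ℕ} (hper : ∀ k, d (k + m) = d k)
    (h : ∀ k, d (k + 2) - 2 • d (k + 1) + d k = 0) (k : ℕ) : m • (d (k + 1) - d k) = 0 := by
  have h1 : ∀ j, d (k + j + 1) - d (k + j) = d (k + 1) - d k := by
    intro j
    induction j with
    | zero => rfl
    | succ j ih =>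
      rw [← ih, ← sub_eq_zero, ← h (k + j), show k + (j + 1) + 1 = k + j + 2 by ring, ← add_assoc]
      abel
  have h2 : ∀ j, d (k + j) = d k + j • (d (k + 1) - d k) := by
    intro j
    induction j with
    | zero => simp
    | succ j ih => rw [succ_nsmul, ← add_assoc (d k), ← ih, ← h1 j, ← add_assoc]; abel
  have := h2 m
  rw [hper] at this
  simpa using this

theorem seq_odd {α : Type*} {e : ℕ → α} {m : ℕ} (hm : Odd m) (hper : ∀ k, e (k + m) = e k)
    (h : ∀ k, e (k + 2) = e k) (k : ℕ) : e (k + 1) = e k := by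
  obtain ⟨t, rfl⟩ := hm
  have h1 : ∀ j, e (k + 1 + 2 * j) = e (k + 1) := by
    intro j
    induction j with
    | zero => rfl
    | succ j ih => rw [mul_add, mul_one, ← add_assoc, h, ih]
  rw [← h1 t, ← hper k]
  congr 1
  ring

theorem seq_main {c : ℕ → C} {m : ℕ} (hm : Odd m) (hper : ∀ k, c (k + m) = c k)
    (h : ∀ k, c (k + 4) - 2 • c (k + 3) + 2 • c (k + 1) - c k = 0) :
    c 3 - 3 • c 2 + 3 • c 1 - c 0 = 0 ∧
      ∀ r, Nat.Coprime m r → (∀ k, r • c k = 0) → c 1 = c 0 := by
  have h1 := seq_odd (e := fun k => c (k + 2) - 2 • c (k + 1) + c k) hm (fun k => by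
    simp only [add_right_comm k m, hper]) (fun k => by
      rw [← sub_eq_zero, ← h k]
      simp only [add_assoc]
      norm_num
      abel)
  refine ⟨?_, fun r hr hc => ?_⟩
  · have := h1 0
    rw [← sub_eq_zero] at this
    rw [← this]
    simp only [zero_add]
    abel
  · have hz : ∀ v : C, m • v = 0 → r • v = 0 → v = 0 := fun v h1 h2 => by
      have := Nat.dvd_gcd (addOrderOf_dvd_of_nsmul_eq_zero h1) (addOrderOf_dvd_of_nsmul_eq_zero h2)
      rw [hr] at this
      exact AddMonoid.addOrderOf_eq_one_iff.mp (Nat.dvd_one.mp this)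
    have h2 : ∀ k, c (k + 2) - 2 • c (k + 1) + c k = 0 := by
      intro k
      have := seq_lin (d := fun k => c (k + 1) - c k) (m := m) (fun k => by
        simp only [add_right_comm k m, hper]) (fun k => by
          have := h1 k
          rw [← sub_eq_zero] at this
          rw [← this]
          simp only [add_assoc]
          norm_num
          abel) k
      have := hz _ this (by simp only [smul_sub, hc, sub_self])
      rw [← this]
      simp only [add_assoc]
      norm_num
      abel
    exact sub_eq_zero.mp (hz _ (seq_lin hper h2 0) (by simp only [smul_sub, hc, sub_self]))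

end Seq

section Group

variable {Γ C : Type*} [Group Γ] [CommGroup C]

/-- The commutator of `u` with `g`. -/
def cN (g u : Γ) : Γ := u⁻¹ * (g * u * g⁻¹)

theorem extra_cases (s : C →* Γ) (hs : Function.Injective s) (hz : ∀ c u, s c * u = u * s c)
    (E : Subgroup Γ) {g : Γ} (hg : ∀ u ∈ E, g * u * g⁻¹ ∈ E) {m r : ℕ} (hm : Odd m) (hgm : g ^ m = 1)
    (hcomm : ∀ u ∈ E, ∀ v ∈ E, ∃ c, c ^ r = 1 ∧ u * v = s c * (v * u))
    (hnd : ∀ u ∈ E, (∀ v ∈ E, u * v = v * u) → u ∈ s.range) :
    (∃ x ∈ E, cN g x * (g * cN g x * g⁻¹) ≠ g * cN g x * g⁻¹ * cN g x) ∨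
      ((∀ x ∈ E, cN g (cN g (cN g x)) ∈ s.range) ∧
        (Nat.Coprime m r → ∀ x ∈ E, cN g x ∈ s.range)) := by
  choose β hβr hβ using fun u v : E => hcomm u u.2 v v.2
  have uniq : ∀ (u v : E) (c : C), (u : Γ) * v = s c * (v * u) → β u v = c := fun u v c h =>
    hs (mul_right_cancel ((hβ u v).symm.trans h))
  have bl : ∀ u u' v : E, β (u * u') v = β u v * β u' v := fun u u' v => uniq _ _ _ (by
    rw [Subgroup.coe_mul, mul_assoc, hβ u' v, ← mul_assoc, ← hz, mul_assoc, ← mul_assoc (u : Γ),
      hβ u v, mul_comm (β u v), map_mul]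
    simp only [mul_assoc])
  have sk : ∀ u v : E, β v u = (β u v)⁻¹ := fun u v => uniq _ _ _ (by
    rw [hβ u v, map_inv, inv_mul_cancel_left])
  have br : ∀ u v v' : E, β u (v * v') = β u v * β u v' := fun u v v' => by
    rw [sk, bl, mul_inv, ← sk, ← sk]
  have b1 : ∀ u : E, β u 1 = 1 := fun u => uniq _ _ _ (by simp)
  have bri : ∀ u v : E, β u v⁻¹ = (β u v)⁻¹ := fun u v =>
    eq_inv_of_mul_eq_one_left (by rw [← br, inv_mul_cancel, b1])
  have bli : ∀ u v : E, β u⁻¹ v = (β u v)⁻¹ := fun u v => by rw [sk, bri, ← sk]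
  let σ : E →* E :=
    { toFun := fun u => ⟨g * u * g⁻¹, hg u u.2⟩
      map_one' := by ext; simp
      map_mul' := fun a b => by ext; simp [mul_assoc] }
  have hσ : ∀ u : E, (σ u : Γ) = g * u * g⁻¹ := fun _ => rfl
  have inv : ∀ u v : E, β (σ u) (σ v) = β u v := fun u v => uniq _ _ _ (by
    rw [← Subgroup.coe_mul, ← Subgroup.coe_mul, ← map_mul, ← map_mul, hσ, hσ, Subgroup.coe_mul,
      Subgroup.coe_mul, hβ u v, ← mul_assoc g, ← hz]
    simp only [mul_assoc])
  have hiter : ∀ (k : ℕ) (u : E), (σ^[k] u : Γ) = g ^ k * u * (g ^ k)⁻¹ := by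
    intro k u
    induction k with
    | zero => simp
    | succ k ih => rw [Function.iterate_succ_apply', hσ, ih, pow_succ']; simp [mul_assoc]
  have hper : ∀ (k : ℕ) (u : E), σ^[k + m] u = σ^[k] u := fun k u => Subtype.ext (by
    rw [hiter, hiter, pow_add, hgm, mul_one])
  let N : E → E := fun u => u⁻¹ * σ u
  have hN : ∀ u : E, (N u : Γ) = cN g u := fun _ => rfl
  by_cases h : ∃ x ∈ E, cN g x * (g * cN g x * g⁻¹) ≠ g * cN g x * g⁻¹ * cN g x
  · exact Or.inl h
  right
  push Not at h
  have h1 : ∀ x : E, β (N x) (σ (N x)) = 1 := fun x => uniq _ _ _ (by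
    rw [map_one, one_mul]; exact h x x.2)
  let B : E → E → Additive C := fun u v => Additive.ofMul (β u v)
  have Bl : ∀ u u' v, B (u * u') v = B u v + B u' v := fun u u' v => by simp only [B, bl, ofMul_mul]
  have Br : ∀ u v v', B u (v * v') = B u v + B u v' := fun u v v' => by simp only [B, br, ofMul_mul]
  have Bli : ∀ u v, B u⁻¹ v = -B u v := fun u v => by simp only [B, bli, ofMul_inv]
  have Bri : ∀ u v, B u v⁻¹ = -B u v := fun u v => by simp only [B, bri, ofMul_inv]
  have Bsk : ∀ u v, B v u = -B u v := fun u v => by simp only [B, sk u v, ofMul_inv]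
  have Binv : ∀ u v, B (σ u) (σ v) = B u v := fun u v => by simp only [B, inv]
  have expand : ∀ x y : E, B (N x) (σ (N y)) = 2 • B x (σ y) - B x (σ (σ y)) - B x y := by
    intro x y
    simp only [N, map_mul, map_inv, Bl, Br, Bli, Bri, Binv]
    abel
  have h1' : ∀ x : E, 2 • B x (σ x) - B x (σ (σ x)) - B x x = 0 := fun x => by
    rw [← expand]; simp only [B, h1, ofMul_one]
  have h2 : ∀ x z : E, B x (σ (σ (σ (σ z)))) - 2 • B x (σ (σ (σ z))) + 2 • B x (σ z) - B x z = 0 := by
    intro x z
    have e1 := h1' (x * σ (σ z))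
    have e2 := h1' x
    have e3 := h1' (σ (σ z))
    simp only [map_mul, Bl, Br, Binv] at e1 e3
    rw [Bsk x (σ z), Bsk x z, Bsk x (σ (σ z))] at e1
    linear_combination (norm := abel) e2 + e3 - e1
  have h3 := fun x y : E => seq_main (c := fun k => B x (σ^[k] y)) hm
    (fun k => by rw [hper]) (fun k => by
      simp only [Function.iterate_succ_apply']
      exact h2 x _)
  have fin : ∀ u : E, (∀ x, B x u = 0) → (u : Γ) ∈ s.range := fun u hu => hnd u u.2 (fun v hv => by
    have : β ⟨v, hv⟩ u = 1 := hu ⟨v, hv⟩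
    have e := hβ ⟨v, hv⟩ u
    rw [this, map_one, one_mul] at e
    exact e.symm)
  refine ⟨fun y hy => fin (N (N (N ⟨y, hy⟩))) (fun x => ?_), fun hc y hy => fin (N ⟨y, hy⟩) (fun x => ?_)⟩
  · have := (h3 x ⟨y, hy⟩).1
    simp only [Function.iterate_succ_apply', Function.iterate_zero, id] at this
    simp only [N, map_mul, map_inv, Br, Bri]
    linear_combination (norm := abel) this
  · have := (h3 x ⟨y, hy⟩).2 r hc (fun k => by
      simp only [B, ← ofMul_pow, hβr, ofMul_one])
    simp only [Function.iterate_succ_apply', Function.iterate_zero, id] at this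
    simp only [N, Br, Bri]
    linear_combination (norm := abel) this

end Group

section Lin

variable {F V : Type*} [Field F] [AddCommGroup V] [Module F V] [FiniteDimensional F V]

theorem sum_finrank_inf_le (f : End F V) (U : Submodule F V) (s : Finset F) :
    ∑ a ∈ s, finrank F ↥(f.eigenspace a ⊓ U) ≤ finrank F U := by
  classical
  have : ∑ a ∈ s, finrank F ↥(f.eigenspace a ⊓ U) = finrank F ↥(⨆ a ∈ s, f.eigenspace a ⊓ U) := by
    induction s using Finset.induction_on with
    | empty =>
      rw [Finset.sum_empty, show (⨆ a ∈ (∅ : Finset F), f.eigenspace a ⊓ U) = ⊥ by simp, finrank_bot]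
    | insert a s ha ih =>
      rw [Finset.sum_insert ha, Finset.iSup_insert, ih, ← Submodule.finrank_sup_add_finrank_inf_eq]
      have hd : Disjoint (f.eigenspace a ⊓ U) (⨆ b ∈ s, f.eigenspace b ⊓ U) :=
        (f.eigenspaces_iSupIndep.disjoint_biSup (y := (s : Set F)) ha).mono inf_le_left
          (iSup₂_mono fun b _ => inf_le_left)
      rw [hd.eq_bot, finrank_bot, add_zero]
  rw [this]
  exact Submodule.finrank_mono (iSup₂_le fun a _ => inf_le_right)

theorem finrank_ker_mul_le (W : Submodule F V) (A B : End F V) (hB : ∀ w ∈ W, B w ∈ W) :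
    finrank F ↥(LinearMap.ker (A * B) ⊓ W) ≤
      finrank F ↥(LinearMap.ker A ⊓ W) + finrank F ↥(LinearMap.ker B ⊓ W) := by
  let f : ↥(LinearMap.ker (A * B) ⊓ W) →ₗ[F] ↥(LinearMap.ker A ⊓ W) :=
    B.restrict (fun w hw => ⟨hw.1, hB w hw.2⟩)
  rw [← f.finrank_range_add_finrank_ker]
  refine Nat.add_le_add (Submodule.finrank_le _) ?_
  let i : LinearMap.ker f →ₗ[F] ↥(LinearMap.ker B ⊓ W) :=
    ((Submodule.subtype _).comp (Submodule.subtype _)).codRestrict _
      (fun w => ⟨congrArg Subtype.val w.2, w.1.2.2⟩)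
  exact LinearMap.finrank_le_finrank_of_injective (f := i) (fun a b h => by
    have := congrArg Subtype.val h
    exact Subtype.ext (Subtype.ext this))

open Polynomial in
theorem finrank_le_sum_eig (W : Submodule F V) (y : End F V) (hy : ∀ w ∈ W, y w ∈ W) (s : Finset F) :
    finrank F ↥(LinearMap.ker (aeval y (∏ b ∈ s, (X - C b))) ⊓ W) ≤
      ∑ b ∈ s, finrank F ↥(y.eigenspace b ⊓ W) := by
  classical
  induction s using Finset.induction_on with
  | empty =>
    rw [Finset.prod_empty, map_one, show LinearMap.ker (1 : End F V) = ⊥ from LinearMap.ker_id,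
      bot_inf_eq, finrank_bot]
    exact Nat.zero_le _
  | insert a s ha ih =>
    rw [Finset.prod_insert ha, Finset.sum_insert ha, mul_comm, map_mul, add_comm]
    refine (finrank_ker_mul_le W _ _ (fun w hw => ?_)).trans (Nat.add_le_add ih ?_)
    · simpa using W.sub_mem (hy w hw) (W.smul_mem a hw)
    · rw [eigenspace_def, show aeval y (X - C a) = y - a • 1 by
        simp [Algebra.algebraMap_eq_smul_one]]

variable {Γ : Type*} [Group Γ] (ρ : Γ →* End F V)

theorem finrank_le_of_maps (x : Γ) {A B : Submodule F V} (h : ∀ v ∈ A, ρ x v ∈ B) :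
    finrank F A ≤ finrank F B := by
  refine LinearMap.finrank_le_finrank_of_injective (f := (ρ x).restrict h) (fun a b e => ?_)
  have e1 : ρ x a = ρ x b := congrArg Subtype.val e
  have e2 := congrArg (ρ x⁻¹) e1
  simp only [← Module.End.mul_apply, ← map_mul, inv_mul_cancel, map_one, Module.End.one_apply] at e2
  exact Subtype.ext e2

omit [FiniteDimensional F V] in
theorem eig_ne_zero {g : Γ} {c : F} (h : (ρ g).eigenspace c ≠ ⊥) : c ≠ 0 := by
  rintro rfl
  obtain ⟨v, hv, h0⟩ := (Submodule.ne_bot_iff _).mp h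
  rw [mem_eigenspace_iff, zero_smul] at hv
  have e2 := congrArg (ρ g⁻¹) hv
  simp only [← Module.End.mul_apply, ← map_mul, inv_mul_cancel, map_one, Module.End.one_apply,
    map_zero] at e2
  exact h0 e2

variable (s : Fˣ →* Γ) (hs : ∀ c v, ρ (s c) v = (c : F) • v)
include hs

theorem mul_finrank_eig_le {g x : Γ} {l : Fˣ} (h : g * x = s l * (x * g)) {k : ℕ}
    (hl : ∀ i < k, ∀ j < k, l ^ i = l ^ j → i = j) (c : F) :
    k * finrank F ((ρ g).eigenspace c) ≤ finrank F V := by
  classical
  by_cases h0 : (ρ g).eigenspace c = ⊥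
  · rw [h0, finrank_bot, mul_zero]; exact Nat.zero_le _
  have hc := eig_ne_zero ρ h0
  have h1 : ∀ i : ℕ, finrank F ((ρ g).eigenspace c) ≤ finrank F ((ρ g).eigenspace (c * l ^ i)) := by
    intro i
    induction i with
    | zero => rw [pow_zero, mul_one]
    | succ i ih =>
      refine ih.trans (finrank_le_of_maps ρ x (fun v hv => ?_))
      rw [mem_eigenspace_iff] at hv ⊢
      rw [← Module.End.mul_apply, ← map_mul, h, map_mul, map_mul, Module.End.mul_apply,
        Module.End.mul_apply, hs, hv, map_smul, smul_smul]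
      congr 1
      ring
  have h2 := sum_finrank_inf_le (ρ g) ⊤ ((Finset.range k).image fun i => c * l ^ i)
  rw [Finset.sum_image (fun i hi j hj e => hl i (Finset.mem_range.mp hi) j (Finset.mem_range.mp hj)
    (Units.ext (by simpa using mul_left_cancel₀ hc e))), finrank_top] at h2
  refine le_trans ?_ h2
  have := Finset.card_nsmul_le_sum (Finset.range k)
    (fun i => finrank F ↥((ρ g).eigenspace (c * l ^ i) ⊓ ⊤)) _ (fun i _ => by
      rw [inf_top_eq]; exact h1 i)
  simpa using this

theorem two_mul_finrank_eig_le {g x : Γ} {l : Fˣ} (h : g * x = s l * (x * g)) (hl : l ≠ 1) (c : F) :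
    2 * finrank F ((ρ g).eigenspace c) ≤ finrank F V := by
  refine mul_finrank_eig_le ρ s hs h (fun i hi j hj e => ?_) c
  interval_cases i <;> interval_cases j <;> simp_all

omit hs in
theorem inj_of_prime {l : Fˣ} {r : ℕ} (hr : r.Prime) (h : l ^ r = 1) (hl : l ≠ 1) :
    ∀ i < r, ∀ j < r, l ^ i = l ^ j → i = j := by
  have : Fact r.Prime := ⟨hr⟩
  intro i hi j hj e
  rw [← orderOf_eq_prime h hl] at hi hj
  exact pow_injOn_Iio_orderOf hi hj e

omit hs in
theorem two_mul_le_add_inf (g x : Γ) (c : F) : 2 * finrank F ((ρ g).eigenspace c) ≤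
    finrank F V + finrank F ↥((ρ g).eigenspace c ⊓ (ρ (x⁻¹ * g * x)).eigenspace c) := by
  have h1 := Submodule.finrank_sup_add_finrank_inf_eq ((ρ g).eigenspace c)
    ((ρ (x⁻¹ * g * x)).eigenspace c)
  have h2 := Submodule.finrank_le ((ρ g).eigenspace c ⊔ (ρ (x⁻¹ * g * x)).eigenspace c)
  have h3 : finrank F ((ρ g).eigenspace c) ≤ finrank F ((ρ (x⁻¹ * g * x)).eigenspace c) := by
    refine finrank_le_of_maps ρ x⁻¹ (fun v hv => ?_)
    rw [mem_eigenspace_iff] at hv ⊢
    rw [← Module.End.mul_apply, ← map_mul, mul_inv_cancel_right, map_mul, Module.End.mul_apply, hv,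
      map_smul]
  omega

omit hs [FiniteDimensional F V] in
theorem cN_fix {g x : Γ} {c : F} {v : V}
    (hv : v ∈ (ρ g).eigenspace c ⊓ (ρ (x⁻¹ * g * x)).eigenspace c) :
    ρ (cN g x) v = v ∧ ρ (g * cN g x * g⁻¹) v = v := by
  obtain ⟨h1, h2⟩ := hv
  rw [SetLike.mem_coe, mem_eigenspace_iff] at h1 h2
  by_cases h0 : v = 0
  · simp [h0]
  have hc : c ≠ 0 := eig_ne_zero ρ ((Submodule.ne_bot_iff _).mpr ⟨v, mem_eigenspace_iff.mpr h1, h0⟩)
  have h3 : ρ g⁻¹ v = c⁻¹ • v := by
    rw [eq_inv_smul_iff₀ hc, ← map_smul, ← h1, ← Module.End.mul_apply, ← map_mul, inv_mul_cancel,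
      map_one, Module.End.one_apply]
  have h4 : ρ (cN g x) v = v := by
    rw [show cN g x = x⁻¹ * g * x * g⁻¹ by simp [cN, mul_assoc], map_mul, Module.End.mul_apply, h3,
      map_smul, h2, inv_smul_smul₀ hc]
  refine ⟨h4, ?_⟩
  rw [map_mul, map_mul, Module.End.mul_apply, Module.End.mul_apply, h3, map_smul, h4, map_smul, h1,
    inv_smul_smul₀ hc]

theorem two_mul_le_of_noncomm {g x : Γ} {l : Fˣ} (hl : l ≠ 1)
    (h : cN g x * (g * cN g x * g⁻¹) = s l * (g * cN g x * g⁻¹ * cN g x)) (c : F) :
    2 * finrank F ((ρ g).eigenspace c) ≤ finrank F V := by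
  have h1 := two_mul_le_add_inf ρ g x c
  have h2 : (ρ g).eigenspace c ⊓ (ρ (x⁻¹ * g * x)).eigenspace c = ⊥ := by
    rw [eq_bot_iff]
    intro v hv
    obtain ⟨e1, e2⟩ := cN_fix ρ hv
    have e3 := congrArg (fun z => ρ z v) h
    rw [map_mul, map_mul ρ (s l), map_mul ρ _ (cN g x), Module.End.mul_apply, Module.End.mul_apply,
      Module.End.mul_apply, e2, e1, e2, hs] at e3
    have : ((l : F) - 1) • v = 0 := by rw [sub_smul, ← e3, one_smul, sub_self]
    exact (smul_eq_zero.mp this).resolve_left (sub_ne_zero.mpr (by simpa using hl))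
  rwa [h2, finrank_bot, add_zero] at h1

omit hs in
theorem two_mul_le_add_cN (g x : Γ) (c : F) : 2 * finrank F ((ρ g).eigenspace c) ≤
    finrank F V + finrank F ((ρ (cN g x)).eigenspace 1) := by
  refine (two_mul_le_add_inf ρ g x c).trans (Nat.add_le_add_left (Submodule.finrank_mono ?_) _)
  intro v hv
  rw [mem_eigenspace_iff, one_smul]
  exact (cN_fix ρ hv).1

theorem two_mul_le_weil {r : ℕ} (hr : r.Prime) (h5 : 5 ≤ r) {ζ : F} (hζ : IsPrimitiveRoot ζ r)
    {g x y : Γ} (hgy : g * y = y * g) (hgx : g * x = x * y * g) {μ : Fˣ} (hμ : μ ^ r = 1)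
    (hyx : y * x = s μ * (x * y)) (hyr : y ^ r = 1)
    (hS : ∀ b, r * finrank F ((ρ y).eigenspace b) ≤ finrank F V) (c : F) :
    2 * finrank F ((ρ g).eigenspace c) ≤ finrank F V := by
  classical
  by_cases h0 : (ρ g).eigenspace c = ⊥
  · rw [h0, finrank_bot, mul_zero]; exact Nat.zero_le _
  have hc := eig_ne_zero ρ h0
  have : NeZero r := ⟨hr.ne_zero⟩
  let D : F → F → ℕ := fun a b => finrank F ↥((ρ g).eigenspace a ⊓ (ρ y).eigenspace b)
  have h1 : finrank F ((ρ g).eigenspace c) ≤ ∑ b ∈ Polynomial.nthRootsFinset r (1 : F), D c b := by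
    have := finrank_le_sum_eig ((ρ g).eigenspace c) (ρ y) (fun w hw => by
      rw [mem_eigenspace_iff] at hw ⊢
      rw [← Module.End.mul_apply, ← map_mul, hgy, map_mul, Module.End.mul_apply, hw, map_smul])
      (Polynomial.nthRootsFinset r (1 : F))
    rw [← Polynomial.X_pow_sub_one_eq_prod hr.pos hζ] at this
    rw [map_sub, map_pow, Polynomial.aeval_X, map_one, ← map_pow ρ, hyr, map_one, sub_self,
      LinearMap.ker_zero, top_inf_eq] at this
    refine this.trans (Finset.sum_le_sum fun b _ => ?_)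
    rw [inf_comm]
  have h2 : ∀ a b, D a b ≤ D (a * b) (μ * b) := by
    intro a b
    refine finrank_le_of_maps ρ x (fun v hv => ?_)
    obtain ⟨e1, e2⟩ := hv
    rw [SetLike.mem_coe, mem_eigenspace_iff] at e1 e2
    refine ⟨mem_eigenspace_iff.mpr ?_, mem_eigenspace_iff.mpr ?_⟩
    · rw [← Module.End.mul_apply, ← map_mul, hgx, map_mul, map_mul, Module.End.mul_apply,
        Module.End.mul_apply, e1, map_smul, e2, smul_smul, map_smul]
    · rw [← Module.End.mul_apply, ← map_mul, hyx, map_mul, map_mul, Module.End.mul_apply,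
        Module.End.mul_apply, hs, e2, map_smul, smul_smul]
  have h3 : ∀ (b : F) (t : Finset F), r * ∑ a ∈ t, D a b ≤ finrank F V := fun b t =>
    (Nat.mul_le_mul_left r (sum_finrank_inf_le (ρ g) _ t)).trans (hS b)
  by_cases hμ1 : μ = 1
  · subst hμ1
    have h4 : ∀ b ∈ (Polynomial.nthRootsFinset r (1 : F)).erase 1, r * r * D c b ≤ finrank F V := by
      intro b hb
      obtain ⟨hb1, hb⟩ := Finset.mem_erase.mp hb
      have hp := isPrimitiveRoot_of_mem_nthRootsFinset hr hb hb1
      have h5 : ∀ i : ℕ, D c b ≤ D (c * b ^ i) b := by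
        intro i
        induction i with
        | zero => simp
        | succ i ih =>
          have := h2 (c * b ^ i) b
          rw [Units.val_one, one_mul, mul_assoc, ← pow_succ] at this
          exact ih.trans this
      have h6 := h3 b ((Finset.range r).image fun i => c * b ^ i)
      rw [Finset.sum_image (fun i hi j hj e => hp.pow_inj (Finset.mem_range.mp hi)
        (Finset.mem_range.mp hj) (mul_left_cancel₀ hc e))] at h6
      have h7 := Finset.card_nsmul_le_sum (Finset.range r) (fun i => D (c * b ^ i) b) _ (fun i _ => h5 i)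
      rw [Finset.card_range, smul_eq_mul] at h7
      rw [mul_assoc]
      exact (Nat.mul_le_mul_left r h7).trans h6
    have h5 := h3 1 {c}
    rw [Finset.sum_singleton] at h5
    have h1m : (1 : F) ∈ Polynomial.nthRootsFinset r (1 : F) := Polynomial.one_mem_nthRootsFinset hr.pos
    rw [← Finset.add_sum_erase _ _ h1m] at h1
    have h6 := Finset.sum_le_card_nsmul _ _ _ h4
    rw [← Finset.mul_sum, Finset.card_erase_of_mem h1m, hζ.card_nthRootsFinset, smul_eq_mul] at h6
    obtain ⟨k, rfl⟩ : ∃ k, r = k + 1 := ⟨r - 1, by omega⟩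
    rw [Nat.add_sub_cancel] at h6
    by_contra hlt
    push Not at hlt
    have h7 := Nat.mul_le_mul_left ((k + 1) * (k + 1)) h1
    have h8 := Nat.mul_le_mul_left (k + 1) h5
    have h9 : 4 * k + 2 ≤ (k + 1) * (k + 1) := by nlinarith
    have h10 := Nat.mul_le_mul_right (finrank F ((ρ g).eigenspace c)) h9
    nlinarith
  · have hp : IsPrimitiveRoot (μ : F) r := isPrimitiveRoot_of_mem_nthRootsFinset hr
      ((Polynomial.mem_nthRootsFinset hr.pos _).mpr (by simpa using congrArg Units.val hμ))
      (by simpa using hμ1)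
    have h4 : ∀ (j : ℕ) (a b : F), D a b ≤ D (a * b ^ j * μ ^ (j.choose 2)) (μ ^ j * b) := by
      intro j a b
      induction j with
      | zero => simp
      | succ j ih =>
        refine ih.trans ((h2 _ _).trans (le_of_eq ?_))
        rw [Nat.choose_succ_succ' j 1, Nat.choose_one_right]
        congr 1 <;> ring
    let f : ℕ → F := fun j => c * ((μ : F) ^ (r - j)) ^ j * μ ^ (j.choose 2)
    have h5 : ∑ b ∈ Polynomial.nthRootsFinset r (1 : F), D c b ≤ ∑ j ∈ Finset.range r, D (f j) 1 := by
      have e : Polynomial.nthRootsFinset r (1 : F) ⊆ (Finset.range r).image fun j => (μ : F) ^ (r - j) := by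
        intro b hb
        obtain ⟨i, hi, rfl⟩ := hp.eq_pow_of_pow_eq_one ((Polynomial.mem_nthRootsFinset hr.pos _).mp hb)
        rcases Nat.eq_zero_or_pos i with rfl | hi0
        · exact Finset.mem_image.mpr ⟨0, Finset.mem_range.mpr hr.pos, by simp [hp.pow_eq_one]⟩
        · exact Finset.mem_image.mpr ⟨r - i, Finset.mem_range.mpr (by omega), by
            rw [Nat.sub_sub_self hi.le]⟩
      refine (Finset.sum_le_sum_of_subset e).trans (Finset.sum_image_le_of_nonneg
        (fun _ _ => Nat.zero_le _) |>.trans (Finset.sum_le_sum fun j hj => ?_))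
      have := h4 j c ((μ : F) ^ (r - j))
      rwa [← pow_add, Nat.add_sub_cancel' (Finset.mem_range.mp hj).le, hp.pow_eq_one] at this
    have h6 : ∑ j ∈ Finset.range r, D (f j) 1 ≤ 2 * ∑ a ∈ (Finset.range r).image f, D a 1 := by
      rw [Finset.sum_comp (fun a => D a 1) f, Finset.mul_sum]
      refine Finset.sum_le_sum fun a ha => ?_
      rw [smul_eq_mul]
      refine Nat.mul_le_mul_right _ ?_
      obtain ⟨j₀, hj₀, rfl⟩ := Finset.mem_image.mp ha
      have : Fact r.Prime := ⟨hr⟩
      refine le_trans (Finset.card_le_card_of_injOn (t := {(j₀ : ZMod r), -1 - (j₀ : ZMod r)})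
        (fun j => (j : ZMod r)) (fun j hj => ?_) (fun i hi j hj e => ?_)) Finset.card_le_two
      · obtain ⟨hj, e⟩ := Finset.mem_filter.mp hj
        have key : ∀ j < r, (((2 * ((r - j) * j + j.choose 2) : ℕ)) : ZMod r) = -(j * (j + 1)) := by
          intro j hj
          rw [mul_add, Nat.cast_add, show 2 * j.choose 2 = j * (j - 1) by
            rw [Nat.choose_two_right]; exact Nat.mul_div_cancel' (Nat.even_mul_pred_self j).two_dvd]
          rcases Nat.eq_zero_or_pos j with rfl | h
          · simp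
          · push_cast [Nat.cast_sub hj.le, Nat.cast_sub h]
            simp
            ring
        simp only [f, mul_assoc, ← pow_mul, ← pow_add] at e
        have e1 := mul_left_cancel₀ hc e
        have e2 : (((r - j) * j + j.choose 2 : ℕ) : ZMod r) = ((r - j₀) * j₀ + j₀.choose 2 : ℕ) := by
          have e5 := (pow_eq_pow_iff_modEq (x := μ)).mp (Units.ext (by simpa using e1))
          rw [← orderOf_units, ← hp.eq_orderOf] at e5
          exact (ZMod.natCast_eq_natCast_iff _ _ _).mpr e5
        have e3 := key j (Finset.mem_range.mp hj)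
        rw [Nat.cast_mul, e2, ← Nat.cast_mul, key j₀ (Finset.mem_range.mp hj₀)] at e3
        have e4 : ((j : ZMod r) - j₀) * (j - (-1 - j₀)) = 0 := by linear_combination e3
        simpa [sub_eq_zero] using e4
      · have hi' := Finset.mem_range.mp (Finset.mem_filter.mp hi).1
        have hj' := Finset.mem_range.mp (Finset.mem_filter.mp hj).1
        exact Nat.ModEq.eq_of_lt_of_lt ((ZMod.natCast_eq_natCast_iff _ _ _).mp e) hi' hj'
    have h7 := h3 1 ((Finset.range r).image f)
    nlinarith

end Lin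

end Cfsg.Agent.H3
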