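import Cfsg.Agent.H8.M3F

/-! The arithmetic of the class equation for centralisers of order sixty-four. -/

set_option autoImplicit false
set_option linter.unusedSectionVars false
set_option linter.unusedVariables false
set_option linter.unusedSimpArgs false

namespace Cfsg.Agent.H3.F4

open Finset Cfsg.Agent.H8.M3

def cc (P N E ε : ℤ) : ℤ :=
  if ε = 0 then (123 + 64 * E) / P else (P * (123 + 64 * E) - 1) / (P * P - (51 * P - 64 * N))

def Gd (P N E m ε c : ℤ) : Prop :=
  64 * P ∣ (51 * P - 64 * N) * c - 1 → m < c →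
    P * c = 123 + 64 * E + 64 * ε * (((51 * P - 64 * N) * c - 1) / (64 * P)) →
    2 * (((51 * P - 64 * N) * c - 1) / (64 * P)) < c →
    ((51 * P - 64 * N) * c - 1) / (64 * P) ∣ c - 1 →
    c = 9 ∧ ((51 * P - 64 * N) * c - 1) / (64 * P) = 1

instance (P N E m ε c : ℤ) : Decidable (Gd P N E m ε c) := by unfold Gd; infer_instance

def Good (P N E m : ℤ) : Prop := Gd P N E m 0 (cc P N E 0) ∧ Gd P N E m 1 (cc P N E 1)

instance (P N E m : ℤ) : Decidable (Good P N E m) := by unfold Good; infer_instance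

/-- the contribution to the number of involutions -/
def ev (a ν : ℕ) : ℕ := if ν % 2 = 0 then (a - 1) / ν else 0

theorem Good.use {P N E m : ℕ} (h : Good P N E m) (P0 : 0 < P) {c ν : ℕ} (hc : m < c) (hd : ν ∣ c - 1)
    (h2 : 2 ≤ ν) (e1 : P * c = 123 + 64 * (E + ev c ν))
    (e2 : 64 * (N * c + (c - 1) / ν * P) + 1 = 51 * (P * c)) : c = 9 ∧ ν = 8 := by
  obtain ⟨j, hj⟩ := hd
  rw [ev, hj, Nat.mul_div_cancel_left _ (by omega)] at e1
  rw [hj, Nat.mul_div_cancel_left _ (by omega)] at e2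
  obtain rfl : c = ν * j + 1 := by omega
  generalize hc' : ν * j + 1 = c at *
  have hz : (c : ℤ) - 1 = j * ν := by rw [← hc']; push_cast; ring
  have a : (51 * P - 64 * N : ℤ) * c - 1 = 64 * P * j := by zify at e2; linear_combination -e2
  have b : ((51 * P - 64 * N : ℤ) * c - 1) / (64 * P) = j := by
    rw [a, Int.mul_ediv_cancel_left _ (by omega)]
  have key : ∀ ε : ℤ, Gd P N E m ε c → (P * c : ℤ) = 123 + 64 * E + 64 * ε * j → c = 9 ∧ ν = 8 :=
    fun ε g e => by
      have := g ⟨_, a⟩ (by omega) (by rw [b, e]) (by rw [b]; nlinarith) (by rw [b]; exact ⟨_, hz⟩)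
      rw [b] at this
      obtain ⟨rfl, rfl⟩ : c = 9 ∧ j = 1 := by omega
      omega
  split_ifs at e1 <;> zify at e1
  · refine key 1 (by
      convert h.2 using 1
      have e3 : (P * (123 + 64 * E) - 1 : ℤ) = (P * P - (51 * P - 64 * N)) * c := by
        linear_combination -P * e1 + a
      rw [cc, if_neg one_ne_zero, e3, Int.mul_ediv_cancel_left _ fun e => by
        rw [e] at e3; nlinarith]) (by linear_combination e1)
  · refine key 0 (by
      convert h.1 using 1
      rw [cc, if_pos rfl, show (123 + 64 * E : ℤ) = P * c by linear_combination -e1,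
        Int.mul_ediv_cancel_left _ (by omega)]) (by linear_combination e1)

theorem g1 : Good (1 : ℕ) (0 : ℕ) (0 : ℕ) (0 : ℕ) := by decide +kernel

theorem g2 : ∀ a < 66, ∀ ν < a, 2 ≤ ν → ν ∣ a - 1 →
    Good (a : ℕ) ((a - 1) / ν : ℕ) (ev a ν : ℕ) (a : ℕ) := by decide +kernel

def G4 (a ν b μ : ℕ) : Prop :=
  Good (b * a : ℕ) ((a - 1) / ν * b + (b - 1) / μ * a : ℕ) (ev b μ + ev a ν : ℕ) (b : ℕ)

instance (a ν b μ : ℕ) : Decidable (G4 a ν b μ) := by unfold G4; infer_instance

def G5 (a ν b : ℕ) : Prop := ∀ μ < b, 2 ≤ μ → μ ∣ b - 1 → G4 a ν b μ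

instance (a ν b : ℕ) : Decidable (G5 a ν b) := by unfold G5; infer_instance

def G3 (a ν : ℕ) : Prop := ∀ b < 34, a < b → b % 2 = 1 → G5 a ν b

instance (a ν : ℕ) : Decidable (G3 a ν) := by unfold G3; infer_instance

theorem g3 : ∀ a < 10, a % 2 = 1 → ∀ ν < a, 2 ≤ ν → ν ∣ a - 1 → G3 a ν := by
  decide +kernel

theorem ev_le {a ν : ℕ} (h : 2 ≤ ν) (ha : 3 ≤ a) : 2 * ev a ν + 1 ≤ a := by
  have := Nat.div_le_div_left (a := a - 1) h two_pos
  unfold ev; split_ifs <;> omega

theorem grow {ι : Type*} (T : Finset ι) (a e : ι → ℕ) (h : ∀ i ∈ T, 2 * e i + 1 ≤ a i) {X : ℕ}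
    (hX : 32 ≤ X) : X + 64 * ∑ i ∈ T, e i ≤ X * ∏ i ∈ T, a i := by
  classical
  induction T using Finset.induction_on with
  | empty => simp
  | insert i T hi ih =>
    have h1 := ih fun j hj => h j (mem_insert_of_mem hj)
    have h2 := h i (mem_insert_self i T)
    rw [sum_insert hi, prod_insert hi]
    nlinarith [Nat.zero_le (∑ i ∈ T, e i)]

theorem four {a b c d : ℕ} (h : 3 ≤ d) (h1 : d + 2 ≤ a) (h2 : a + 2 ≤ b) (h3 : b + 2 ≤ c) :
    32 * (a + b + c + d) < c * (b * (a * d)) := by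
  have : 15 ≤ a * d := by nlinarith
  have : 15 * b ≤ b * (a * d) := by nlinarith
  nlinarith

theorem tm_div {a ν : ℕ} (ha : 3 ≤ a) (h2 : 2 ≤ ν) (hd : ν ∣ a - 1) :
    tm a ν = (((a - 1) / ν : ℕ) : ℚ) / a := by
  rw [Nat.cast_div hd (by positivity), Nat.cast_sub (by omega), tm]
  field_simp
  simp

theorem arith {ι : Type*} (R : Finset ι) (a ν : ι → ℕ) (odd : ∀ i ∈ R, a i % 2 = 1)
    (h3 : ∀ i ∈ R, 3 ≤ a i) (nd : ∀ i ∈ R, ν i ∣ a i - 1) (n2 : ∀ i ∈ R, 2 ≤ ν i)
    (cop : ∀ i ∈ R, ∀ j ∈ R, i ≠ j → (a i).Coprime (a j))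
    (he : 51 / 64 - 1 / (64 * (∏ i ∈ R, a i : ℕ) : ℚ) = ∑ i ∈ R, tm (a i) (ν i))
    (hI : ∏ i ∈ R, a i = 123 + 64 * ∑ i ∈ R, ev (a i) (ν i)) : ∃ i ∈ R, a i = 9 ∧ ν i = 8 := by
  classical
  rw [sum_congr rfl fun i hi => tm_div (h3 i hi) (n2 i hi) (nd i hi)] at he
  have lt : ∀ i ∈ R, ∀ j ∈ R, i ≠ j → a i ≤ a j → a i + 2 ≤ a j := fun i hi j hj ne le => by
    have := odd i hi
    have := odd j hj
    have := h3 i hi
    have : a i ≠ a j := fun e => by
      have := cop i hi j hj ne
      rw [e, Nat.coprime_self] at this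
      omega
    omega
  have nl : ∀ i ∈ R, ν i < a i := fun i hi => by
    have := h3 i hi
    have := Nat.le_of_dvd (by omega) (nd i hi)
    omega
  have el := fun i hi => ev_le (n2 i hi) (h3 i hi)
  have a0 : ∀ i ∈ R, (a i : ℚ) ≠ 0 := fun i hi => by have := h3 i hi; positivity
  obtain ⟨z, hz, mz⟩ := exists_max_image R a (nonempty_of_ne_empty (by rintro rfl; simp at hI))
  rw [← mul_prod_erase _ _ hz, ← add_sum_erase _ _ hz] at he hI
  refine ⟨z, hz, ?_⟩
  rcases (R.erase z).eq_empty_or_nonempty with e | e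
  · simp only [e, prod_empty, sum_empty, mul_one, add_zero] at he hI
    refine g1.use one_pos (by have := h3 z hz; omega) (nd z hz) (n2 z hz) (by simpa using hI) ?_
    have := a0 z hz
    field_simp at he
    refine Nat.cast_injective (R := ℚ) ?_
    push_cast
    linear_combination -he
  obtain ⟨y, hy, my⟩ := exists_max_image _ a e
  rw [← mul_prod_erase _ _ hy, ← add_sum_erase _ _ hy] at he hI
  have hy' := mem_of_mem_erase hy
  have yz := lt y hy' z hz (ne_of_mem_erase hy) (mz y hy')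
  have ez := el z hz
  have ey := el y hy'
  rcases ((R.erase z).erase y).eq_empty_or_nonempty with e | e
  · simp only [e, prod_empty, sum_empty, mul_one, add_zero] at he hI
    refine (g2 (a y) (by nlinarith) (ν y) (nl y hy') (n2 y hy') (nd y hy')).use
      (by have := h3 y hy'; omega) (by omega) (nd z hz) (n2 z hz) (by linarith) ?_
    have := a0 z hz
    have := a0 y hy'
    push_cast at he
    field_simp at he
    refine Nat.cast_injective (R := ℚ) ?_
    push_cast
    linear_combination -he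
  obtain ⟨x, hx, mx⟩ := exists_max_image _ a e
  rw [← mul_prod_erase _ _ hx, ← add_sum_erase _ _ hx] at he hI
  have hx' := mem_of_mem_erase (mem_of_mem_erase hx)
  have xy := lt x hx' y hy' (ne_of_mem_erase hx) (my x (mem_of_mem_erase hx))
  have ex := el x hx'
  have x3 := h3 x hx'
  rcases (((R.erase z).erase y).erase x).eq_empty_or_nonempty with e | ⟨w, hw⟩
  · simp only [e, prod_empty, sum_empty, mul_one, add_zero] at he hI
    have b : a y * a x < 100 := by nlinarith
    refine Good.use (g3 (a x) (by nlinarith) (odd x hx') (ν x) (nl x hx') (n2 x hx') (nd x hx') (a y)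
      (by nlinarith) (by omega) (odd y hy') (ν y) (nl y hy') (n2 y hy') (nd y hy'))
      (Nat.mul_pos (by omega) (by omega)) (by omega) (nd z hz) (n2 z hz) (by linarith) ?_
    have := a0 z hz
    have := a0 y hy'
    have := a0 x hx'
    push_cast at he
    field_simp at he
    refine Nat.cast_injective (R := ℚ) ?_
    push_cast
    linear_combination -he
  exfalso
  rw [← mul_prod_erase _ _ hw, ← add_sum_erase _ _ hw] at hI
  have hw' := mem_of_mem_erase (mem_of_mem_erase (mem_of_mem_erase hw))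
  have wx := lt w hw' x hx' (ne_of_mem_erase hw) (mx w (mem_of_mem_erase hw))
  have ew := el w hw'
  have f := four (h3 w hw') wx xy yz
  have g := grow _ a (fun i => ev (a i) (ν i)) (fun i (hi : i ∈ (((R.erase z).erase y).erase x).erase w) =>
    el i (mem_of_mem_erase (mem_of_mem_erase (mem_of_mem_erase (mem_of_mem_erase hi)))))
    (X := a z * (a y * (a x * a w))) (by omega)
  simp only [mul_assoc] at g
  omega

end Cfsg.Agent.H3.F4
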