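import Cfsg.Agent.H2.L4X1
import Cfsg.Agent.H4.P6.B

/-! Case I in `SL_4`: an odd diagonal element makes the centraliser of `t` monomial. -/

set_option autoImplicit false
set_option linter.unusedSectionVars false
set_option linter.unusedVariables false
set_option linter.unusedSimpArgs false

namespace Cfsg.Agent.H3.F4X

open Module Matrix Cfsg.Agent.H6.L4 Cfsg.Agent.H8.M3 Cfsg.Agent.LD.F4 Cfsg.Agent.H2.LF Cfsg.Agent.H7.FA
open Cfsg.Agent.H2.LX Cfsg.Agent.H4.P6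
open Cfsg.Agent.H1.L4 (Cy)
open Cfsg.Agent.H6.S4 (nc um ui iu u_inj u_ne)

universe u

variable {k V : Type*} [Field k] [AddCommGroup V] [Module k V] [FiniteDimensional k V]
  {G : Type u} [Group G] {P : Subgroup (End k V)ˣ} {π : P →* G} {p n : ℕ}
  {τ υ : (End k V)ˣ} {e0 e1 e2 e3 : V}

theorem mono {s r a b c d w0 w1 w2 w3 : k} {M : Matrix (Fin 2) (Fin 2) k} (ne : s ≠ r)
    (dt : a * d - b * c ≠ 0) (h1 : M * !![s, 0; 0, r] = !![s, 0; 0, r] * M)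
    (h2 : M * !![a, b; c, d] = !![a, b; c, d] * !![s, 0; 0, r])
    (h3 : !![w0, w1; w2, w3] * !![a, b; c, d] = !![a, b; c, d] * !![1, 0; 0, -1]) : w1 = 0 ∧ w2 = 0 := by
  obtain ⟨m0, m1, m2, m3, rfl⟩ : ∃ m0 m1 m2 m3, M = !![m0, m1; m2, m3] := ⟨_, _, _, _, eta_fin_two M⟩
  have ex : ∀ {a b c d a' b' c' d' : k}, !![a, b; c, d] = !![a', b'; c', d'] →
      a = a' ∧ b = b' ∧ c = c' ∧ d = d' := fun e =>
    ⟨congrFun (congrFun e 0) 0, congrFun (congrFun e 0) 1, congrFun (congrFun e 1) 0,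
      congrFun (congrFun e 1) 1⟩
  rw [mul_fin_two, mul_fin_two] at h1 h2 h3
  obtain ⟨-, k1, k2, -⟩ := ex h1
  obtain ⟨l0, l1, l2, l3⟩ := ex h2
  obtain ⟨n0, n1, n2, n3⟩ := ex h3
  have ne' : s - r ≠ 0 := sub_ne_zero.2 ne
  obtain rfl : m1 = 0 := (mul_eq_zero.1 (show (s - r) * m1 = 0 by linear_combination -k1)).resolve_left ne'
  obtain rfl : m2 = 0 := (mul_eq_zero.1 (show (s - r) * m2 = 0 by linear_combination k2)).resolve_left ne'
  have ab : a * b = 0 := (mul_eq_zero.1 (show (s - r) * (a * b) = 0 by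
    linear_combination a * l1 - b * l0)).resolve_left ne'
  have cd : c * d = 0 := (mul_eq_zero.1 (show (s - r) * (c * d) = 0 by
    linear_combination c * l3 - d * l2)).resolve_left ne'
  rcases mul_eq_zero.1 ab with rfl | rfl <;> rcases mul_eq_zero.1 cd with rfl | rfl
  · simp at dt
  · have : b * c ≠ 0 := by simpa using dt
    exact ⟨(mul_eq_zero.1 (show w1 * c = 0 by linear_combination n0)).resolve_right (right_ne_zero_of_mul this),
      (mul_eq_zero.1 (show w2 * b = 0 by linear_combination n3)).resolve_right (left_ne_zero_of_mul this)⟩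
  · have : a * d ≠ 0 := by simpa using dt
    exact ⟨(mul_eq_zero.1 (show w1 * d = 0 by linear_combination n1)).resolve_right (right_ne_zero_of_mul this),
      (mul_eq_zero.1 (show w2 * a = 0 by linear_combination n2)).resolve_right (left_ne_zero_of_mul this)⟩
  · simp at dt

theorem nsc (h2 : (2 : k) ≠ 0) (hn : Odd n) {s r c : k} (hs : s ^ n = 1) (hr : r ^ n = 1) (ne : s ≠ r) {i : ℕ}
    (hi : i = 2 ∨ i = 3 ∨ i = 4 ∨ i = 5) : !![s, 0; 0, -r] ^ i ≠ c • (1 : Matrix (Fin 2) (Fin 2) k) := fun e => by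
  have e1 : s ^ i = (-r) ^ i := by
    rw [show !![s, 0; 0, -r] = diagonal ![s, -r] by ext i j; fin_cases i <;> fin_cases j <;> simp,
      diagonal_pow] at e
    have a := congrFun (congrFun e 0) 0
    have b := congrFun (congrFun e 1) 1
    simp at a b
    rw [a, b]
  have r0 : r ≠ 0 := by rintro rfl; rw [zero_pow hn.pos.ne'] at hr; exact zero_ne_one hr
  have q : (s / r) ^ n = 1 := by rw [div_pow, hs, hr, div_one]
  have k1 : ¬ s / r * (s / r) = 1 := fun a => ne ((div_eq_one_iff_eq r0).1 (one_of hn q a))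
  have od : ∀ j, Odd j → s ^ j ≠ (-r) ^ j := fun j hj a => h2 (by
    have : (s ^ j) ^ n = ((-r) ^ j) ^ n := by rw [a]
    rw [pow_right_comm, hs, hj.neg_pow, hn.neg_pow, pow_right_comm, hr] at this
    linear_combination this)
  rcases hi with rfl | rfl | rfl | rfl
  · exact k1 (by field_simp; linear_combination e1)
  · exact od 3 (by decide) e1
  · exact k1 (one_of hn (by rw [mul_pow, q, one_mul]) (by field_simp; linear_combination e1))
  · exact od 5 (by decide) e1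

variable [IsAlgClosed k] [Fact p.Prime] [CharP k p]

theorem dg {B : Basis (Fin 4) k V} (hB : ⇑B = ![e0, e1, e2, e3]) {y : P} {a b c d : k}
    (h : Dg y.1 e0 e1 e2 e3 a b c d) : mat P B y = bl !![a, 0; 0, b] !![c, 0; 0, d] := by
  rw [bl_mx, mat_ap]
  exact toM B hB (by simp [h.h0]) (by simp [h.h1]) (by simp [h.h2]) (by simp [h.h3])

theorem bk (f : Fr τ υ e0 e1 e2 e3) {B : Basis (Fin 4) k V} (hB : ⇑B = ![e0, e1, e2, e3]) (y : P)
    (c : y.1 * τ = τ * y.1) : ∃ (A : Matrix (Fin 2) (Fin 2) k) (a b c d : k),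
      mat P B y = bl A !![a, b; c, d] ∧ y.1.1 e2 = a • e2 + c • e3 ∧ y.1.1 e3 = b • e2 + d • e3 := by
  obtain ⟨a0, c0, h0⟩ := f.plane (v := y.1.1 e0) (by rw [← um, ← c, um, f.t0])
  obtain ⟨b0, d0, h1⟩ := f.plane (v := y.1.1 e1) (by rw [← um, ← c, um, f.t1])
  obtain ⟨a1, c1, h2⟩ := f.plane' (v := y.1.1 e2) (by rw [← um, ← c, um, f.t2, map_neg])
  obtain ⟨b1, d1, h3⟩ := f.plane' (v := y.1.1 e3) (by rw [← um, ← c, um, f.t3, map_neg])
  refine ⟨!![a0, b0; c0, d0], a1, b1, c1, d1, ?_, h2, h3⟩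
  rw [bl_mx, mat_ap]
  exact toM B hB (by simp [h0]) (by simp [h1]) (by simp [h2]) (by simp [h3])

include p in
theorem mbp {Γ : Type*} [Group Γ] {m : Γ →* Matrix (Fin 4) (Fin 4) k} {π : Γ →* G} (h : MB m π)
    {t u x g : Γ} {X U A A1 A2 M : Matrix (Fin 2) (Fin 2) k} {s r a b c d w0 w1 w2 w3 : k}
    (mt : m t = bl 1 (-1)) (hn : Odd n) (s2 : s ^ n = 1) (s3 : r ^ n = 1) (ne : s ≠ r)
    (mx' : m x = bl X !![s, 0; 0, r]) (mu : m u = bl U !![1, 0; 0, -1]) (mg : m g = bl A !![a, b; c, d])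
    (mw : m (g * u * g⁻¹) = bl A1 !![w0, w1; w2, w3]) (my : m (g * x * g⁻¹) = bl A2 M) :
    w1 = 0 ∧ w2 = 0 := by
  have tr : ∀ y, m (g * y * g⁻¹) * m g = m g * m y := fun y => by
    rw [← map_mul, ← map_mul, inv_mul_cancel_right]
  rcases h.dk (p := p) mt with H | ⟨j, hj, H⟩
  · have k1 := H _ _ _ _ _ _ my mx'
    have k2 := tr x
    have k3 := tr u
    have k4 := h.det g
    rw [my, mg, mx', bl_mul, bl_mul, bl_inj] at k2
    rw [mw, mg, mu, bl_mul, bl_mul, bl_inj] at k3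
    rw [mg, bl_det, det_fin_two_of] at k4
    have k5 : !![s, 0; 0, r] * !![s, 0; 0, r] = !![s * s, 0; 0, r * r] := by simp
    rw [k5] at k1
    refine mono (s := s * s) (r := r * r) (fun e => nsc h.two hn s2 s3 ne (c := s * s)
      (Or.inl rfl) ?_) (right_ne_zero_of_mul_eq_one k4) k1 ?_ k3.2
    · ext i j; fin_cases i <;> fin_cases j <;> simp [sq, e]
    · rw [← k5, Matrix.mul_assoc, k2.2, ← Matrix.mul_assoc, k2.2, Matrix.mul_assoc]
  · obtain ⟨z, hs⟩ := H (u * x) (U * X) !![s, 0; 0, -r] (by rw [map_mul, mu, mx', bl_mul]; simp)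
    rcases hs with hs | hs | hs
    exacts [absurd hs (nsc h.two hn s2 s3 ne (by omega)), absurd hs (nsc h.two hn s2 s3 ne (by omega)),
      absurd hs (nsc h.two hn s2 s3 ne (by omega))]

include p in
theorem plane (H : Beta P π) (f : Fr τ υ e0 e1 e2 e3) (hτ : τ ∈ P) (hυ : υ ∈ P) {x g : P} (hn : Odd n)
    (xn : x.1 ^ n = 1) {d0 d1 d2 d3 : k} (d : Dg x.1 e0 e1 e2 e3 d0 d1 d2 d3) (ne : d2 ≠ d3)
    (c : g.1 * τ = τ * g.1) :
    ∃ a b : k, (g.1 * υ * g.1⁻¹).1 e2 = a • e2 ∧ (g.1 * υ * g.1⁻¹).1 e3 = b • e3 := by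
  obtain ⟨B, hB⟩ : ∃ B : Basis (Fin 4) k V, ⇑B = ![e0, e1, e2, e3] :=
    ⟨_, coe_basisOfLinearIndependentOfCardEqFinrank f.i4.li (by simp [f.dim])⟩
  have cj : ∀ {y : (End k V)ˣ}, y * τ = τ * y → g.1 * y * g.1⁻¹ * τ = τ * (g.1 * y * g.1⁻¹) := fun e =>
    ((show Commute _ _ from c).mul_left e).mul_left (show Commute _ _ from c).inv_left
  obtain ⟨A, a, b, c', d', mg, -, -⟩ := bk f hB g c
  obtain ⟨A1, w0, w1, w2, w3, mw, v2, v3⟩ := bk f hB (g * ⟨υ, hυ⟩ * g⁻¹) (cj (f.dg_comm f.dgu f.dgt))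
  obtain ⟨A2, m0, m1, m2, m3, my, -, -⟩ := bk f hB (g * x * g⁻¹) (cj (f.dg_comm d f.dgt))
  have mt := dg hB (y := ⟨τ, hτ⟩) f.dgt
  rw [bl_mx, ← D1] at mt
  obtain ⟨k1, k2⟩ := mbp (p := p) (mb H B) mt hn (eig1 xn f.ne2 d.h2) (eig1 xn f.ne3 d.h3) ne (dg hB d)
    (dg hB (y := ⟨υ, hυ⟩) f.dgu) mg mw my
  rw [k2, zero_smul, add_zero] at v2
  rw [k1, zero_smul, zero_add] at v3
  exact ⟨w0, w3, v2, v3⟩

include p in
theorem d2 (H : Beta P π) {t u h o g : G} (c : Cy (Yc π) t u h) (h1 : Yc π o t) (h2 : Yc π o u)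
    (ho : Odd (orderOf o)) (o1 : o ≠ 1) (hg : Yc π g t) : B4 t u (g * u * g⁻¹) := by
  have A := H.ax p
  have := A.fin
  refine A.a2 c.f (cj_sq c.f.iu.1 g) (by
    simpa only [cj_of (A.yc hg)] using A.yj g (A.ys c.f.y)) ?_
  obtain ⟨τ, υ, η, e0, e1, e2, e3, rfl, rfl, rfl, f⟩ := frameH H c
  obtain ⟨a, ha, an⟩ := lift H.toSt ho (pow_orderOf_eq_one o)
  rw [← ha] at h1 h2
  obtain ⟨g, rfl⟩ := H.surj g
  have cg := (yc_iff H.toSt _ _).1 hg
  obtain ⟨d0, d1, d2, d3, d⟩ := f.diag ((yc_iff H.toSt _ _).1 h1) ((yc_iff H.toSt _ _).1 h2)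
  have ns : ¬ (d1 = d2 ∧ d2 = d3) := fun s => o1 (ha ▸ (H.ker a).2 (hm0 H a.2 f.toFr d s.1 s.2))
  have d' := f.cj d
  have d'' := f.cj d'
  have n1 := cpow an η.1
  have n2 := cpow n1 η.1
  obtain ⟨a2, a3, k2, k3⟩ : ∃ a b : k, (g.1 * υ * g.1⁻¹).1 e2 = a • e2 ∧ (g.1 * υ * g.1⁻¹).1 e3 = b • e3 := by
    by_cases e : d2 = d3
    · exact plane (p := p) H f.toFr τ.2 υ.2 (x := η * a * η⁻¹) ho n1 d' (fun e' => ns ⟨e', e⟩) cg
    · exact plane (p := p) H f.toFr τ.2 υ.2 ho an d e cg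
  obtain ⟨a0, a1, k0, k1⟩ : ∃ a b : k, (g.1 * υ * g.1⁻¹).1 e0 = a • e0 ∧ (g.1 * υ * g.1⁻¹).1 e1 = b • e1 := by
    have cg' : g.1 * -τ.1 = -τ.1 * g.1 := by rw [mul_neg, neg_mul, cg]
    by_cases e : d0 = d1
    · by_cases e' : d0 = d3
      · exact plane (p := p) H f.negt (H.neg τ.2) υ.2 (x := η * (η * a * η⁻¹) * η⁻¹) ho n2
          ⟨d''.h2, d''.h3, d''.h0, d''.h1⟩ (fun e'' => ns ⟨e ▸ e'', e'' ▸ e'⟩) cg'
      · exact plane (p := p) H f.negt (H.neg τ.2) υ.2 (x := η * a * η⁻¹) ho n1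
          ⟨d'.h2, d'.h3, d'.h0, d'.h1⟩ e' cg'
    · exact plane (p := p) H f.negt (H.neg τ.2) υ.2 ho an ⟨d.h2, d.h3, d.h0, d.h1⟩ e cg'
  exact ⟨g * υ * g⁻¹, υ, by simp, rfl, f.dg_comm ⟨k0, k1, k2, k3⟩ f.dgu⟩

end Cfsg.Agent.H3.F4X
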