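import Cfsg.Agent.H3.ConstOrders

set_option autoImplicit false

/-! Homogeneous actions. -/

namespace Cfsg.Agent.H3

open MulAction Function
open scoped Pointwise

variable {G α : Type*} [Group G] [MulAction G α] [DecidableEq α]

theorem homog_iff {k : ℕ} : IsPretransitive G (Set.powersetCard α k) ↔
    ∀ s t : Finset α, s.card = k → t.card = k → ∃ g : G, g • s = t := by
  constructor
  · intro h s t hs ht
    obtain ⟨g, hg⟩ := h.exists_smul_eq ⟨s, hs⟩ ⟨t, ht⟩
    exact ⟨g, congrArg Subtype.val hg⟩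
  · intro h
    refine ⟨fun s t => ?_⟩
    obtain ⟨g, hg⟩ := h s t s.2 t.2
    exact ⟨g, Subtype.ext hg⟩

theorem two_homog_pair (h2 : IsPretransitive G (Set.powersetCard α 2)) {a b c d : α}
    (hab : a ≠ b) (hcd : c ≠ d) :
    ∃ g : G, (g • a = c ∧ g • b = d) ∨ (g • a = d ∧ g • b = c) := by
  obtain ⟨g, hg⟩ := homog_iff.1 h2 {a, b} {c, d} (Finset.card_pair hab) (Finset.card_pair hcd)
  refine ⟨g, ?_⟩
  have h1 : g • a ∈ ({c, d} : Finset α) := by rw [← hg]; exact Finset.smul_mem_smul_finset (by simp)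
  have h2 : g • b ∈ ({c, d} : Finset α) := by rw [← hg]; exact Finset.smul_mem_smul_finset (by simp)
  have h3 : g • a ≠ g • b := fun h => hab (smul_left_cancel _ h)
  simp only [Finset.mem_insert, Finset.mem_singleton] at h1 h2
  rcases h1 with h1 | h1 <;> rcases h2 with h2 | h2
  · exact absurd (h1.trans h2.symm) h3
  · exact Or.inl ⟨h1, h2⟩
  · exact Or.inr ⟨h1, h2⟩
  · exact absurd (h1.trans h2.symm) h3

theorem two_trans_of_two_homog_of_swap (h2 : IsPretransitive G (Set.powersetCard α 2))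
    {t : G} {x : α} (hx : t • x ≠ x) (ht : t • t • x = x) : IsMultiplyPretransitive G α 2 := by
  rw [is_two_pretransitive_iff]
  have key : ∀ {a b : α}, a ≠ b → ∃ g : G, g • a = x ∧ g • b = t • x := by
    intro a b hab
    obtain ⟨g, hg | hg⟩ := two_homog_pair h2 hab hx.symm
    · exact ⟨g, hg⟩
    · exact ⟨t * g, by rw [mul_smul, hg.1, ht], by rw [mul_smul, hg.2]⟩
  intro a b c d hab hcd
  obtain ⟨g, hg1, hg2⟩ := key hab
  obtain ⟨g', hg1', hg2'⟩ := key hcd
  exact ⟨g'⁻¹ * g, by rw [mul_smul, hg1, ← hg1', inv_smul_smul],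
    by rw [mul_smul, hg2, ← hg2', inv_smul_smul]⟩

theorem prim_of_two_homog [Finite α] (h2 : IsPretransitive G (Set.powersetCard α 2))
    (hα : 3 ≤ Nat.card α) : IsPreprimitive G α := by
  have := Fintype.ofFinite α
  have third : ∀ a b : α, ∃ c, c ≠ a ∧ c ≠ b := by
    intro a b
    by_contra hcon
    push Not at hcon
    have h1 : (Finset.univ : Finset α) ⊆ {a, b} := fun c _ => by
      by_cases h : c = a
      · simp [h]
      · simp [hcon c h]
    have := (Finset.card_le_card h1).trans Finset.card_le_two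
    rw [Finset.card_univ, ← Nat.card_eq_fintype_card] at this
    omega
  have : IsPretransitive G α := by
    refine ⟨fun a b => ?_⟩
    by_cases hab : a = b
    · exact ⟨1, by rw [one_smul, hab]⟩
    obtain ⟨c, hca, hcb⟩ := third a b
    obtain ⟨g, hg | hg⟩ := two_homog_pair h2 hca.symm hcb.symm
    · exact ⟨g, hg.1⟩
    · exact ⟨g * g, by rw [mul_smul, hg.1, hg.2]⟩
  apply prim_of_block
  intro B hB a ha b hb hab c
  by_cases hca : a = c
  · exact hca ▸ ha
  obtain ⟨g, hg | hg⟩ := two_homog_pair h2 hab hca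
  · exact hg.2 ▸ hB g a ha (hg.1.symm ▸ ha) b hb
  · exact hg.1 ▸ hB g b hb (hg.2.symm ▸ ha) a ha

end Cfsg.Agent.H3
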