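import Cfsg.Agent.H3.Homog

set_option autoImplicit false

/-! Wielandt: a `k`-homogeneous group is `(k-1)`-homogeneous. -/

namespace Cfsg.Agent.H3

open MulAction Function
open scoped Pointwise

theorem not_dvd_choose {p a k : ℕ} (hp : p.Prime) (h : p ^ a ∣ k) :
    ¬ p ∣ (p ^ a - 1 + k).choose k := by
  intro hd
  have h0 : (p ^ a - 1 + k).choose k ≠ 0 := (Nat.choose_pos (by omega)).ne'
  have h1 := (hp.dvd_iff_one_le_factorization h0).1 hd
  rw [Nat.factorization_choose' hp (Nat.lt_succ_self _), Finset.one_le_card] at h1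
  obtain ⟨i, hi⟩ := h1
  have hi := (Finset.mem_filter.1 hi).2
  have hpi : 0 < p ^ i := pow_pos hp.pos _
  have hpa : 0 < p ^ a := pow_pos hp.pos _
  rcases le_total i a with hia | hia
  · have : k % p ^ i = 0 := Nat.mod_eq_zero_of_dvd ((pow_dvd_pow p hia).trans h)
    have := Nat.mod_lt (p ^ a - 1) hpi
    omega
  · have h2 : p ^ a ∣ p ^ i := pow_dvd_pow p hia
    have h3 : p ^ a ∣ k % p ^ i := (Nat.dvd_mod_iff h2).2 h
    have h4 := Nat.mod_lt k hpi
    have h5 : p ^ a ∣ p ^ i - k % p ^ i := Nat.dvd_sub h2 h3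
    have h6 := Nat.le_of_dvd (by omega) h5
    have h7 := Nat.mod_le (p ^ a - 1) (p ^ i)
    omega

variable {G α : Type*} [Group G] [MulAction G α] [DecidableEq α]

theorem homog_pred [Fintype α] {k : ℕ} (hk : 2 ≤ k)
    (hG : IsPretransitive G (Set.powersetCard α k))
    (hq : ∀ q : ℕ, IsPrimePow q → q ∣ k → k + q - 1 ≤ Fintype.card α) :
    IsPretransitive G (Set.powersetCard α (k - 1)) := by
  classical
  rw [homog_iff] at hG ⊢
  intro S0 S1 hS0 hS1
  have hkn : k ≤ Fintype.card α := by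
    have := hq k.minFac (Nat.minFac_prime (by omega)).isPrimePow (Nat.minFac_dvd k)
    have := (Nat.minFac_prime (n := k) (by omega)).two_le
    omega
  let O : Finset α → Prop := fun S => ∃ g : G, g • S0 = S
  let r : Finset α → ℕ := fun Γ => ((Γ.powersetCard (k - 1)).filter O).card
  have hrg : ∀ (g : G) (Γ : Finset α), r Γ ≤ r (g • Γ) := by
    intro g Γ
    apply Finset.card_le_card_of_injOn (fun S => g • S)
    · intro S hS
      simp only [Finset.coe_filter, Finset.mem_powersetCard, Set.mem_ofPred_eq] at hS ⊢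
      obtain ⟨⟨h1, h2⟩, h, rfl⟩ := hS
      exact ⟨⟨Finset.smul_finset_subset_smul_finset h1, by rw [Finset.card_smul_finset, h2]⟩,
        g * h, mul_smul _ _ _⟩
    · intro S _ T _ h
      exact smul_left_cancel g h
  have hr : ∀ Γ Δ : Finset α, Γ.card = k → Δ.card = k → r Γ = r Δ := by
    intro Γ Δ h1 h2
    obtain ⟨g, rfl⟩ := hG Γ Δ h1 h2
    refine le_antisymm (hrg g Γ) ?_
    have := hrg g⁻¹ (g • Γ)
    rwa [inv_smul_smul] at this
  obtain ⟨Γ0, hΓ0, -, hΓ0c⟩ := Finset.exists_subsuperset_card_eq (Finset.subset_univ S0)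
    (n := k) (by omega) (by rwa [Finset.card_univ])
  obtain ⟨Γ1, hΓ1, -, hΓ1c⟩ := Finset.exists_subsuperset_card_eq (Finset.subset_univ S1)
    (n := k) (by omega) (by rwa [Finset.card_univ])
  have hpos : 0 < r Γ0 := Finset.card_pos.2 ⟨S0, by
    simp only [Finset.mem_filter, Finset.mem_powersetCard]
    exact ⟨⟨hΓ0, hS0⟩, 1, one_smul _ _⟩⟩
  have hdvd : k ∣ r Γ0 := by
    rw [Nat.dvd_iff_prime_pow_dvd_dvd]
    intro p a hp hpa
    rcases Nat.eq_zero_or_pos a with rfl | ha
    · simp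
    have hpa0 : 0 < p ^ a := pow_pos hp.pos _
    have h1 := hq (p ^ a) ⟨p, a, hp.prime, ha, rfl⟩ hpa
    obtain ⟨T, -, hT⟩ := Finset.exists_subset_card_eq (s := (Finset.univ : Finset α))
      (n := p ^ a - 1 + k) (by rw [Finset.card_univ]; omega)
    have h2 := Finset.card_mul_eq_card_mul (s := (T.powersetCard (k - 1)).filter O)
      (t := T.powersetCard k) (fun S Γ => S ⊆ Γ) (m := p ^ a) (n := r Γ0) (by
        intro S hS
        simp only [Finset.mem_filter, Finset.mem_powersetCard] at hS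
        rw [Finset.bipartiteAbove, Finset.card_filter_powersetCard_subset S T k hS.1.1 (by omega),
          hT, hS.1.2, show k - (k - 1) = 1 by omega, Nat.choose_one_right]
        omega) (by
        intro Γ hΓ
        rw [Finset.mem_powersetCard] at hΓ
        rw [← hr Γ Γ0 hΓ.2 hΓ0c, Finset.bipartiteBelow]
        congr 1
        ext S
        simp only [Finset.mem_filter, Finset.mem_powersetCard]
        exact ⟨fun h => ⟨⟨h.2, h.1.1.2⟩, h.1.2⟩, fun h => ⟨⟨⟨h.1.1.trans hΓ.1, h.1.2⟩, h.2⟩, h.1.1⟩⟩)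
    rw [Finset.card_powersetCard, hT] at h2
    have h3 : (p ^ a).Coprime ((p ^ a - 1 + k).choose k) :=
      Nat.Coprime.pow_left _ ((Nat.Prime.coprime_iff_not_dvd hp).2 (not_dvd_choose hp hpa))
    exact h3.dvd_of_dvd_mul_left (h2 ▸ Dvd.intro_left _ rfl)
  have hge : k ≤ r Γ1 := hr Γ0 Γ1 hΓ0c hΓ1c ▸ Nat.le_of_dvd hpos hdvd
  have hall : (Γ1.powersetCard (k - 1)).filter O = Γ1.powersetCard (k - 1) := by
    apply Finset.eq_of_subset_of_card_le (Finset.filter_subset _ _)
    rw [Finset.card_powersetCard, hΓ1c, Nat.choose_symm (by omega), Nat.choose_one_right]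
    exact hge
  have : S1 ∈ (Γ1.powersetCard (k - 1)).filter O := by
    rw [hall, Finset.mem_powersetCard]; exact ⟨hΓ1, hS1⟩
  exact (Finset.mem_filter.1 this).2

end Cfsg.Agent.H3
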