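import Cfsg.Agent.H3.RegNormal

set_option autoImplicit false

/-! Jordan's and Wagner's theorems on normal subgroups of multiply transitive groups. -/

namespace Cfsg.Agent.H3

open MulAction Function
open scoped Pointwise

section
variable {G α : Type*} [Group G] [MulAction G α]

theorem two_trans_of_normal_nonreg [Finite α] (hα : 2 ≤ Nat.card α)
    (hf : ∀ g : G, (∀ x : α, g • x = x) → g = 1) (hG : IsMultiplyPreprimitive G α 2)
    (H : Subgroup G) [H.Normal] {a : α} (ha : stabilizer H a ≠ ⊥) :
    IsMultiplyPretransitive H α 2 := by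
  have hprim : IsPreprimitive G α := (is_one_preprimitive_iff G α).1
    (isMultiplyPreprimitive_of_le G α hG (by omega)
      (by rw [ENat.card_eq_coe_natCard]; exact_mod_cast hα))
  obtain ⟨n0, hn0, hn0a, hn01⟩ : ∃ n ∈ H, n • a = a ∧ n ≠ 1 := by
    by_contra hcon
    push Not at hcon
    exact ha (stabilizer_eq_bot_iff.2 hcon)
  obtain ⟨b0, hb0⟩ : ∃ b : α, n0 • b ≠ b := by
    by_contra hcon
    push Not at hcon
    exact hn01 (hf _ hcon)
  have hHt : IsPretransitive H α := normal_trans hprim H hn0 hb0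
  apply ktrans_succ_of_stabilizer hHt a
  have hG' : IsMultiplyPreprimitive (stabilizer G a) (SubMulAction.ofStabilizer G a) 1 :=
    isMultiplyPreprimitive_ofStabilizer G α
  have hb0a : b0 ≠ a := fun h => hb0 (by rw [h, hn0a])
  exact is_one_pretransitive_iff.2 (normal_trans ((is_one_preprimitive_iff _ _).1 hG') _
    (n := ⟨n0, hn0a⟩) hn0 (a := ⟨b0, hb0a⟩) (fun h => hb0 (congrArg Subtype.val h)))

end

theorem jordan_normal {α : Type*} [Fintype α] [DecidableEq α] (G : Subgroup (Equiv.Perm α)) {k : ℕ}
    (hk : 1 < k) (hdeg : k < Nat.card α) (hG : IsMultiplyPretransitive G α k) (N : Subgroup G)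
    [hNn : N.Normal] (hN : N ≠ ⊥) : IsMultiplyPretransitive N α (k - 1) ∨
      (k = 3 ∧ IsMulCommutative N ∧ (∀ n ∈ N, n ^ 2 = 1) ∧ ∃ m, Nat.card α = 2 ^ m) := by
  obtain ⟨j, rfl⟩ : ∃ j, k = j + 1 := ⟨k - 1, by omega⟩
  rw [Nat.add_sub_cancel]
  have hf : ∀ g : G, (∀ x : α, g • x = x) → g = 1 := fun g hg => by ext x; exact hg x
  have hcard : ∀ i, i ≤ j + 1 → ((i : ℕ) : ℕ∞) ≤ ENat.card α := fun i hi => by
    rw [ENat.card_eq_coe_natCard]; exact_mod_cast (by omega)
  have hGp : IsMultiplyPreprimitive G α j :=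
    isMultiplyPreprimitive_of_isMultiplyPretransitive_succ G α (hcard _ le_rfl)
  have hprim : IsPreprimitive G α := (is_one_preprimitive_iff G α).1
    (isMultiplyPreprimitive_of_le G α hGp (by omega) (hcard _ (by omega)))
  have hNt := normal_trans_of_ne_bot hprim N hN
  rcases Nat.lt_or_ge j 2 with hj | hj
  · obtain rfl : j = 1 := by omega
    exact Or.inl (is_one_pretransitive_iff.2 hNt)
  have hG2 := isMultiplyPreprimitive_of_le G α hGp hj (hcard _ (by omega))
  by_cases hnr : ∃ a : α, stabilizer N a ≠ ⊥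
  · left
    rcases Nat.lt_or_ge j 3 with hj3 | hj3
    · obtain rfl : j = 2 := by omega
      obtain ⟨a, ha⟩ := hnr
      exact two_trans_of_normal_nonreg (by omega) hf hG2 N ha
    by_cases htop : G = ⊤
    · subst htop
      have hnm : (N.map (⊤ : Subgroup (Equiv.Perm α)).subtype).Normal :=
        hNn.map _ (fun x => ⟨⟨x, trivial⟩, rfl⟩)
      have hnt : Nontrivial (N.map (⊤ : Subgroup (Equiv.Perm α)).subtype) := by
        rw [Subgroup.nontrivial_iff_ne_bot, ne_eq, Subgroup.map_eq_bot_iff_of_injective _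
          (Subgroup.subtype_injective _)]
        exact hN
      have hA := Equiv.Perm.alternatingGroup_le_of_normal (by omega) hnt
      have h1 := alternatingGroup.isMultiplyPretransitive α
      have h2 : IsMultiplyPretransitive (alternatingGroup α) α j :=
        isMultiplyPretransitive_of_le (n := Nat.card α - 2) (by omega) (by omega)
      rw [ktrans_iff] at h2 ⊢
      intro x y hx hy
      obtain ⟨g, hg⟩ := h2 x y hx hy
      obtain ⟨n, hn, hng⟩ := hA g.2
      refine ⟨⟨n, hn⟩, fun i => ?_⟩
      rw [← hg i]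
      change (n : Equiv.Perm α) (x i) = (g : Equiv.Perm α) (x i)
      rw [← hng]; rfl
    · exact kprim_normal j (by omega) (by omega) hf hGp
        (fun h => htop (Equiv.Perm.eq_top_of_isMultiplyPretransitive h)) N hnr
  · push Not at hnr
    right
    rcases Nat.lt_or_ge j 3 with hj3 | hj3
    · rcases two_prim_regular (by omega) hG2 N hNt hnr with h | h
      · omega
      · exact ⟨by omega, h⟩
    · have hG3 := isMultiplyPreprimitive_of_le G α hGp hj3 (hcard _ (by omega))
      have := three_prim_regular (by omega) hG3 N hNt hnr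
      omega

end Cfsg.Agent.H3
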