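import Cfsg.Agent.H3.JordanCycle

set_option autoImplicit false

/-! Klein four-subgroups of quadruply transitive groups. -/

namespace Cfsg.Agent.H3

open MulAction Function
open scoped Pointwise

theorem invol_ncard_modEq {β : Type*} (f : β → β) {S : Set β} (hS : S.Finite)
    (hmaps : ∀ x ∈ S, f x ∈ S) (hinv : ∀ x ∈ S, f (f x) = x) :
    S.ncard ≡ {x | x ∈ S ∧ f x = x}.ncard [MOD 2] := by
  classical
  have := hS.fintype
  have : Fact (Nat.Prime 2) := ⟨Nat.prime_two⟩
  let f' : Function.End S := fun x => ⟨f x, hmaps x x.2⟩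
  have h := Equiv.Perm.card_fixedPoints_modEq (f := f') (p := 2) (n := 1) (by
    funext x
    exact Subtype.ext (hinv x x.2))
  rw [← Nat.card_eq_fintype_card, ← Nat.card_eq_fintype_card] at h
  have h2 : Nat.card (Function.fixedPoints f') = {x | x ∈ S ∧ f x = x}.ncard := by
    rw [Nat.card_coe_set_eq, ← Set.ncard_image_of_injective _ Subtype.val_injective]
    congr 1
    ext x
    simp only [Set.mem_image, Subtype.exists, exists_and_right, exists_eq_right, Set.mem_ofPred_eq]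
    exact ⟨fun ⟨hx, h⟩ => ⟨hx, congrArg Subtype.val h⟩, fun ⟨hx, h⟩ => ⟨hx, Subtype.ext h⟩⟩
  rwa [h2] at h

theorem invol_odd_fixed {β : Type*} (f : β → β) {S : Set β} (hodd : Odd S.ncard)
    (hmaps : ∀ x ∈ S, f x ∈ S) (hinv : ∀ x ∈ S, f (f x) = x) :
    Odd {x | x ∈ S ∧ f x = x}.ncard := by
  have hS : S.Finite := Set.finite_of_ncard_ne_zero hodd.pos.ne'
  have := invol_ncard_modEq f hS hmaps hinv
  rw [Nat.odd_iff] at hodd ⊢
  rw [← hodd]; exact this.symm

theorem exists_mem_of_odd {β : Type*} {S : Set β} (hodd : Odd S.ncard) : ∃ x, x ∈ S :=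
  Set.nonempty_of_ncard_ne_zero hodd.pos.ne'

theorem inj4 {α : Type*} {a b c d : α} (h1 : a ≠ b) (h2 : a ≠ c) (h3 : a ≠ d) (h4 : b ≠ c)
    (h5 : b ≠ d) (h6 : c ≠ d) : Injective ![a, b, c, d] := by
  intro i j
  fin_cases i <;> fin_cases j <;> simp [*, h1.symm, h2.symm, h3.symm, h4.symm, h5.symm, h6.symm]

section
variable {G α : Type*} [Group G] [MulAction G α]

theorem four_trans (h4 : IsMultiplyPretransitive G α 4) {a b c d a' b' c' d' : α}
    (h : Injective ![a, b, c, d]) (h' : Injective ![a', b', c', d']) :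
    ∃ g : G, g • a = a' ∧ g • b = b' ∧ g • c = c' ∧ g • d = d' := by
  obtain ⟨g, hg⟩ := ktrans_iff.1 h4 _ _ h h'
  exact ⟨g, hg 0, hg 1, hg 2, hg 3⟩

theorem ncard_coset_fixing (Γ : Set α) (g0 : G) :
    {g : G | ∀ x ∈ Γ, g • x = g0 • x}.ncard = Nat.card (fixingSubgroup G Γ) := by
  rw [← Set.ncard_smul_set g0⁻¹, ← Nat.card_coe_set_eq]
  congr 2
  ext g
  rw [Set.mem_smul_set_iff_inv_smul_mem, inv_inv, SetLike.mem_coe, mem_fixingSubgroup_iff]
  simp [mul_smul]

theorem klein_same_orbit {a b : G} (ha : a * a = 1) (hb : b * b = 1) (hab : a * b = b * a)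
    (ha1 : a ≠ 1) (hb1 : b ≠ 1)
    (H1 : ∀ z : G, z * a = a * z → z * b = b * z → z = 1 ∨ z = a ∨ z = b ∨ z = a * b)
    (H2 : ∀ x : α, a • x ≠ x → b • x ≠ x → a • b • x ≠ x → ∃ t : G, t * t = 1 ∧ t * a = a * t ∧
      t * b = a * b * t ∧ t • b • x = b • x ∧ t • a • b • x = a • b • x ∧ t • x = a • x)
    (H3 : ∀ t : G, t * t = 1 → ∀ x y z w : α, Injective ![x, y, z, w] → t • x = x → t • y = y →
      t • z = z → t • w = w → t = 1)
    {x y : α} (hx1 : a • x ≠ x) (hx2 : b • x ≠ x) (hx3 : a • b • x ≠ x)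
    (hy1 : a • y ≠ y) (hy2 : b • y ≠ y) (hy3 : a • b • y ≠ y) :
    y = x ∨ y = a • x ∨ y = b • x ∨ y = a • b • x := by
  by_contra hcon
  push Not at hcon
  obtain ⟨c1, c2, c3, c4⟩ := hcon
  obtain ⟨t, t1, t2, t3, t4, t5, t6⟩ := H2 x hx1 hx2 hx3
  obtain ⟨s, s1, s2, s3, s4, s5, -⟩ := H2 y hy1 hy2 hy3
  have aa : ∀ x : α, a • a • x = x := fun x => by rw [← mul_smul, ha, one_smul]
  have bb : ∀ x : α, b • b • x = x := fun x => by rw [← mul_smul, hb, one_smul]
  have ba : ∀ x : α, b • a • x = a • b • x := fun x => by rw [← mul_smul, ← hab, mul_smul]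
  have hs1 : s ≠ 1 := by
    rintro rfl
    rw [one_mul, mul_one] at s3
    exact ha1 (by simpa using s3)
  have tc : t * (a * b) = b * t := by
    rw [← mul_assoc, t2, mul_assoc, t3, ← mul_assoc, ← mul_assoc, ha, one_mul]
  have hs : t * (t * s) = s := by rw [← mul_assoc, t1, one_mul]
  have key : ∀ v : G, t * s = v → t * v * t * v = 1 := by
    rintro _ rfl
    rw [mul_assoc (t * (t * s)), hs, s1]
  have e1 : ∀ u v : α, b • u = v ↔ u = b • v := fun u v =>
    ⟨fun h => by rw [← h, bb], fun h => by rw [h, bb]⟩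
  have e2 : ∀ u v : α, a • u = v ↔ u = a • v := fun u v =>
    ⟨fun h => by rw [← h, aa], fun h => by rw [h, aa]⟩
  have hby : b • y ≠ a • b • y := fun h => hy1 (by
    rw [← ba, smul_left_cancel_iff] at h; exact h.symm)
  have hbx : b • x ≠ a • b • x := fun h => hx1 (by
    rw [← ba, smul_left_cancel_iff] at h; exact h.symm)
  rcases H1 (t * s) (by rw [mul_assoc, s2, ← mul_assoc, t2, mul_assoc])
    (by rw [mul_assoc, s3, ← mul_assoc, tc, mul_assoc]) with h | h | h | h
  · rw [h, mul_one] at hs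
    subst hs
    refine hs1 (H3 t s1 (b • y) (a • b • y) (b • x) (a • b • x) (inj4 hby ?_ ?_ ?_ ?_ hbx) s4 s5 t4 t5)
    · exact fun h => c1 (smul_left_cancel _ h)
    · exact fun h => c2 (by rw [← ba] at h; exact smul_left_cancel _ h)
    · exact fun h => c2 (by rw [e2, ← ba] at h; exact smul_left_cancel _ h)
    · exact fun h => c1 (smul_left_cancel _ (smul_left_cancel _ h))
  · rw [h] at hs
    subst hs
    refine hs1 (H3 _ s1 (b • y) (a • b • y) x (a • x) (inj4 hby ?_ ?_ ?_ ?_ hx1.symm) s4 s5 ?_ ?_)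
    · exact fun h => c3 ((e1 _ _).1 h)
    · exact fun h => c4 (by rw [e1, ba] at h; exact h)
    · exact fun h => c4 (by rw [e2, e1, ba] at h; exact h)
    · exact fun h => c3 ((e1 _ _).1 (smul_left_cancel _ h))
    · rw [t2, mul_smul, t6, aa]
    · rw [mul_smul, aa, t6]
  · have := key b h
    rw [t3, mul_assoc (a * b), t1, mul_one, mul_assoc, hb, mul_one] at this
    exact ha1 this
  · have := key _ h
    rw [tc, mul_assoc b, t1, mul_one, ← mul_assoc, ← hab, mul_assoc, hb, mul_one] at this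
    exact ha1 this

theorem exists_nontrivial_fix_five [Finite α] (h4 : IsMultiplyPretransitive G α 4)
    (hn : Nat.card α = 8 ∨ Nat.card α = 10) :
    ∃ (g : G) (s : Finset α), s.card = 5 ∧ (∀ x ∈ s, g • x = x) ∧ ∃ y : α, g • y ≠ y := by
  classical
  have := Fintype.ofFinite α
  set G' := (toPermHom G α).range with hG'
  have h4' : IsMultiplyPretransitive G' α 4 := by
    rw [ktrans_iff] at h4 ⊢
    intro x y hx hy
    obtain ⟨g, hg⟩ := h4 x y hx hy
    exact ⟨⟨_, g, rfl⟩, hg⟩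
  obtain ⟨p, hp, hpn, hpd⟩ : ∃ p : ℕ, p.Prime ∧ p + 3 = Nat.card α ∧
      p ∣ (Nat.card α).choose 4 * Nat.factorial 4 := by
    rcases hn with h | h
    · exact ⟨5, by norm_num, h.symm, by rw [h]; decide⟩
    · exact ⟨7, by norm_num, h.symm, by rw [h]; decide⟩
  have : Fact p.Prime := ⟨hp⟩
  obtain ⟨s, -, hs⟩ := Set.exists_subset_card_eq (s := (Set.univ : Set α)) (n := 4)
    (by rw [Set.ncard_univ]; omega)
  have h1 := IsMultiplyPretransitive.index_of_fixingSubgroup_eq (G := G') s (hs ▸ h4')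
  rw [hs] at h1
  obtain ⟨⟨g, hg⟩, hgo⟩ := exists_prime_orderOf_dvd_card' (G := G') p
    (hpd.trans (h1 ▸ Subgroup.index_dvd_card _))
  rw [Subgroup.orderOf_mk] at hgo
  rw [Nat.card_eq_fintype_card] at hpn hn
  have hc : g.IsCycle := Equiv.Perm.isCycle_of_prime_order' (hgo ▸ hp) (by omega)
  have hA := jordan_prime_cycle G' (isPreprimitive_of_is_two_pretransitive
    (isMultiplyPretransitive_of_le (n := 4) (by omega) (by rw [Nat.card_eq_fintype_card]; omega)))
    hp hpn.le hc (by rw [← hc.orderOf, hgo]) hg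
  obtain ⟨a, b, c, -, -, -, hab, hac, hbc⟩ := Finset.two_lt_card_iff.1
    (show 2 < (Finset.univ : Finset α).card by rw [Finset.card_univ]; omega)
  have h3 := Equiv.Perm.isThreeCycle_swap_mul_swap_same hab hac hbc
  obtain ⟨x, hx⟩ := hA h3.mem_alternatingGroup
  obtain ⟨t, ht, htc⟩ := Finset.exists_subset_card_eq
    (s := (Equiv.swap a b * Equiv.swap a c).supportᶜ) (n := 5)
    (by rw [Finset.card_compl, h3.card_support]; omega)
  refine ⟨x, t, htc, fun y hy => ?_, ?_⟩
  · have := ht hy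
    rw [Finset.mem_compl, Equiv.Perm.notMem_support, ← hx] at this
    exact this
  · by_contra hcon
    push Not at hcon
    exact h3.ne_one (by rw [← hx]; ext y; exact hcon y)

end

end Cfsg.Agent.H3
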