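import Cfsg.Agent.H3.Klein
import Cfsg.Agent.H3.Orbits

set_option autoImplicit false

/-! Quadruply transitive groups whose four point stabilisers have odd order. -/

namespace Cfsg.Agent.H3

open MulAction Function
open scoped Pointwise

variable {G α : Type*} [Group G] [MulAction G α]

/-- no involution fixes four points -/
def NoInv4 (G α : Type*) [Group G] [MulAction G α] : Prop :=
  ∀ t : G, t * t = 1 → ∀ x y z w : α, Injective ![x, y, z, w] → t • x = x → t • y = y →
    t • z = z → t • w = w → t = 1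

theorem odd_card_of_no_invol [Finite G] (K : Subgroup G) (h : ∀ t ∈ K, t * t = 1 → t = 1) :
    Odd (Nat.card K) := by
  rw [← Nat.not_even_iff_odd, even_iff_two_dvd]
  intro h2
  obtain ⟨t, ht⟩ := exists_prime_orderOf_dvd_card' (G := K) 2 h2
  have h1 : t ^ 2 = 1 := by rw [← ht, pow_orderOf_eq_one]
  have h3 : (t : G) = 1 := h t t.2 (by rw [← pow_two]; exact congrArg Subtype.val h1)
  have : t = 1 := Subtype.ext h3
  rw [this, orderOf_one] at ht
  omega

theorem odd_coset4 [Finite G] (h4 : IsMultiplyPretransitive G α 4) (hO : NoInv4 G α)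
    {a b c d a' b' c' d' : α} (h : Injective ![a, b, c, d]) (h' : Injective ![a', b', c', d']) :
    Odd {g : G | g • a = a' ∧ g • b = b' ∧ g • c = c' ∧ g • d = d'}.ncard := by
  obtain ⟨g0, h1, h2, h3, h5⟩ := four_trans h4 h h'
  have e := ncard_coset_fixing ({a, b, c, d} : Set α) g0
  have : {g : G | g • a = a' ∧ g • b = b' ∧ g • c = c' ∧ g • d = d'} =
      {g : G | ∀ x ∈ ({a, b, c, d} : Set α), g • x = g0 • x} := by
    ext g; simp [h1, h2, h3, h5]
  rw [this, e]
  refine odd_card_of_no_invol _ fun t ht h1 => ?_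
  rw [mem_fixingSubgroup_iff] at ht
  exact hO t h1 a b c d h (ht _ (by simp)) (ht _ (by simp)) (ht _ (by simp)) (ht _ (by simp))

theorem exists_invol_of_odd {S : Set G} (hS : Odd S.ncard) (h : ∀ g ∈ S, g⁻¹ ∈ S) :
    ∃ t ∈ S, t * t = 1 := by
  obtain ⟨t, ht, h1⟩ := exists_mem_of_odd (invol_odd_fixed (fun g : G => g⁻¹) hS h (by simp))
  exact ⟨t, ht, by nth_rewrite 1 [← h1]; exact inv_mul_cancel t⟩

theorem smul_inv_eq {g : G} {x y : α} (h : g • x = y) : g⁻¹ • y = x := by rw [← h, inv_smul_smul]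

/-- an involution commuting with `z`, swapping `a, b`, fixing `c, d` -/
theorem exists_comm_invol [Finite G] (h4 : IsMultiplyPretransitive G α 4) (hO : NoInv4 G α)
    {a b c d : α} (h : Injective ![a, b, c, d]) {z : G} (hz : z * z = 1)
    (h1 : z • a = a ∧ z • b = b ∨ z • a = b ∧ z • b = a)
    (h2 : z • c = c ∧ z • d = d ∨ z • c = d ∧ z • d = c) :
    ∃ t : G, t * t = 1 ∧ t * z = z * t ∧ t • a = b ∧ t • b = a ∧ t • c = c ∧ t • d = d := by
  have h' : Injective ![b, a, c, d] := by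
    have n := fun i j (hij : i ≠ j) => h.ne hij
    exact inj4 (n 1 0 (by decide)) (n 1 2 (by decide)) (n 1 3 (by decide)) (n 0 2 (by decide))
      (n 0 3 (by decide)) (n 2 3 (by decide))
  have zz : ∀ g : G, z * (z * g * z) * z = g := fun g => by
    calc _ = (z * z) * g * (z * z) := by group
      _ = g := by rw [hz]; simp
  have o1 := invol_odd_fixed (fun g : G => z * g * z) (odd_coset4 h4 hO h h') (by
    rintro g ⟨g1, g2, g3, g4⟩
    rcases h1 with ⟨a1, a2⟩ | ⟨a1, a2⟩ <;> rcases h2 with ⟨a3, a4⟩ | ⟨a3, a4⟩ <;>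
      simp [mul_smul, *]) (fun g _ => zz g)
  obtain ⟨t, ⟨⟨t1, t2, t3, t4⟩, t5⟩, ht⟩ := exists_invol_of_odd o1 (by
    rintro g ⟨⟨g1, g2, g3, g4⟩, g5⟩
    refine ⟨⟨smul_inv_eq g2, smul_inv_eq g1, smul_inv_eq g3, smul_inv_eq g4⟩, ?_⟩
    have hz' : z⁻¹ = z := inv_eq_of_mul_eq_one_right hz
    change z * g⁻¹ * z = g⁻¹
    conv_rhs => rw [← g5]
    simp [hz', mul_assoc])
  refine ⟨t, ht, ?_, t1, t2, t3, t4⟩
  change z * t * z = t at t5
  calc t * z = z * t * z * z := by rw [t5]
    _ = z * t := by rw [mul_assoc, hz, mul_one]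

theorem exists_H2 [Finite G] (h4 : IsMultiplyPretransitive G α 4) (hO : NoInv4 G α) {a b : G}
    (ha : a * a = 1) (hb : b * b = 1) (hab : a * b = b * a) {x : α} (x1 : a • x ≠ x)
    (x2 : b • x ≠ x) (x3 : a • b • x ≠ x) : ∃ t : G, t * t = 1 ∧ t * a = a * t ∧
      t * b = a * b * t ∧ t • b • x = b • x ∧ t • a • b • x = a • b • x ∧ t • x = a • x := by
  have aa : ∀ x : α, a • a • x = x := fun x => by rw [← mul_smul, ha, one_smul]
  have bb : ∀ x : α, b • b • x = x := fun x => by rw [← mul_smul, hb, one_smul]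
  have ba : ∀ x : α, b • a • x = a • b • x := fun x => by rw [← mul_smul, ← hab, mul_smul]
  have n1 : a • x ≠ b • x := fun h => x3 (by rw [← h, aa])
  have n2 : a • x ≠ a • b • x := fun h => x2 (smul_left_cancel _ h).symm
  have n3 : b • x ≠ a • b • x := fun h => x1 (by rw [← ba] at h; exact (smul_left_cancel _ h).symm)
  have hJ := inj4 x1.symm x2.symm x3.symm n1 n2 n3
  have o0 := odd_coset4 h4 hO hJ (inj4 x1 n1 n2 x2.symm x3.symm n3)
  have ia : a⁻¹ = a := inv_eq_of_mul_eq_one_right ha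
  have ib : b⁻¹ = b := inv_eq_of_mul_eq_one_right hb
  have o1 := invol_odd_fixed (fun g : G => a * g * a) o0 (by
    rintro g ⟨g1, g2, g3, g4⟩
    simp only [Set.mem_ofPred_eq, mul_smul, g1, g2, g3, g4, aa, and_self]) (fun g _ => by
      calc _ = (a * a) * g * (a * a) := by group
        _ = g := by rw [ha]; simp)
  have o2 := invol_odd_fixed (fun g : G => a * b * g * b) o1 (by
    rintro g ⟨⟨g1, g2, g3, g4⟩, g5⟩
    refine ⟨by simp only [Set.mem_ofPred_eq, mul_smul, g1, g2, g3, g4, aa, bb, ba, and_self], ?_⟩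
    change a * g * a = g at g5
    change a * (a * b * g * b) * a = _
    calc _ = a * (a * b) * g * (b * a) := by group
      _ = a * b * (a * g * a) * b := by rw [← hab]; nth_rewrite 1 [hab]; group
      _ = _ := by rw [g5]) (fun g _ => by
      change a * b * (a * b * g * b) * b = g
      calc _ = a * (b * a) * b * g * (b * b) := by group
        _ = (a * a) * (b * b) * g * (b * b) := by rw [← hab]; group
        _ = g := by rw [ha, hb]; simp)
  obtain ⟨t, ⟨⟨⟨t1, t2, t3, t4⟩, t5⟩, t6⟩, ht⟩ := exists_invol_of_odd o2 (by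
    rintro g ⟨⟨⟨g1, g2, g3, g4⟩, g5⟩, g6⟩
    change a * g * a = g at g5
    change a * b * g * b = g at g6
    have g7 : a * g⁻¹ * a = g⁻¹ := by
      conv_rhs => rw [← g5]
      simp [ia, mul_assoc]
    refine ⟨⟨⟨smul_inv_eq g2, smul_inv_eq g1, smul_inv_eq g3, smul_inv_eq g4⟩, g7⟩, ?_⟩
    change a * b * g⁻¹ * b = g⁻¹
    have g8 : b * g⁻¹ * b * a = g⁻¹ := by
      conv_rhs => rw [← g6]
      simp [ia, ib, mul_assoc]
    calc _ = a * (b * g⁻¹ * b) * (a * a) := by rw [ha]; group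
      _ = a * (b * g⁻¹ * b * a) * a := by group
      _ = _ := by rw [g8, g7])
  change a * t * a = t at t5
  change a * b * t * b = t at t6
  refine ⟨t, ht, ?_, ?_, t3, t4, t1⟩
  · calc t * a = a * t * a * a := by rw [t5]
      _ = a * t := by rw [mul_assoc, ha, mul_one]
  · calc t * b = a * b * t * b * b := by rw [t6]
      _ = _ := by rw [mul_assoc, hb, mul_one]

theorem exists_notMem_card [Finite α] (s : Finset α) (h : s.card < Nat.card α) : ∃ x, x ∉ s := by
  have := Fintype.ofFinite α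
  by_contra! h1
  have : s = Finset.univ := Finset.eq_univ_of_forall h1
  rw [this, Finset.card_univ, Nat.card_eq_fintype_card] at h
  omega

/-- the starting Klein four group -/
theorem klein_start [Finite G] [Finite α] (h4 : IsMultiplyPretransitive G α 4) (hO : NoInv4 G α)
    (hn : 5 ≤ Nat.card α)
    (h3 : ∀ t : G, t * t = 1 → ∀ x y z : α, x ≠ y → x ≠ z → y ≠ z → t • x = x → t • y = y →
      t • z = z → ∀ w : α, t • w = w) :
    ∃ (a c : G) (p0 p1 p2 p3 x y : α), Injective ![p0, p1, p2, p3] ∧ Injective ![p0, p1, x, y] ∧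
      Injective ![p2, p3, x, y] ∧ a * a = 1 ∧ c * c = 1 ∧ a * c = c * a ∧
      a • p0 = p0 ∧ a • p1 = p1 ∧ a • p2 = p3 ∧ a • p3 = p2 ∧
      c • p0 = p1 ∧ c • p1 = p0 ∧ c • p2 = p3 ∧ c • p3 = p2 ∧ c • x = x ∧ c • y = y := by
  classical
  obtain ⟨x, -⟩ := exists_notMem_card (∅ : Finset α) (by simp; omega)
  obtain ⟨y, hy⟩ := exists_notMem_card {x} (by simp; omega)
  obtain ⟨p0, h0⟩ := exists_notMem_card {x, y} (by have := Finset.card_le_two (a := x) (b := y); omega)
  obtain ⟨p1, h1⟩ := exists_notMem_card {x, y, p0}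
    (by have := Finset.card_le_three (a := x) (b := y) (c := p0); omega)
  obtain ⟨p2, h2⟩ := exists_notMem_card {x, y, p0, p1}
    (by have := Finset.card_le_four (a := x) (b := y) (c := p0) (d := p1); omega)
  simp only [Finset.mem_insert, Finset.mem_singleton, not_or] at hy h0 h1 h2
  have hI : Injective ![p0, p1, x, y] := inj4 (Ne.symm h1.2.2) h0.1 h0.2 h1.1 h1.2.1 (Ne.symm hy)
  obtain ⟨c, hc, -, c0, c1, cx, cy⟩ := exists_comm_invol h4 hO hI (z := 1) (by simp) (by simp) (by simp)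
  have cc : ∀ w : α, c • c • w = w := fun w => by rw [← mul_smul, hc, one_smul]
  have n2 : c • p2 ≠ p2 := fun h => h1.2.2 (by
    rw [← c0, h3 c hc x y p2 (Ne.symm hy) (Ne.symm h2.1) (Ne.symm h2.2.1) cx cy h])
  have m0 : c • p2 ≠ p0 := fun h => h2.2.2.2 (by rw [← cc p2, h, c0])
  have m1 : c • p2 ≠ p1 := fun h => h2.2.2.1 (by rw [← cc p2, h, c1])
  have mx : c • p2 ≠ x := fun h => h2.1 (by rw [← cc p2, h, cx])
  have my : c • p2 ≠ y := fun h => h2.2.1 (by rw [← cc p2, h, cy])
  obtain ⟨a, ha, hac, a2, a3, a0, a1⟩ := exists_comm_invol h4 hO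
    (inj4 n2.symm h2.2.2.1 h2.2.2.2 m0 m1 (Ne.symm h1.2.2)) hc (Or.inr ⟨rfl, cc _⟩) (Or.inr ⟨c0, c1⟩)
  exact ⟨a, c, p0, p1, p2, c • p2, x, y, inj4 (Ne.symm h1.2.2) (Ne.symm h2.2.2.1) m0.symm
    (Ne.symm h2.2.2.2) m1.symm n2.symm, hI, inj4 n2.symm h2.1 h2.2.1 mx my (Ne.symm hy), ha, hc, hac,
    a0, a1, a2, a3, c0, c1, rfl, cc _, cx, cy⟩

/-- setting (O): no transposition or 4-cycle pattern on five points -/
theorem card_le_six_of_even [Finite G] [Finite α] (h4 : IsMultiplyPretransitive G α 4)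
    (hf : ∀ g : G, (∀ x : α, g • x = x) → g = 1)
    (P1 : ∀ (g : G) (a b c d e : α), a ≠ b → c ≠ d → c ≠ e → d ≠ e → g • a = b → g • b = a →
      g • c = c → g • d = d → g • e = e → False)
    (P2 : ∀ (g : G) (a b c d e : α), Injective ![a, b, c, d] → g • a = b → g • b = c →
      g • c = d → g • d = a → g • e = e → False) : Nat.card α ≤ 6 := by
  classical
  by_contra hn
  have h3 : ∀ t : G, t * t = 1 → ∀ x y z : α, x ≠ y → x ≠ z → y ≠ z → t • x = x → t • y = y →
      t • z = z → ∀ w : α, t • w = w := fun t ht x y z n1 n2 n3 h1 h2 h3 w => by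
    by_contra h
    exact P1 t w (t • w) x y z (Ne.symm h) n1 n2 n3 rfl (by rw [← mul_smul, ht, one_smul]) h1 h2 h3
  have hO : NoInv4 G α := fun t ht x y z w hi h1 h2 h5 _ => hf t (h3 t ht x y z
    (hi.ne (show (0 : Fin 4) ≠ 1 by decide)) (hi.ne (show (0 : Fin 4) ≠ 2 by decide))
    (hi.ne (show (1 : Fin 4) ≠ 2 by decide)) h1 h2 h5)
  obtain ⟨a, c, p0, p1, p2, p3, x, y, i1, i2, i3, ha, hc, hac, a0, a1, a2, a3, c0, c1, c2, c3, cx, cy⟩ :=
    klein_start h4 hO (by omega) h3
  have n01 : p0 ≠ p1 := i1.ne (show (0 : Fin 4) ≠ 1 by decide)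
  have n23 : p2 ≠ p3 := i1.ne (show (2 : Fin 4) ≠ 3 by decide)
  have nxy : x ≠ y := i2.ne (show (2 : Fin 4) ≠ 3 by decide)
  obtain ⟨w, hw⟩ := exists_notMem_card {p0, p1, p2, p3, x, y} (by
    have := Finset.card_le_six (a := p0) (b := p1) (c := p2) (d := p3) (e := x) (f := y); omega)
  simp only [Finset.mem_insert, Finset.mem_singleton, not_or] at hw
  obtain ⟨w0, w1, w2, w3, wx, wy⟩ := hw
  have aa : ∀ x : α, a • a • x = x := fun x => by rw [← mul_smul, ha, one_smul]
  have cc : ∀ x : α, c • c • x = x := fun x => by rw [← mul_smul, hc, one_smul]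
  have ca : ∀ x : α, c • a • x = a • c • x := fun x => by rw [← mul_smul, ← hac, mul_smul]
  have fa : ∀ v, a • v = v → v = p0 ∨ v = p1 := fun v hv => by
    by_contra! h
    exact n23 ((h3 a ha p0 p1 v n01 h.1.symm h.2.symm a0 a1 hv p2).symm.trans a2)
  have x1 : a • w ≠ w := fun h => by rcases fa w h with h | h <;> contradiction
  have x2 : c • w ≠ w := fun h =>
    n01 ((h3 c hc x y w nxy (Ne.symm wx) (Ne.symm wy) cx cy h p0).symm.trans c0)
  have x3 : a • c • w ≠ w := fun h => by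
    have := h3 (a * c) (by
      calc a * c * (a * c) = a * (c * a) * c := by group
        _ = 1 := by rw [← hac, ← mul_assoc, ha, one_mul, hc]) p2 p3 w n23 (Ne.symm w2) (Ne.symm w3)
      (by rw [mul_smul, c2, a3]) (by rw [mul_smul, c3, a2]) (by rw [mul_smul, h]) p0
    rw [mul_smul, c0, a1] at this
    exact n01 this.symm
  obtain ⟨s, s1, s2, s3, s4, s5, s6⟩ := exists_H2 h4 hO ha hc hac x1 x2 x3
  have ss : ∀ x : α, s • s • x = x := fun x => by rw [← mul_smul, s1, one_smul]
  have sa : ∀ x : α, s • a • x = a • s • x := fun x => by rw [← mul_smul, s2, mul_smul]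
  have n1 : a • w ≠ c • w := fun h => x3 (by rw [← h, aa])
  have n2 : a • w ≠ a • c • w := fun h => x2 (smul_left_cancel _ h).symm
  have n3 : c • w ≠ a • c • w := fun h => x1 (by rw [← ca] at h; exact (smul_left_cancel _ h).symm)
  have e1 : s • p0 = p1 := by
    rcases fa (s • p0) (by rw [← sa, a0]) with h | h
    · exfalso
      have := h3 s s1 (c • w) (a • c • w) p0 n3
        (fun e => w1 (by rw [← cc w, e, c0])) (fun e => w1 (by rw [← cc w, ← aa (c • w), e, a0, c0]))
        s4 s5 h w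
      exact x1 (s6.symm.trans this)
    · exact h
  refine P2 (s * c) w (c • w) (a • w) (a • c • w) p1 (inj4 x2.symm x1.symm x3.symm n1.symm n3 n2)
    ?_ ?_ ?_ ?_ ?_
  · rw [mul_smul, s4]
  · rw [mul_smul, cc, s6]
  · rw [mul_smul, ca, s5]
  · rw [mul_smul, ca, cc, ← s6, ss]
  · rw [mul_smul, c1, e1]

theorem card_eq_six [Finite G] [Finite α] (h4 : IsMultiplyPretransitive G α 4) (hO : NoInv4 G α)
    (he : Even (Nat.card α)) (hn : 5 ≤ Nat.card α)
    (h5 : ∀ (g : G) (s : Finset α), s.card = 5 → (∀ x ∈ s, g • x = x) → g = 1) :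
    Nat.card α = 6 := by
  classical
  have h3 : ∀ t : G, t * t = 1 → ∀ x y z : α, x ≠ y → x ≠ z → y ≠ z → t • x = x → t • y = y →
      t • z = z → ∀ w : α, t • w = w := fun t ht x y z n1 n2 n3 h1 h2 h3 w => by
    have e := invol_ncard_modEq (fun v : α => t • v) Set.finite_univ (by simp)
      (fun v _ => by rw [← mul_smul, ht, one_smul])
    rw [Set.ncard_univ] at e
    obtain ⟨v, hv, hv'⟩ : ∃ v, t • v = v ∧ v ∉ ({x, y, z} : Set α) := by
      by_contra! h
      have : {v : α | v ∈ Set.univ ∧ t • v = v} = {x, y, z} := by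
        ext v
        simp only [Set.mem_univ, true_and, Set.mem_ofPred_eq]
        refine ⟨h v, ?_⟩
        rintro (rfl | rfl | rfl) <;> assumption
      rw [this, Set.ncard_eq_three.2 ⟨x, y, z, n1, n2, n3, rfl⟩] at e
      obtain ⟨m, hm⟩ := he
      unfold Nat.ModEq at e
      omega
    simp only [Set.mem_insert_iff, Set.mem_singleton_iff, not_or] at hv'
    rw [hO t ht x y z v (inj4 n1 n2 (Ne.symm hv'.1) n3 (Ne.symm hv'.2.1) (Ne.symm hv'.2.2)) h1 h2 h3 hv,
      one_smul]
  obtain ⟨a, c, p0, p1, p2, p3, x, y, i1, i2, i3, ha, hc, hac, a0, a1, a2, a3, c0, c1, c2, c3, cx, cy⟩ :=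
    klein_start h4 hO hn h3
  have n01 : p0 ≠ p1 := i1.ne (show (0 : Fin 4) ≠ 1 by decide)
  have n23 : p2 ≠ p3 := i1.ne (show (2 : Fin 4) ≠ 3 by decide)
  have nxy : x ≠ y := i2.ne (show (2 : Fin 4) ≠ 3 by decide)
  have aa : ∀ x : α, a • a • x = x := fun x => by rw [← mul_smul, ha, one_smul]
  have hb : a * c * (a * c) = 1 := by
    calc a * c * (a * c) = a * (c * a) * c := by group
      _ = 1 := by rw [← hac, ← mul_assoc, ha, one_mul, hc]
  have hab : a * (a * c) = a * c * a := by rw [mul_assoc a c, ← hac]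
  have hac' : a * (a * c) = c := by rw [← mul_assoc, ha, one_mul]
  have fa : ∀ v, a • v = v → v = p0 ∨ v = p1 := fun v hv => by
    by_contra! h
    exact n23 ((h3 a ha p0 p1 v n01 h.1.symm h.2.symm a0 a1 hv p2).symm.trans a2)
  have fb : ∀ v, (a * c) • v = v → v = p2 ∨ v = p3 := fun v hv => by
    by_contra! h
    have := h3 _ hb p2 p3 v n23 h.1.symm h.2.symm (by rw [mul_smul, c2, a3])
      (by rw [mul_smul, c3, a2]) hv p0
    rw [mul_smul, c0, a1] at this
    exact n01 this.symm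
  have fc : ∀ v, c • v = v → v = x ∨ v = y := fun v hv => by
    by_contra! h
    exact n01 ((h3 c hc x y v nxy h.1.symm h.2.symm cx cy hv p0).symm.trans c0)
  have H0 : ∀ z : G, z * c = c * z → z • p0 = p0 → z • p1 = p1 → z • p2 = p2 → z • p3 = p3 → z = 1 := by
    intro z hz z0 z1 z2 z3
    have zc : ∀ v : α, c • z • v = z • c • v := fun v => by rw [← mul_smul, ← hz, mul_smul]
    have e : z • z • x = x := by
      rcases fc (z • x) (by rw [zc, cx]) with h | h
      · rw [h, h]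
      · rcases fc (z • y) (by rw [zc, cy]) with h' | h'
        · rw [h, h']
        · exact absurd (smul_left_cancel z (h.trans h'.symm)) nxy
    refine hO z (h5 _ {p0, p1, p2, p3, x} ?_ ?_) p0 p1 p2 p3 i1 z0 z1 z2 z3
    · have b0 : p0 ≠ x := i2.ne (show (0 : Fin 4) ≠ 2 by decide)
      have b1 : p1 ≠ x := i2.ne (show (1 : Fin 4) ≠ 2 by decide)
      have b2 : p2 ≠ x := i3.ne (show (0 : Fin 4) ≠ 2 by decide)
      have b3 : p3 ≠ x := i3.ne (show (1 : Fin 4) ≠ 2 by decide)
      have b02 : p0 ≠ p2 := i1.ne (show (0 : Fin 4) ≠ 2 by decide)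
      have b03 : p0 ≠ p3 := i1.ne (show (0 : Fin 4) ≠ 3 by decide)
      have b12 : p1 ≠ p2 := i1.ne (show (1 : Fin 4) ≠ 2 by decide)
      have b13 : p1 ≠ p3 := i1.ne (show (1 : Fin 4) ≠ 3 by decide)
      rw [Finset.card_insert_of_notMem (by simp [*]), Finset.card_insert_of_notMem (by simp [*]),
        Finset.card_insert_of_notMem (by simp [*]), Finset.card_insert_of_notMem (by simp [*]),
        Finset.card_singleton]
    · intro v hv
      simp only [Finset.mem_insert, Finset.mem_singleton] at hv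
      rcases hv with rfl | rfl | rfl | rfl | rfl <;> simp only [mul_smul, *]
  have H1 : ∀ z : G, z * a = a * z → z * (a * c) = a * c * z →
      z = 1 ∨ z = a ∨ z = a * c ∨ z = a * (a * c) := by
    intro z hza hzb
    have hzc : z * c = c * z := by
      calc z * c = z * (a * (a * c)) := by rw [hac']
        _ = a * (a * c) * z := by rw [← mul_assoc, hza, mul_assoc, hzb, mul_assoc a (a * c)]
        _ = _ := by rw [hac']
    have za : ∀ v : α, a • z • v = z • a • v := fun v => by rw [← mul_smul, ← hza, mul_smul]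
    have zb : ∀ v : α, (a * c) • z • v = z • (a * c) • v := fun v => by
      rw [← mul_smul, ← hzb, mul_smul]
    have zc : ∀ v : α, c • z • v = z • c • v := fun v => by rw [← mul_smul, ← hzc, mul_smul]
    have e0 : z • p0 = p0 ∧ z • p1 = p1 ∨ z • p0 = p1 ∧ z • p1 = p0 := by
      rcases fa (z • p0) (by rw [za, a0]) with h | h
      · left; exact ⟨h, by rw [← c0, ← zc, h]⟩
      · right; exact ⟨h, by rw [← c0, ← zc, h, c1]⟩
    have e2 : z • p2 = p2 ∧ z • p3 = p3 ∨ z • p2 = p3 ∧ z • p3 = p2 := by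
      rcases fb (z • p2) (by rw [zb, mul_smul, c2, a3]) with h | h
      · left; exact ⟨h, by rw [← c2, ← zc, h]⟩
      · right; exact ⟨h, by rw [← c2, ← zc, h, c3]⟩
    rcases e0 with ⟨e0, e1⟩ | ⟨e0, e1⟩ <;> rcases e2 with ⟨e2, e3⟩ | ⟨e2, e3⟩
    · exact Or.inl (H0 z hzc e0 e1 e2 e3)
    · refine Or.inr (Or.inl ?_)
      have := H0 (a * z) (by rw [mul_assoc, hzc, ← mul_assoc, hac, mul_assoc])
        (by simp [mul_smul, *]) (by simp [mul_smul, *]) (by simp [mul_smul, *]) (by simp [mul_smul, *])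
      rw [← inv_eq_of_mul_eq_one_right this, inv_eq_of_mul_eq_one_right ha]
    · refine Or.inr (Or.inr (Or.inl ?_))
      have := H0 (a * c * z) (by rw [mul_assoc, hzc, ← mul_assoc, ← mul_assoc c, ← mul_assoc c, ← hac])
        (by simp [mul_smul, *]) (by simp [mul_smul, *]) (by simp [mul_smul, *]) (by simp [mul_smul, *])
      rw [← inv_eq_of_mul_eq_one_right this, inv_eq_of_mul_eq_one_right hb]
    · refine Or.inr (Or.inr (Or.inr ?_))
      have := H0 (c * z) (by rw [mul_assoc, hzc])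
        (by simp [mul_smul, *]) (by simp [mul_smul, *]) (by simp [mul_smul, *]) (by simp [mul_smul, *])
      rw [← inv_eq_of_mul_eq_one_right this, inv_eq_of_mul_eq_one_right hc, hac']
  have ha1 : a ≠ 1 := by rintro rfl; exact n23 (by simpa using a2)
  have hb1 : a * c ≠ 1 := fun h => n01 (by
    have := congrArg (· • p0) h
    simp only [mul_smul, c0, a1, one_smul] at this
    exact this.symm)
  have hR : ∃ R : Finset α, R.card ≤ 4 ∧ ∀ y, a • y ≠ y → (a * c) • y ≠ y → a • (a * c) • y ≠ y →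
      y ∈ R := by
    by_cases hx : ∃ x : α, a • x ≠ x ∧ (a * c) • x ≠ x ∧ a • (a * c) • x ≠ x
    · obtain ⟨x, x1, x2, x3⟩ := hx
      refine ⟨{x, a • x, (a * c) • x, a • (a * c) • x}, Finset.card_le_four, fun y y1 y2 y3 => ?_⟩
      simpa using klein_same_orbit ha hb hab ha1 hb1 H1
        (fun x x1 x2 x3 => exists_H2 h4 hO ha hb hab x1 x2 x3) hO x1 x2 x3 y1 y2 y3
    · exact ⟨∅, by simp, fun y y1 y2 y3 => absurd ⟨y, y1, y2, y3⟩ hx⟩
  obtain ⟨R, hR4, hR⟩ := hR
  have hall : ∀ v : α, v ∈ ({p0, p1, p2, p3, x, y} : Finset α) ∪ R := by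
    intro v
    simp only [Finset.mem_union, Finset.mem_insert, Finset.mem_singleton]
    by_cases y1 : a • v = v
    · rcases fa v y1 with h | h <;> tauto
    by_cases y2 : (a * c) • v = v
    · rcases fb v y2 with h | h <;> tauto
    by_cases y3 : a • (a * c) • v = v
    · rcases fc v (by rwa [← mul_smul, hac'] at y3) with h | h <;> tauto
    · exact Or.inr (hR v y1 y2 y3)
  have hcard : Nat.card α ≤ 10 := by
    let _ : Fintype α := ⟨_, hall⟩
    rw [Nat.card_eq_fintype_card]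
    change (({p0, p1, p2, p3, x, y} : Finset α) ∪ R).card ≤ 10
    have := Finset.card_union_le ({p0, p1, p2, p3, x, y} : Finset α) R
    have := Finset.card_le_six (a := p0) (b := p1) (c := p2) (d := p3) (e := x) (f := y)
    omega
  by_contra h6
  obtain ⟨g, s, hs, hg, v, hv⟩ := exists_nontrivial_fix_five h4 (by obtain ⟨m, hm⟩ := he; omega)
  exact hv (by rw [h5 g s hs hg, one_smul])

end Cfsg.Agent.H3
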