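import Cfsg.Agent.H3.LW1

set_option autoImplicit false

/-! Multiply transitive groups in which only the identity fixes `k + 1` points. -/

namespace Cfsg.Agent.H3

open MulAction Function
open scoped Pointwise

variable {G α : Type*} [Group G] [MulAction G α]

variable (G) in
def SwapAt (Δ : Finset α) (a b : α) : Prop :=
  ∃ g : G, g • a = b ∧ g • b = a ∧ ∀ x ∈ Δ, x ≠ a → x ≠ b → g • x = x

variable (G) in
def SwapOn (Δ : Finset α) : Prop := ∀ a ∈ Δ, ∀ b ∈ Δ, a ≠ b → SwapAt G Δ a b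

variable (G) in
def Cyc3On (Δ : Finset α) : Prop := ∀ a ∈ Δ, ∀ b ∈ Δ, ∀ c ∈ Δ, a ≠ b → a ≠ c → b ≠ c →
  ∃ g : G, g • a = b ∧ g • b = c ∧ g • c = a ∧ ∀ x ∈ Δ, x ≠ a → x ≠ b → x ≠ c → g • x = x

theorem SwapAt.symm {Δ : Finset α} {a b : α} (h : SwapAt G Δ a b) : SwapAt G Δ b a := by
  obtain ⟨g, h1, h2, h3⟩ := h
  exact ⟨g, h2, h1, fun x hx n1 n2 => h3 x hx n2 n1⟩

theorem SwapOn.cyc3On {Δ : Finset α} (h : SwapOn G Δ) : Cyc3On G Δ := by
  intro a ha b hb c hc n1 n2 n3
  obtain ⟨g, g1, g2, g3⟩ := h a ha b hb n1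
  obtain ⟨u, u1, u2, u3⟩ := h a ha c hc n2
  refine ⟨u * g, ?_, ?_, ?_, fun x hx m1 m2 m3 => ?_⟩
  · rw [mul_smul, g1, u3 b hb n1.symm n3]
  · rw [mul_smul, g2, u1]
  · rw [mul_smul, g3 c hc n2.symm n3.symm, u2]
  · rw [mul_smul, g3 x hx m1 m2, u3 x hx m1 m3]

theorem SwapOn.fullOn [DecidableEq α] {Δ : Finset α} (h : SwapOn G Δ) : FullOn G Δ := by
  refine fullOn_of_swaps fun a ha b hb n => ?_
  obtain ⟨g, g1, g2, g3⟩ := h a ha b hb n
  refine ⟨g, fun x hx => ?_⟩
  rw [Equiv.swap_apply_def]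
  split_ifs with h1 h2
  · rw [h1, g1]
  · rw [h2, g2]
  · exact g3 x hx h1 h2

theorem exists_fix_move_two [Finite α] {k : ℕ} (h : IsMultiplyPretransitive G α k)
    (hk : k ≤ Nat.card α) (T : Finset α) (hT : T.card + 2 ≤ k) {x y a b : α} (hx : x ∉ T)
    (hy : y ∉ T) (ha : a ∉ T) (hb : b ∉ T) (hxy : x ≠ y) (hab : a ≠ b) :
    ∃ g : G, (∀ s ∈ T, g • s = s) ∧ g • x = a ∧ g • y = b := by
  classical
  obtain ⟨g, g1, g2⟩ := exists_fix_move h hk T (by omega) hx ha
  obtain ⟨u, u1, u2⟩ := exists_fix_move h hk (insert a T)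
    (by rw [Finset.card_insert_of_notMem ha]; omega) (a := g • y) (b := b) (by
      rw [Finset.mem_insert, not_or]
      refine ⟨fun e => hxy (smul_left_cancel g (g2.trans e.symm)), fun e => hy ?_⟩
      rwa [smul_left_cancel g (g1 _ e)] at e) (by simp [hab.symm, hb])
  exact ⟨u * g, fun s hs => by rw [mul_smul, g1 s hs, u1 s (by simp [hs])],
    by rw [mul_smul, g2, u1 a (by simp)], by rw [mul_smul, u2]⟩

section R
variable [Finite G] [Finite α] {k : ℕ} (hG : IsMultiplyPretransitive G α k)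
  (hH : ∀ (g : G) (s : Finset α), s.card = k + 1 → (∀ x ∈ s, g • x = x) → g = 1)
include hG hH

theorem swapOn_of_even (hk : 2 ≤ k) (hkn : k ≤ Nat.card α) {Γ₀ : Finset α} (h0 : Γ₀.card = k)
    (he : ¬ Odd (Nat.card (fixingSubgroup G (Γ₀ : Set α)))) {Δ : Finset α} (hΔ : Δ.card = k + 1) :
    SwapOn G Δ := by
  classical
  have := Fintype.ofFinite α
  have := Fintype.ofFinite G
  intro a ha b hb hab
  have c1 : ((Δ.erase a).erase b).card = k - 1 := by
    rw [Finset.card_erase_of_mem (by simp [hb, hab.symm]), Finset.card_erase_of_mem ha]; omega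
  obtain ⟨z, hz⟩ := Finset.card_pos.1 (show 0 < ((Δ.erase a).erase b).card by omega)
  set S := ((Δ.erase a).erase b).erase z with hS
  have c2 : S.card = k - 2 := by rw [hS, Finset.card_erase_of_mem hz]; omega
  have aS : a ∉ S := by simp [hS]
  have bS : b ∉ S := by simp [hS]
  have c3 : ∀ x y, x ∉ S → y ∉ S → x ≠ y → (insert x (insert y S)).card = k := fun x y h1 h2 h3 => by
    rw [Finset.card_insert_of_notMem (by simp [h1, h3]), Finset.card_insert_of_notMem h2]; omega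
  set Γ := insert a (insert b S) with hΓ
  have c4 : Γ.card = k := c3 a b aS bS hab
  set h := Nat.card (fixingSubgroup G (Γ : Set α)) with hh
  obtain ⟨t, ht, t2, t1⟩ : ∃ t ∈ fixingSubgroup G (Γ : Set α), t * t = 1 ∧ t ≠ 1 := by
    by_contra! hc
    exact he (card_fixing_eq hG c4 h0 ▸ odd_card_of_no_invol _ hc)
  rw [mem_fixingSubgroup_iff] at ht
  have tt : ∀ x : α, t • t • x = x := fun x => by rw [← mul_smul, t2, one_smul]
  have ft : ∀ x, t • x = x → x ∈ Γ := fun x hx => by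
    by_contra hc
    refine t1 (hH t (insert x Γ) (by rw [Finset.card_insert_of_notMem hc, c4]) fun y hy => ?_)
    rcases Finset.mem_insert.1 hy with rfl | hy
    exacts [hx, ht y hy]
  have SΓ : ∀ x ∈ S, x ∈ Γ := fun x hx => by simp [hΓ, hx]
  let M : Finset G := Finset.univ.filter fun g =>
    (∀ s ∈ S, g • s = s) ∧ g⁻¹ • a ∉ Γ ∧ g • t • g⁻¹ • a = b
  have low : h * (Γᶜ).card ≤ M.card := by
    refine Finset.mul_card_image_le_card_of_maps_to (f := fun g : G => g⁻¹ • a)
      (fun g hg => by simpa using (Finset.mem_filter.1 hg).2.2.1) h fun x hx => ?_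
    have hx' : x ∉ Γ := by simpa using hx
    have htx : t • x ∉ Γ := fun e => hx' (by rw [← tt x, ht _ e]; exact e)
    have hne : x ≠ t • x := fun e => hx' (ft x e.symm)
    obtain ⟨g0, g1, g2, g3⟩ := exists_fix_move_two hG hkn S (by omega) (fun e => hx' (SΓ _ e))
      (fun e => htx (SΓ _ e)) aS bS hne hab
    have c5 := c3 x (t • x) (fun e => hx' (SΓ _ e)) (fun e => htx (SΓ _ e)) hne
    rw [hh, card_fixing_eq hG c4 c5, ← ncard_coset_fixing _ g0, ← Set.ncard_coe_finset]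
    refine Set.ncard_le_ncard (fun g hg => ?_) (Set.toFinite _)
    have e1 : g • x = a := by rw [hg x (by simp), g2]
    have e2 : g⁻¹ • a = x := smul_inv_eq e1
    simp only [M, Finset.coe_filter, Finset.mem_filter, Finset.mem_univ, true_and, Set.mem_ofPred_eq, e2,
      and_true]
    exact ⟨fun s hs => by rw [hg s (by simp [hs]), g1 s hs], hx', by rw [hg _ (by simp), g3]⟩
  have key : ∀ g ∈ M, (g * t * g⁻¹) • a = b ∧ (g * t * g⁻¹) • b = a ∧
      (∀ s ∈ S, (g * t * g⁻¹) • s = s) ∧ (g * t * g⁻¹) • g • a = g • a ∧ g • a ∉ Γ := by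
    intro g hg
    obtain ⟨g1, g2, g3⟩ := (Finset.mem_filter.1 hg).2
    refine ⟨by simpa [mul_smul] using g3, by rw [← g3]; simp [mul_smul, tt], fun s hs => ?_, ?_, ?_⟩
    · rw [mul_smul, mul_smul, smul_inv_eq (g1 s hs), ht s (SΓ s hs), g1 s hs]
    · rw [mul_smul, mul_smul, inv_smul_smul, ht a (by simp [hΓ])]
    · intro e
      simp only [hΓ, Finset.mem_insert] at e
      rcases e with e | e | e
      · exact g2 (by rw [smul_inv_eq e]; simp [hΓ])
      · rw [← g3, smul_left_cancel_iff] at e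
        refine g2 ?_
        rw [← tt (g⁻¹ • a), ← e, ht a (by simp [hΓ])]; simp [hΓ]
      · exact aS (by rwa [smul_left_cancel g (g1 _ e)] at e)
  have hz' : z ∉ Γ := by
    simp only [Finset.mem_erase] at hz
    simp [hΓ, hS, hz.1, hz.2.1]
  obtain ⟨g, hg, e⟩ : ∃ g ∈ M, g • a = z := by
    by_contra! hc
    have up : M.card ≤ h * (Γᶜ.erase z).card := by
      refine Finset.card_le_mul_card_image_of_maps_to (f := fun g : G => g • a)
        (fun g hg => by simp [hc g hg, (key g hg).2.2.2.2]) h fun y hy => ?_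
      rcases (M.filter fun g : G => g • a = y).eq_empty_or_nonempty with e | ⟨g1, hg1⟩
      · simp [e]
      rw [hh, ← ncard_coset_fixing _ g1, ← Set.ncard_coe_finset]
      refine Set.ncard_le_ncard (fun g hg => ?_) (Set.toFinite _)
      simp only [Finset.coe_filter, Set.mem_ofPred_eq] at hg
      rw [Finset.mem_filter] at hg1
      obtain ⟨a1, a2, a3, a4, a5⟩ := key g hg.1
      obtain ⟨b1, b2, b3, b4, -⟩ := key g1 hg1.1
      have s1 := (Finset.mem_filter.1 hg.1).2.1
      have s2 := (Finset.mem_filter.1 hg1.1).2.1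
      have e : (g1 * t * g1⁻¹)⁻¹ * (g * t * g⁻¹) = 1 := by
        refine hH _ (insert y Γ) (by rw [Finset.card_insert_of_notMem (hg.2 ▸ a5), c4]) fun v hv => ?_
        rw [mul_smul, inv_smul_eq_iff]
        simp only [hΓ, Finset.mem_insert] at hv
        rcases hv with rfl | rfl | rfl | hv
        · rw [← hg.2, a4, hg.2, ← hg1.2, b4]
        · rw [a1, b1]
        · rw [a2, b2]
        · rw [a3 v hv, b3 v hv]
      rw [inv_mul_eq_one] at e
      have e2 := ft (g1⁻¹ • g • b) (by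
        rw [← smul_left_cancel_iff g1, ← mul_smul, ← mul_smul, e, smul_inv_smul, mul_smul, mul_smul,
          inv_smul_smul, ht b (by simp [hΓ])])
      intro v hv
      simp only [hΓ, Finset.coe_insert, Set.mem_insert_iff, Finset.mem_coe] at hv
      rcases hv with rfl | rfl | hv
      · rw [hg.2, hg1.2]
      · simp only [hΓ, Finset.mem_insert] at e2
        rcases e2 with e2 | e2 | e2
        · rw [inv_smul_eq_iff, hg1.2, ← hg.2, smul_left_cancel_iff] at e2
          exact absurd e2 hab.symm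
        · exact inv_smul_eq_iff.1 e2
        · have e3 := s2 _ e2
          rw [smul_inv_smul] at e3
          rw [← e3] at e2
          exact absurd (by rwa [smul_left_cancel g (s1 _ e2)] at e2) bS
      · rw [s1 v hv, s2 v hv]
    rw [Finset.card_erase_of_mem (by simpa using hz')] at up
    have p1 : 0 < h := Nat.card_pos
    have p2 : 0 < (Γᶜ).card := Finset.card_pos.2 ⟨z, by simpa using hz'⟩
    obtain ⟨m, hm⟩ : ∃ m, (Γᶜ).card = m + 1 := ⟨_, (Nat.succ_pred_eq_of_pos p2).symm⟩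
    rw [hm] at low up
    simp only [Nat.add_sub_cancel] at up
    nlinarith
  obtain ⟨a1, a2, a3, a4, -⟩ := key g hg
  refine ⟨_, a1, a2, fun x hx n1 n2 => ?_⟩
  by_cases n3 : x = z
  · rw [n3, ← e, a4]
  · exact a3 x (by simp [hS, hx, n1, n2, n3])

theorem swap_rule (hkn : k ≤ Nat.card α)
    (ho : ∀ Γ : Finset α, Γ.card = k → Odd (Nat.card (fixingSubgroup G (Γ : Set α))))
    {Δ : Finset α} (hΔ : Δ.card = k + 1) (hk : 4 ≤ k) {p q u v : α} (hp : p ∈ Δ) (hq : q ∈ Δ)
    (hu : u ∈ Δ) (hv : v ∈ Δ) (n1 : p ≠ q) (n2 : u ≠ v) (n3 : u ≠ p) (n4 : u ≠ q) (n5 : v ≠ p)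
    (n6 : v ≠ q) (h : SwapAt G Δ p q) : SwapAt G Δ u v := by
  classical
  obtain ⟨r, hr, hr'⟩ : ∃ r ∈ Δ, r ∉ ({p, q, u, v} : Finset α) := by
    by_contra! hc
    have := Finset.card_le_card (show Δ ⊆ {p, q, u, v} from hc)
    have := Finset.card_le_four (a := p) (b := q) (c := u) (d := v)
    omega
  simp only [Finset.mem_insert, Finset.mem_singleton, not_or] at hr'
  obtain ⟨r1, r2, r3, r4⟩ := hr'
  set Γ := Δ.erase r with hΓ
  have c1 : Γ.card = k := by rw [hΓ, Finset.card_erase_of_mem hr]; omega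
  have rΓ : r ∉ Γ := by simp [hΓ]
  have mΓ : ∀ x ∈ Δ, x ≠ r → x ∈ Γ := fun x h1 h2 => by simp [hΓ, h1, h2]
  set H := fixingSubgroup G (Γ : Set α) with hHd
  have mH : ∀ g, g ∈ H ↔ ∀ x ∈ Γ, g • x = x := fun g => by simp [hHd, mem_fixingSubgroup_iff]
  let C : Set G := {g | g • p = q ∧ g • q = p ∧ ∀ x ∈ Γ, x ≠ p → x ≠ q → g • x = x}
  let F : Set α := {y | y ∉ Γ ∧ ∃ g ∈ C, g • y = y}
  obtain ⟨g0, g1, g2, g3⟩ := h
  have rF : r ∈ F := ⟨rΓ, g0, ⟨g1, g2, fun x hx => g3 x (Finset.mem_of_mem_erase hx)⟩, g3 r hr r1 r2⟩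
  have pΓ := mΓ p hp (Ne.symm r1)
  have qΓ := mΓ q hq (Ne.symm r2)
  have hC : C.ncard = Nat.card H := by
    rw [hHd, ← ncard_coset_fixing _ g0]
    congr 1
    ext g
    constructor
    · rintro ⟨a1, a2, a3⟩ x hx
      by_cases e1 : x = p
      · rw [e1, a1, g1]
      by_cases e2 : x = q
      · rw [e2, a2, g2]
      rw [a3 x hx e1 e2, g3 x (Finset.mem_of_mem_erase hx) e1 e2]
    · intro hg
      exact ⟨by rw [hg p pΓ, g1], by rw [hg q qΓ, g2], fun x hx e1 e2 => by
        rw [hg x hx, g3 x (Finset.mem_of_mem_erase hx) e1 e2]⟩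
  have inv : ∀ (g : G) (y : α), (∀ x ∈ Γ, g • x ∈ Γ) → y ∉ Γ → g • y ∉ Γ := fun g y h1 h2 =>
    smul_notMem_of_maps h1 h2
  have hF : F.ncard ≤ C.ncard := by
    have : ∀ y : F, ∃ g : C, (g : G) • (y : α) = y := fun y => by
      obtain ⟨g, h1, h2⟩ := y.2.2; exact ⟨⟨g, h1⟩, h2⟩
    choose f hf using this
    rw [← Nat.card_coe_set_eq, ← Nat.card_coe_set_eq]
    refine Nat.card_le_card_of_injective f fun y y' e => ?_
    by_contra hne
    have hne' : (y : α) ≠ y' := fun e => hne (Subtype.ext e)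
    obtain ⟨a1, a2, a3⟩ := (f y).2
    have b1 : (f y : G) * f y = 1 := by
      refine hH _ (insert (y : α) Γ) (by rw [Finset.card_insert_of_notMem y.2.1, c1]) fun x hx => ?_
      rw [mul_smul]
      rcases Finset.mem_insert.1 hx with rfl | hx
      · rw [hf, hf]
      by_cases e1 : x = p
      · rw [e1, a1, a2]
      by_cases e2 : x = q
      · rw [e2, a2, a1]
      rw [a3 x hx e1 e2, a3 x hx e1 e2]
    have c2 : (insert (y : α) (insert (y' : α) ((Γ.erase p).erase q))).card = k := by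
      rw [Finset.card_insert_of_notMem (by simp [hne', y.2.1]),
        Finset.card_insert_of_notMem (by simp [y'.2.1]),
        Finset.card_erase_of_mem (by simp [qΓ, n1.symm]), Finset.card_erase_of_mem pΓ]
      omega
    have b2 : (f y : G) ∈ fixingSubgroup G
        ((insert (y : α) (insert (y' : α) ((Γ.erase p).erase q)) : Finset α) : Set α) := by
      rw [mem_fixingSubgroup_iff]
      intro x hx
      simp only [Finset.coe_insert, Set.mem_insert_iff, Finset.mem_coe, Finset.mem_erase] at hx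
      rcases hx with rfl | rfl | hx
      · exact hf _
      · rw [e]; exact hf _
      · exact a3 x hx.2.2 hx.2.1 hx.1
    have b3 := (Subgroup.orderOf_dvd_natCard _ b2)
    have b4 : orderOf (f y : G) = 2 := orderOf_eq_prime (by rw [pow_two, b1]) (fun e => n1 (by
      rw [e, one_smul] at a1; exact a1))
    rw [b4, ← even_iff_two_dvd] at b3
    exact Nat.not_even_iff_odd.2 (ho _ c2) b3
  have hO : (orbit H r).ncard = Nat.card H := by
    have := card_orbit_mul_card_inf H r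
    have e : H ⊓ stabilizer G r = ⊥ := by
      rw [eq_bot_iff]
      rintro g ⟨a1, a2⟩
      refine hH g (insert r Γ) (by rw [Finset.card_insert_of_notMem rΓ, c1]) fun x hx => ?_
      rcases Finset.mem_insert.1 hx with rfl | hx
      exacts [a2, (mH g).1 a1 x hx]
    rwa [e, Subgroup.card_bot, mul_one] at this
  have conj : ∀ σ : G, σ • p = p → σ • q = q → (∀ x ∈ Γ, σ • x ∈ Γ) → σ • r ∈ F := by
    intro σ s1 s2 s3
    refine ⟨inv σ r s3 rΓ, σ * g0 * σ⁻¹, ⟨?_, ?_, fun x hx e1 e2 => ?_⟩, ?_⟩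
    · rw [mul_smul, mul_smul, smul_inv_eq s1, g1, s2]
    · rw [mul_smul, mul_smul, smul_inv_eq s2, g2, s1]
    · rw [mul_smul, mul_smul, g3 _ (Finset.mem_of_mem_erase (inv_smul_mem_of_maps s3 x hx))
        (fun e => e1 (by rw [inv_smul_eq_iff.1 e, s1])) (fun e => e2 (by rw [inv_smul_eq_iff.1 e, s2])),
        smul_inv_smul]
    · rw [mul_smul, mul_smul, inv_smul_smul, g3 r hr r1 r2]
  have hOF : orbit H r = F := by
    refine Set.eq_of_subset_of_ncard_le ?_ (by omega) (Set.toFinite _)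
    rintro _ ⟨⟨η, hη⟩, rfl⟩
    have := (mH η).1 hη
    exact conj η (this p pΓ) (this q qΓ) fun x hx => by rwa [this x hx]
  have uΓ := mΓ u hu (Ne.symm r3)
  have vΓ := mΓ v hv (Ne.symm r4)
  obtain ⟨σ, s1, s2, s3⟩ := exists_fix_move_two hG hkn ((Γ.erase u).erase v) (by
    rw [Finset.card_erase_of_mem (by simp [vΓ, n2.symm]), Finset.card_erase_of_mem uΓ]; omega)
    (x := u) (y := v) (a := v) (b := u) (by simp) (by simp) (by simp) (by simp) n2 n2.symm
  have s4 : ∀ x ∈ Γ, x ≠ u → x ≠ v → σ • x = x := fun x hx e1 e2 => s1 x (by simp [hx, e1, e2])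
  have s5 := conj σ (s4 p pΓ n3.symm n5.symm) (s4 q qΓ n4.symm n6.symm) fun x hx => by
    by_cases e1 : x = u
    · rwa [e1, s2]
    by_cases e2 : x = v
    · rwa [e2, s3]
    rwa [s4 x hx e1 e2]
  rw [← hOF] at s5
  obtain ⟨⟨η, hη⟩, e⟩ := s5
  have hη' := (mH _).1 (H.inv_mem hη)
  refine ⟨η⁻¹ * σ, by rw [mul_smul, s2, hη' v vΓ], by rw [mul_smul, s3, hη' u uΓ], fun x hx e1 e2 => ?_⟩
  by_cases e3 : x = r
  · rw [e3, mul_smul, inv_smul_eq_iff]; exact e.symm
  · rw [mul_smul, s4 x (mΓ x hx e3) e1 e2, hη' x (mΓ x hx e3)]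

theorem swapOn_of_odd (hkn : k ≤ Nat.card α)
    (ho : ∀ Γ : Finset α, Γ.card = k → Odd (Nat.card (fixingSubgroup G (Γ : Set α))))
    (hk : 4 ≤ k) (hn : Odd (Nat.card α - k)) : ∃ Δ : Finset α, Δ.card = k + 1 ∧ SwapOn G Δ := by
  classical
  have := Fintype.ofFinite α
  obtain ⟨Γ, -, c1⟩ := Finset.exists_subset_card_eq (s := (Finset.univ : Finset α)) (n := k)
    (by rwa [Finset.card_univ, ← Nat.card_eq_fintype_card])
  obtain ⟨p, hp, q, hq, n1⟩ := Finset.one_lt_card.1 (show 1 < Γ.card by omega)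
  obtain ⟨σ, s1, s2, s3⟩ := exists_fix_move_two hG hkn ((Γ.erase p).erase q) (by
    rw [Finset.card_erase_of_mem (by simp [hq, n1.symm]), Finset.card_erase_of_mem hp]; omega)
    (x := p) (y := q) (a := q) (b := p) (by simp) (by simp) (by simp) (by simp) n1 n1.symm
  have s4 : ∀ x ∈ Γ, x ≠ p → x ≠ q → σ • x = x := fun x hx e1 e2 => s1 x (by simp [hx, e1, e2])
  have o1 := ho Γ c1
  rw [← ncard_coset_fixing _ σ] at o1
  have sq : ∀ x ∈ Γ, σ • σ • x = x ∧ σ • x ∈ Γ := fun x hx => by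
    by_cases e1 : x = p
    · rw [e1, s2, s3]; exact ⟨rfl, hq⟩
    by_cases e2 : x = q
    · rw [e2, s3, s2]; exact ⟨rfl, hp⟩
    rw [s4 x hx e1 e2, s4 x hx e1 e2]; exact ⟨rfl, hx⟩
  obtain ⟨t, ht, t2⟩ := exists_invol_of_odd o1 fun g hg x hx => by
    rw [inv_smul_eq_iff, hg _ (sq x hx).2, (sq x hx).1]
  have o2 : Odd ((Γ : Set α)ᶜ).ncard := by
    have := Set.ncard_add_ncard_compl (Γ : Set α)
    rw [Set.ncard_coe_finset, c1] at this
    rwa [show ((Γ : Set α)ᶜ).ncard = Nat.card α - k by omega]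
  obtain ⟨r, hr, tr⟩ := exists_mem_of_odd (invol_odd_fixed (fun x : α => t • x) o2
    (fun x hx => smul_notMem_of_maps (fun y hy => by rw [ht y hy]; exact (sq y hy).2) hx)
    (fun x _ => by rw [← mul_smul, t2, one_smul]))
  have hr' : r ∉ Γ := hr
  have c2 : (insert r Γ).card = k + 1 := by rw [Finset.card_insert_of_notMem hr', c1]
  have base : SwapAt G (insert r Γ) p q := ⟨t, by rw [ht p hp, s2], by rw [ht q hq, s3],
    fun x hx e1 e2 => by
      rcases Finset.mem_insert.1 hx with rfl | hx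
      exacts [tr, by rw [ht x hx, s4 x hx e1 e2]]⟩
  refine ⟨insert r Γ, c2, ?_⟩
  have hp' : p ∈ insert r Γ := by simp [hp]
  have hq' : q ∈ insert r Γ := by simp [hq]
  generalize insert r Γ = Δ at *
  have step : ∀ p ∈ Δ, ∀ q ∈ Δ, ∀ u ∈ Δ, p ≠ q → u ≠ p → SwapAt G Δ p q → SwapAt G Δ p u := by
    intro p hp q hq u hu n1 n2 h
    by_cases n3 : u = q
    · rwa [n3]
    obtain ⟨v, hv, w, hw, n4⟩ := Finset.one_lt_card.1 (show 1 < (Δ \ {p, q, u}).card by
      have := Finset.le_card_sdiff {p, q, u} Δ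
      have := Finset.card_le_three (a := p) (b := q) (c := u)
      omega)
    simp only [Finset.mem_sdiff, Finset.mem_insert, Finset.mem_singleton, not_or] at hv hw
    exact swap_rule hG hH hkn ho c2 hk hv.1 hw.1 hp hu n4 n2.symm (Ne.symm hv.2.1) (Ne.symm hw.2.1)
      (Ne.symm hv.2.2.2) (Ne.symm hw.2.2.2)
      (swap_rule hG hH hkn ho c2 hk hp hq hv.1 hw.1 n1 n4 hv.2.1 hv.2.2.1 hw.2.1 hw.2.2.1 h)
  intro a ha b hb n
  by_cases e : a = p
  · rw [e]; exact step p hp' q hq' b hb n1 (e ▸ n.symm) base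
  · exact step a ha p hp' b hb e n.symm (step p hp' q hq' a ha n1 e base).symm

theorem card_eq_of_odd (hkn : k < Nat.card α)
    (ho : ∀ Γ : Finset α, Γ.card = k → Odd (Nat.card (fixingSubgroup G (Γ : Set α))))
    (hk : 4 ≤ k) (hn : Even (Nat.card α - k)) : Nat.card α = k + 2 := by
  classical
  have := Fintype.ofFinite α
  obtain ⟨T, -, c1⟩ := Finset.exists_subset_card_eq (s := (Finset.univ : Finset α)) (n := k - 4)
    (by rw [Finset.card_univ, ← Nat.card_eq_fintype_card]; omega)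
  have h4 : IsMultiplyPretransitive (fixingSubgroup G (T : Set α))
      (SubMulAction.ofFixingSubgroup G (T : Set α)) 4 :=
    SubMulAction.ofFixingSubgroup.isMultiplyPretransitive G (n := k) _ (by rw [Set.ncard_coe_finset]; omega)
  have hc : Nat.card (SubMulAction.ofFixingSubgroup G (T : Set α)) = Nat.card α - (k - 4) := by
    have := Set.ncard_add_ncard_compl (T : Set α)
    rw [Set.ncard_coe_finset, c1] at this
    change Nat.card ((T : Set α)ᶜ : Set α) = _
    rw [Nat.card_coe_set_eq]; omega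
  have cU : ∀ s : Finset (SubMulAction.ofFixingSubgroup G (T : Set α)),
      (T ∪ s.map (Embedding.subtype _)).card = k - 4 + s.card := fun s => by
    rw [Finset.card_union_of_disjoint, Finset.card_map, c1]
    rw [Finset.disjoint_right]
    intro x hx
    obtain ⟨y, -, rfl⟩ := Finset.mem_map.1 hx
    exact y.2
  have fU : ∀ (g : fixingSubgroup G (T : Set α)) (s : Finset (SubMulAction.ofFixingSubgroup G (T : Set α))),
      (∀ x ∈ s, g • x = x) → ∀ x ∈ T ∪ s.map (Embedding.subtype _), (g : G) • x = x := by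
    intro g s hs x hx
    rcases Finset.mem_union.1 hx with hx | hx
    · exact (mem_fixingSubgroup_iff G).1 g.2 x hx
    · obtain ⟨y, hy, rfl⟩ := Finset.mem_map.1 hx
      exact congrArg Subtype.val (hs y hy)
  have := card_eq_six h4 (fun t ht x y z w hi h1 h2 h3 h5 => by
      have n := fun i j (hij : i ≠ j) => hi.ne hij
      have c4 : ({x, y, z, w} : Finset _).card = 4 := Finset.card_eq_four.2 ⟨x, y, z, w, n 0 1 (by decide),
        n 0 2 (by decide), n 0 3 (by decide), n 1 2 (by decide), n 1 3 (by decide), n 2 3 (by decide), rfl⟩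
      by_contra t1
      have b2 : (t : G) ∈ fixingSubgroup G ((T ∪ ({x, y, z, w} : Finset _).map (Embedding.subtype _) :
          Finset α) : Set α) := (mem_fixingSubgroup_iff G).2 (fU t _ (by simp [*]))
      have b3 := Subgroup.orderOf_dvd_natCard _ b2
      rw [Subgroup.orderOf_coe, orderOf_eq_prime (p := 2) (by rw [pow_two, ht]) t1, ← even_iff_two_dvd] at b3
      exact Nat.not_even_iff_odd.2 (ho _ (by rw [cU, c4]; omega)) b3)
    (by rw [hc]; obtain ⟨m, hm⟩ := hn; exact ⟨m + 2, by omega⟩) (by omega)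
    (fun g s hs hg => Subtype.ext (hH g _ (by rw [cU, hs]; omega) (fU g s hg)))
  omega

/-- Lemma R -/
theorem lemmaR (hk : 4 ≤ k) (hkn : k < Nat.card α) :
    Nat.card α = k + 2 ∨ ∃ Δ : Finset α, Δ.card = k + 1 ∧ SwapOn G Δ := by
  classical
  by_cases ho : ∀ Γ : Finset α, Γ.card = k → Odd (Nat.card (fixingSubgroup G (Γ : Set α)))
  · rcases Nat.even_or_odd (Nat.card α - k) with h | h
    · exact Or.inl (card_eq_of_odd hG hH hkn ho hk h)
    · exact Or.inr (swapOn_of_odd hG hH hkn.le ho hk h)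
  · push Not at ho
    obtain ⟨Γ, h1, h2⟩ := ho
    have := Fintype.ofFinite α
    obtain ⟨Δ, -, c1⟩ := Finset.exists_subset_card_eq (s := (Finset.univ : Finset α)) (n := k + 1)
      (by rw [Finset.card_univ, ← Nat.card_eq_fintype_card]; omega)
    exact Or.inr ⟨Δ, c1, swapOn_of_even hG hH (by omega) hkn.le h1 h2 c1⟩

end R

end Cfsg.Agent.H3
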