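import Cfsg.Agent.H3.LW2
import Cfsg.Agent.H3.Der2

set_option autoImplicit false

/-! A `k`-transitive group induces the alternating group on some `(k+1)`-subset. -/

namespace Cfsg.Agent.H3

open MulAction Function
open scoped Pointwise

universe u

theorem cyc3On_of_alt {α : Type*} [Fintype α] [DecidableEq α] {G : Subgroup (Equiv.Perm α)}
    (h : alternatingGroup α ≤ G) (Δ : Finset α) : Cyc3On G Δ := by
  intro a _ b _ c _ n1 n2 n3
  refine ⟨⟨Equiv.swap a c * Equiv.swap a b,
    h (Equiv.Perm.isThreeCycle_swap_mul_swap_same n2 n1 n3.symm).mem_alternatingGroup⟩, ?_, ?_, ?_,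
    fun x _ m1 m2 m3 => ?_⟩ <;>
  simp [Subgroup.smul_def, Equiv.swap_apply_def, *, n1.symm, n2.symm, n3.symm]

theorem Cyc3On.alt {G α : Type*} [Group G] [MulAction G α] [DecidableEq α] {Δ : Finset α}
    (h : Cyc3On G Δ) (σ : Equiv.Perm Δ) (hσ : σ ∈ alternatingGroup Δ) :
    ∃ g : G, ∀ x : Δ, g • (x : α) = σ x := by
  rw [← Equiv.Perm.closure_three_cycles_eq_alternating] at hσ
  induction hσ using Subgroup.closure_induction with
  | mem σ hσ =>
    have h3 : σ.IsThreeCycle := hσ
    obtain ⟨a, ha⟩ := Finset.card_pos.1 (show 0 < σ.support.card by rw [h3.card_support]; omega)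
    have e := h3.support_eq_iff_mem_support.2 ha
    have nd := h3.nodup_iff_mem_support.2 ha
    simp only [List.nodup_cons, List.mem_cons, List.not_mem_nil, or_false, not_or] at nd
    have e3 : σ (σ (σ a)) = a := by
      have := pow_orderOf_eq_one σ
      rw [h3.orderOf] at this
      simpa [pow_succ] using congrArg (fun f : Equiv.Perm Δ => f a) this
    obtain ⟨g, g1, g2, g3, g4⟩ := h a a.2 _ (σ a).2 _ (σ (σ a)).2
      (fun e => nd.1.1 (Subtype.ext e)) (fun e => nd.1.2 (Subtype.ext e))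
      (fun e => nd.2.1 (Subtype.ext e))
    refine ⟨g, fun x => ?_⟩
    by_cases hx : x ∈ σ.support
    · rw [e] at hx
      simp only [Finset.mem_insert, Finset.mem_singleton] at hx
      rcases hx with rfl | rfl | rfl
      exacts [g1, g2, by rw [g3, e3]]
    · have hx' := hx
      rw [e] at hx
      simp only [Finset.mem_insert, Finset.mem_singleton, not_or] at hx
      rw [Equiv.Perm.notMem_support.1 hx']
      exact g4 x x.2 (fun e => hx.1 (Subtype.ext e)) (fun e => hx.2.1 (Subtype.ext e))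
        (fun e => hx.2.2 (Subtype.ext e))
  | one => exact ⟨1, fun x => one_smul _ _⟩
  | mul σ τ _ _ h1 h2 =>
    obtain ⟨g, hg⟩ := h1
    obtain ⟨u, hu⟩ := h2
    exact ⟨g * u, fun x => by rw [mul_smul, hu, hg]; rfl⟩
  | inv σ _ h1 =>
    obtain ⟨g, hg⟩ := h1
    exact ⟨g⁻¹, fun x => by rw [inv_smul_eq_iff, hg]; simp⟩

theorem ktrans_range {G α : Type*} [Group G] [MulAction G α] {k : ℕ}
    (h : IsMultiplyPretransitive G α k) : IsMultiplyPretransitive (toPermHom G α).range α k := by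
  rw [ktrans_iff] at h ⊢
  intro x y hx hy
  obtain ⟨g, hg⟩ := h x y hx hy
  exact ⟨⟨_, g, rfl⟩, hg⟩

theorem exists_cyc3On {k : ℕ} (hk : 4 ≤ k) (n : ℕ) : ∀ (α : Type u) [Finite α]
    (G : Subgroup (Equiv.Perm α)), Nat.card α = n → k < n → IsMultiplyPretransitive G α k →
    ∃ Δ : Finset α, Δ.card = k + 1 ∧ Cyc3On G Δ := by
  induction n using Nat.strong_induction_on with
  | _ n ih =>
  intro α _ G hn hkn hG
  classical
  have := Fintype.ofFinite α
  have hf : ∀ g : G, (∀ x : α, g • x = x) → g = 1 := fun g h => Subtype.ext (Equiv.ext h)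
  by_cases hH : ∀ (g : G) (s : Finset α), s.card = k + 1 → (∀ x ∈ s, g • x = x) → g = 1
  · rcases lemmaR hG hH hk (hn ▸ hkn) with h | ⟨Δ, h1, h2⟩
    · obtain ⟨Δ, -, c1⟩ := Finset.exists_subset_card_eq (s := (Finset.univ : Finset α)) (n := k + 1)
        (by rw [Finset.card_univ, ← Nat.card_eq_fintype_card]; omega)
      exact ⟨Δ, c1, cyc3On_of_alt (_root_.IsMultiplyPretransitive.alternatingGroup_le α G
        (by rwa [h, Nat.add_sub_cancel])) Δ⟩
    · exact ⟨Δ, h1, h2.cyc3On⟩
  push Not at hH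
  obtain ⟨g, s, hs, hg, g1⟩ := hH
  obtain ⟨p, hp, hpd⟩ := Nat.exists_prime_and_dvd (n := Nat.card (fixingSubgroup G (s : Set α))) (by
    intro e
    exact g1 ((Subgroup.card_eq_one.1 e).le ((mem_fixingSubgroup_iff G).2 hg)))
  have : Fact p.Prime := ⟨hp⟩
  let B : Set (Subgroup G) := {Q | IsPGroup p Q ∧ k + 1 ≤ {x : α | ∀ g ∈ Q, g • x = x}.ncard}
  have hB : ∀ Q : Subgroup G, IsPGroup p Q → Q ≤ fixingSubgroup G (s : Set α) → Q ∈ B := fun Q h1 h2 =>
    ⟨h1, by
      rw [← hs, ← Set.ncard_coe_finset]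
      exact Set.ncard_le_ncard (fun x hx g hg => (mem_fixingSubgroup_iff G).1 (h2 hg) x hx)⟩
  obtain ⟨Q, ⟨hQ, hQF⟩, hmax⟩ := (Set.toFinite B).exists_maximalFor (fun Q : Subgroup G => Nat.card Q) _
    ⟨⊥, hB ⊥ IsPGroup.of_bot bot_le⟩
  have hQ1 : Q ≠ ⊥ := by
    rintro rfl
    obtain ⟨P, hP⟩ := exists_sylowIn hp (fixingSubgroup G (s : Set α))
    have h1 := hP.pow_dvd hp (n := 1) (by simpa using hpd)
    have h2 := (hmax (hB P hP.pgroup hP.le) (by simp [Nat.one_le_iff_ne_zero]))
    have h3 := Nat.le_of_dvd Nat.card_pos h1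
    have := hp.two_le
    simp only [Subgroup.card_bot, pow_one] at h2 h3
    omega
  let N := Subgroup.normalizer (Q : Set G)
  let F : SubMulAction N α :=
    { carrier := {x : α | ∀ g ∈ Q, g • x = x}
      smul_mem' := fun c x hx g hg => by
        have := hx _ ((Subgroup.mem_normalizer_iff.1 (N.inv_mem c.2) g).1 hg)
        change g • (c : G) • x = (c : G) • x
        rwa [inv_inv, mul_smul, mul_smul, inv_smul_eq_iff] at this }
  have cF : Nat.card F = {x : α | ∀ g ∈ Q, g • x = x}.ncard := Nat.card_coe_set_eq _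
  have lt : Nat.card F < n := by
    rw [cF, ← hn, ← Set.ncard_univ]
    refine Set.ncard_lt_ncard (Set.ssubset_univ_iff.2 fun e => hQ1 ?_)
    rw [eq_bot_iff]
    exact fun g hg => hf g fun x => (e ▸ Set.mem_univ x : x ∈ {x : α | ∀ g ∈ Q, g • x = x}) g hg
  have hle : ∀ t : Finset F, Q ≤ fixingSubgroup G ((t.map (Embedding.subtype _) : Finset α) : Set α) := by
    intro t g hg
    rw [mem_fixingSubgroup_iff]
    intro x hx
    obtain ⟨y, -, rfl⟩ := Finset.mem_map.1 hx
    exact y.2 g hg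
  have hN : IsMultiplyPretransitive N F k := by
    by_cases hS : ∃ t : Finset F, t.card = k ∧
        SylowIn p Q (fixingSubgroup G ((t.map (Embedding.subtype _) : Finset α) : Set α))
    · obtain ⟨t, ht, hS⟩ := hS
      refine ktrans_of_on fun r hr f hf' => ?_
      obtain ⟨g, hg⟩ := exists_smul_eq_on_of_card_eq hG (r.map (Embedding.subtype _)) (by simpa using hr)
        (fun x => if h : x ∈ F then (f ⟨x, h⟩ : α) else x) (by
          intro x hx y hy e
          obtain ⟨x, hx', rfl⟩ := Finset.mem_map.1 hx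
          obtain ⟨y, hy', rfl⟩ := Finset.mem_map.1 hy
          exact congrArg _ (hf' hx' hy' (Subtype.ext
            (((dif_pos x.2).symm.trans e).trans (dif_pos y.2)))))
      have hg' : ∀ x ∈ r, g • (x : α) = f x := fun x hx => by
        simpa [x.2] using hg x (Finset.mem_map_of_mem _ hx)
      have c1 : (r.image f).card = k := by rw [Finset.card_image_of_injOn hf', hr]
      have hS' : SylowIn p Q (fixingSubgroup G (((r.image f).map (Embedding.subtype _) : Finset α) : Set α)) :=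
        sylowIn_of_card hp (hle _) (by
          rw [hS.card_eq hp, card_fixing_eq hG (by simpa using ht) ((Finset.card_map _).trans c1)])
      obtain ⟨y, hy, hy'⟩ := hS'.adjust hp (x := g) fun u hu => by
        rw [mem_fixingSubgroup_iff]
        intro x hx
        obtain ⟨x, hx', rfl⟩ := Finset.mem_map.1 hx
        obtain ⟨x, hx'', rfl⟩ := Finset.mem_image.1 hx'
        rw [Embedding.subtype_apply, ← hg' x hx'', mul_smul, mul_smul, inv_smul_smul, x.2 u hu]
      refine ⟨⟨y * g, mem_normalizer_of_conj_mem hy'⟩, fun x hx => Subtype.ext ?_⟩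
      change (y * g) • (x : α) = _
      rw [mul_smul, hg' x hx]
      exact (mem_fixingSubgroup_iff G).1 hy _ (Finset.mem_map_of_mem _ (Finset.mem_image_of_mem f hx))
    · push Not at hS
      refine gleason hp (by omega) fun t ht => ?_
      obtain ⟨P, hP, hQP⟩ := exists_sylowIn_ge hp hQ (hle t)
      obtain ⟨x, x1, x2, x3⟩ := exists_normalizer_notMem hp hP.pgroup
        (lt_of_le_of_ne hQP fun e => hS t ht (e ▸ hP))
      have hP1 : IsPGroup p (P ⊓ N : Subgroup G) := hP.pgroup.to_inf_left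
      refine ⟨(P ⊓ N).subgroupOf N, hP1.comap_subtype, fun y => ⟨fun hy g hg => Subtype.ext ?_, fun hy => ?_⟩⟩
      · exact (mem_fixingSubgroup_iff G).1 (hP.le hg.1) _ (Finset.mem_map_of_mem _ hy)
      by_contra hy'
      have lt2 : Q < P ⊓ N := lt_of_le_of_ne (le_inf hQP Subgroup.le_normalizer)
        fun e => x2 (e ▸ ⟨x1, x3⟩)
      have h1 : P ⊓ N ∈ B := ⟨hP1, by
        rw [← ht, ← Finset.card_insert_of_notMem hy', ← Finset.card_map (Embedding.subtype _),
          ← Set.ncard_coe_finset]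
        refine Set.ncard_le_ncard fun z hz g hg => ?_
        obtain ⟨z, hz', rfl⟩ := Finset.mem_map.1 hz
        rcases Finset.mem_insert.1 hz' with rfl | hz'
        · exact congrArg Subtype.val (hy ⟨g, hg.2⟩ hg)
        · exact (mem_fixingSubgroup_iff G).1 (hP.le hg.1) _ (Finset.mem_map_of_mem _ hz')⟩
      have h2 := hmax h1 (Subgroup.card_le_of_le lt2.le)
      exact lt2.ne (Subgroup.eq_of_le_of_card_ge lt2.le h2)
  obtain ⟨Δ, h1, h2⟩ := ih _ lt F _ rfl (by omega) (ktrans_range hN)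
  refine ⟨Δ.map (Embedding.subtype _), by simpa using h1, ?_⟩
  intro a ha b hb c hc n1 n2 n3
  obtain ⟨a, ha', rfl⟩ := Finset.mem_map.1 ha
  obtain ⟨b, hb', rfl⟩ := Finset.mem_map.1 hb
  obtain ⟨c, hc', rfl⟩ := Finset.mem_map.1 hc
  obtain ⟨⟨_, g, rfl⟩, g1, g2, g3, g4⟩ := h2 a ha' b hb' c hc' (fun e => n1 (congrArg _ e))
    (fun e => n2 (congrArg _ e)) (fun e => n3 (congrArg _ e))
  refine ⟨g, congrArg Subtype.val g1, congrArg Subtype.val g2, congrArg Subtype.val g3,
    fun x hx m1 m2 m3 => ?_⟩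
  obtain ⟨x, hx', rfl⟩ := Finset.mem_map.1 hx
  exact congrArg Subtype.val (g4 x hx' (fun e => m1 (congrArg _ e)) (fun e => m2 (congrArg _ e))
    (fun e => m3 (congrArg _ e)))

end Cfsg.Agent.H3
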