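import Cfsg.Agent.H3.LW3
import Cfsg.Agent.H3.ConstOrders
import Cfsg.Agent.H3.HomogPred
import Cfsg.Agent.H3.Homog
import Cfsg.Agent.H3.PrimeDegree
import Cfsg.Agent.H2.Sharp

set_option autoImplicit false

/-! The theorems of Livingstone and Wagner. -/

namespace Cfsg.Agent.H3

open MulAction Function
open scoped Pointwise

variable {G α : Type*} [Group G] [MulAction G α] [DecidableEq α]

theorem card_homog [Finite α] {k : ℕ} (h : IsPretransitive G (Set.powersetCard α k)) {Δ : Finset α}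
    (hΔ : Δ.card = k) : (Nat.card α).choose k * Nat.card (stabilizer G Δ) = Nat.card G := by
  have e : stabilizer G Δ = stabilizer G (⟨Δ, hΔ⟩ : Set.powersetCard α k) := by
    ext g
    simp only [mem_stabilizer_iff]
    exact ⟨fun h => Subtype.ext h, fun h => congrArg Subtype.val h⟩
  rw [e, ← Set.powersetCard.card, ← index_stabilizer_of_transitive G (⟨Δ, hΔ⟩ : Set.powersetCard α k),
    Subgroup.index_mul_card]

omit [DecidableEq α] in
theorem card_ktrans [Finite α] {k : ℕ} (h : IsMultiplyPretransitive G α k) (hk : k ≤ Nat.card α)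
    {Δ : Finset α} (hΔ : Δ.card = k) :
    (Nat.card α).descFactorial k * Nat.card (fixingSubgroup G (Δ : Set α)) = Nat.card G := by
  have h1 := h.index_of_fixingSubgroup_mul (s := (Δ : Set α)) (by simpa using hΔ)
  rw [← Nat.factorial_mul_descFactorial hk, mul_comm] at h1
  rw [← Nat.eq_of_mul_eq_mul_left (Nat.factorial_pos _) h1, Subgroup.index_mul_card]

theorem card_fixing_of_homog {k : ℕ} (h : IsPretransitive G (Set.powersetCard α k)) {s t : Finset α}
    (hs : s.card = k) (ht : t.card = k) :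
    Nat.card (fixingSubgroup G (s : Set α)) = Nat.card (fixingSubgroup G (t : Set α)) := by
  obtain ⟨g, rfl⟩ := homog_iff.1 h s t hs ht
  exact card_fixing_eq_of_smul g fun x => Finset.inv_smul_mem_iff.symm

theorem ktrans_of_homog {k : ℕ} (h : IsPretransitive G (Set.powersetCard α k)) {Δ : Finset α}
    (hΔ : Δ.card = k) (hF : FullOn G Δ) : IsMultiplyPretransitive G α k := by
  refine ktrans_of_on fun s hs f hf => ?_
  obtain ⟨g, hg⟩ := homog_iff.1 h Δ s hΔ hs
  obtain ⟨u, hu⟩ := homog_iff.1 h (s.image f) Δ (by rw [Finset.card_image_of_injOn hf, hs]) hΔ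
  have m : ∀ x ∈ Δ, g • x ∈ s := fun x hx => hg ▸ Finset.smul_mem_smul_finset hx
  have m' : ∀ x ∈ s, u • f x ∈ Δ := fun x hx => hu ▸ Finset.smul_mem_smul_finset
    (Finset.mem_image_of_mem f hx)
  let φ : Δ → Δ := fun x => ⟨u • f (g • (x : α)), m' _ (m x x.2)⟩
  have hφ : Injective φ := fun x y e => Subtype.ext (smul_left_cancel g
    (hf (m x x.2) (m y y.2) (smul_left_cancel u (congrArg Subtype.val e))))
  obtain ⟨w, hw⟩ := hF.subtype (Equiv.ofBijective φ (Finite.injective_iff_bijective.1 hφ))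
  refine ⟨u⁻¹ * w * g⁻¹, fun x hx => ?_⟩
  have := hw ⟨g⁻¹ • x, by rw [← hg] at hx; exact Finset.inv_smul_mem_iff.2 hx⟩
  rw [mul_smul, mul_smul, inv_smul_eq_iff, this]
  simp [φ]

/-- the complement of a finite set, acted upon by its stabiliser -/
def complAct (G : Type*) {α : Type*} [Group G] [MulAction G α] [DecidableEq α] (Δ : Finset α) :
    SubMulAction (stabilizer G Δ) α where
  carrier := {x | x ∉ Δ}
  smul_mem' c x hx h := hx (by
    have : (c : G) • Δ = Δ := c.2
    exact (Finset.smul_mem_smul_finset_iff (c : G)).1 (this.symm ▸ h))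

theorem card_complAct [Finite α] (Δ : Finset α) : Nat.card (complAct G Δ) = Nat.card α - Δ.card := by
  have := Set.ncard_add_ncard_compl (Δ : Set α)
  rw [Set.ncard_coe_finset] at this
  change Nat.card ((Δ : Set α)ᶜ : Set α) = _
  rw [Nat.card_coe_set_eq]; omega

theorem mem_stab_of_fix {g : G} {Δ : Finset α} (h : ∀ x ∈ Δ, g • x ∈ Δ) : g ∈ stabilizer G Δ := by
  rw [mem_stabilizer_iff]
  refine Finset.eq_of_subset_of_card_le (fun x hx => ?_) (by simp)
  obtain ⟨y, hy, rfl⟩ := Finset.mem_smul_finset.1 hx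
  exact h y hy

theorem congr_of_compl [Finite G] [Finite α] {j p m : ℕ} (hG : IsMultiplyPretransitive G α (j + 1))
    (hp : p.Prime) (hn : Nat.card α = j + p)
    (hf : ∀ (g : G) (Δ : Finset α), Δ.card = j → (∀ x, x ∉ Δ → g • x = x) → g = 1)
    (hc : Nat.card G = (j + p).choose j * (p * m)) : ∃ d, d ∣ p - 1 ∧ m ≡ d [MOD p] := by
  have := Fintype.ofFinite α
  have := hp.two_le
  obtain ⟨Δ, -, c1⟩ := Finset.exists_subset_card_eq (s := (Finset.univ : Finset α)) (n := j)
    (by rw [Finset.card_univ, ← Nat.card_eq_fintype_card]; omega)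
  have h1 := card_homog (Set.powersetCard.isPretransitive_of_isMultiplyPretransitive G
    (isMultiplyPretransitive_of_le (G := G) (α := α) (m := j) (n := j + 1) (by omega) (by omega))) c1
  rw [hc, hn] at h1
  refine prime_degree_congr (G := stabilizer G Δ) (α := complAct G Δ) hp
    (by rw [card_complAct]; omega)
    (fun g hg => Subtype.ext (hf g Δ c1 fun x hx => congrArg Subtype.val (hg ⟨x, hx⟩)))
    (Nat.eq_of_mul_eq_mul_left (Nat.choose_pos (by omega)) h1) ⟨fun a b => ?_⟩
  obtain ⟨g, g1, g2⟩ := exists_fix_move hG (by omega) Δ (by omega) a.2 b.2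
  exact ⟨⟨g, mem_stab_of_fix fun x hx => by rwa [g1 x hx]⟩, Subtype.ext g2⟩

theorem no_sharp_seven [Finite G] [Finite α] (hG : IsMultiplyPretransitive G α 3) (hn : Nat.card α = 7)
    (hc : Nat.card G = 210) : False := by
  have hs : ∀ (g : G) (s : Finset α), s.card = 3 → (∀ x ∈ s, g • x = x) → g = 1 := fun g s hs hg => by
    have := card_ktrans hG (by omega) hs
    rw [hn, hc] at this
    have e : Nat.card (fixingSubgroup G (s : Set α)) = 1 := by
      rw [show Nat.descFactorial 7 3 = 210 by decide] at this; omega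
    exact (Subgroup.card_eq_one.1 e).le ((mem_fixingSubgroup_iff G).2 hg)
  have : Nontrivial α := Finite.one_lt_card_iff_nontrivial.1 (by omega)
  obtain ⟨a⟩ : Nonempty α := inferInstance
  have c := card_complAct (G := G) {a}
  rw [hn, Finset.card_singleton] at c
  have : Nontrivial (complAct G {a}) := Finite.one_lt_card_iff_nontrivial.1 (by omega)
  obtain ⟨p, j, hp, -, h, -⟩ := H2.sharp2_kernel (G := stabilizer G ({a} : Finset α))
    (Ω := complAct G {a}) (fun x y z w h1 h2 => by
      obtain ⟨g, g1, g2, g3⟩ := exists_fix_move_two hG (by omega) {a} (by simp) x.2 y.2 z.2 w.2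
        (fun e => h1 (Subtype.ext e)) (fun e => h2 (Subtype.ext e))
      exact ⟨⟨g, mem_stab_of_fix fun x hx => by rwa [g1 x hx]⟩, Subtype.ext g2, Subtype.ext g3⟩)
    (fun g x y h1 h2 h3 => Subtype.ext (hs g {a, x.1, y.1} (Finset.card_eq_three.2 ⟨_, _, _,
      fun e => x.2 (by simp [e]), fun e => y.2 (by simp [e]), fun e => h1 (Subtype.ext e), rfl⟩) (by
        have : (g : G) • ({a} : Finset α) = {a} := g.2
        simp only [Finset.smul_finset_singleton, Finset.singleton_inj] at this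
        simp only [Finset.mem_insert, Finset.mem_singleton, forall_eq_or_imp, forall_eq]
        exact ⟨this, congrArg Subtype.val h2, congrArg Subtype.val h3⟩)))
  rw [c] at h
  have h2 := (Nat.prime_dvd_prime_iff_eq Nat.prime_two hp).1
    (Nat.prime_two.dvd_of_dvd_pow (h ▸ (by norm_num : 2 ∣ 7 - 1)))
  have h3 := (Nat.prime_dvd_prime_iff_eq Nat.prime_three hp).1
    (Nat.prime_three.dvd_of_dvd_pow (h ▸ (by norm_num : 3 ∣ 7 - 1)))
  omega

/-- the numerical data in the exceptional case -/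
theorem lw_data [Finite G] [Finite α] {j : ℕ} (hf : ∀ g : G, (∀ x : α, g • x = x) → g = 1)
    (hn : j + 2 ≤ Nat.card α) (ht : IsMultiplyPretransitive G α j)
    (hnt : ¬ IsMultiplyPretransitive G α (j + 1))
    (h1 : IsPretransitive G (Set.powersetCard α (j + 1)))
    (h2 : IsPretransitive G (Set.powersetCard α (j + 2))) :
    (∀ (g : G) (s : Finset α), s.card = j + 1 → (∀ x ∈ s, g • x = x) → g = 1) ∧
    ∃ a h s s' : ℕ, 2 ≤ a ∧ a * h = Nat.card α - j ∧ Nat.card G = (Nat.card α).descFactorial j * h ∧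
      a * s = (j + 1).factorial ∧ a * (Nat.card α - (j + 1)) * s' = (j + 2).factorial ∧
      (∀ Δ : Finset α, Δ.card = j → Nat.card (fixingSubgroup G (Δ : Set α)) = h) ∧
      ∀ Δ : Finset α, Δ.card = j + 1 → Nat.card (stabilizer G Δ) = s := by
  have := Fintype.ofFinite α
  have ex : ∀ i ≤ j + 2, ∃ Δ : Finset α, Δ.card = i := fun i hi => by
    obtain ⟨Δ, -, c1⟩ := Finset.exists_subset_card_eq (s := (Finset.univ : Finset α)) (n := i)
      (by rw [Finset.card_univ, ← Nat.card_eq_fintype_card]; omega)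
    exact ⟨Δ, c1⟩
  obtain ⟨Γ, c0⟩ := ex j (by omega)
  obtain ⟨Γ₁, c1⟩ := ex (j + 1) (by omega)
  obtain ⟨Γ₂, c2⟩ := ex (j + 2) (by omega)
  have hH : ∀ (g : G) (s : Finset α), s.card = j + 1 → (∀ x ∈ s, g • x = x) → g = 1 := by
    intro g s hs hg
    by_contra g1
    refine hnt (ktrans_of_const_orders (k := j + 2) (by omega) hn (Nat.card (fixingSubgroup G (s : Set α)))
      _ hf ?_ (fun t ht => card_fixing_of_homog h1 ht hs) (fun t ht => card_fixing_of_homog h2 ht c2))
    exact Finite.one_lt_card_iff_nontrivial.2 ⟨⟨⟨g, (mem_fixingSubgroup_iff G).2 hg⟩, 1,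
      fun e => g1 (congrArg Subtype.val e)⟩⟩
  refine ⟨hH, ?_⟩
  set H := fixingSubgroup G (Γ : Set α) with hHd
  have hO : ∀ r, r ∉ Γ → (orbit H r).ncard = Nat.card H := fun r rΓ => by
    have := card_orbit_mul_card_inf H r
    have e : H ⊓ stabilizer G r = ⊥ := by
      rw [eq_bot_iff]
      rintro g ⟨a1, a2⟩
      refine hH g (insert r Γ) (by rw [Finset.card_insert_of_notMem rΓ, c0]) fun x hx => ?_
      rcases Finset.mem_insert.1 hx with rfl | hx
      exacts [a2, (mem_fixingSubgroup_iff G).1 a1 x hx]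
    rwa [e, Subgroup.card_bot, mul_one] at this
  have cc : ((Γ : Set α)ᶜ).ncard = Nat.card α - j := by
    have := Set.ncard_add_ncard_compl (Γ : Set α)
    rw [Set.ncard_coe_finset] at this
    omega
  have inv : ∀ g ∈ H, ∀ x ∈ (Γ : Set α)ᶜ, g • x ∈ (Γ : Set α)ᶜ := fun g hg x hx =>
    smul_notMem_of_maps (fun y hy => by rwa [(mem_fixingSubgroup_iff G).1 hg y hy]) hx
  obtain ⟨a, ha⟩ := ncard_orbit_dvd H (Set.toFinite _) inv (m := Nat.card H) fun x hx => (hO x hx).symm.dvd
  rw [cc] at ha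
  have a2 : 2 ≤ a := by
    by_contra hc
    obtain rfl : a = 1 := by
      rcases a with _ | _ | a <;> omega
    refine hnt (ktrans_succ ht Γ c0 fun x y hx hy => ?_)
    have : orbit H x = (Γ : Set α)ᶜ := Set.eq_of_subset_of_ncard_le
      (by rintro _ ⟨g, rfl⟩; exact inv g g.2 x hx) (by rw [hO x hx]; omega) (Set.toFinite _)
    obtain ⟨g, hg⟩ : y ∈ orbit H x := this ▸ hy
    exact ⟨g, (mem_fixingSubgroup_iff G).1 g.2, hg⟩
  have e0 := card_ktrans ht (by omega) c0
  have e1 := card_homog h1 c1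
  have e2 := card_homog h2 c2
  have d1 := Nat.descFactorial_eq_factorial_mul_choose (Nat.card α) (j + 1)
  have d2 := Nat.descFactorial_eq_factorial_mul_choose (Nat.card α) (j + 2)
  rw [Nat.descFactorial_succ] at d1
  rw [Nat.descFactorial_succ, Nat.descFactorial_succ] at d2
  have p0 : 0 < (Nat.card α).descFactorial j := Nat.descFactorial_pos.2 (by omega)
  have p1 : 0 < Nat.card H := Nat.card_pos
  rw [← hHd] at e0
  refine ⟨a, Nat.card H, Nat.card (stabilizer G Γ₁), Nat.card (stabilizer G Γ₂), a2, by rw [ha, mul_comm],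
    e0.symm, ?_, ?_, fun Δ hΔ => card_fixing_eq ht hΔ c0, fun Δ hΔ => ?_⟩
  · refine Nat.eq_of_mul_eq_mul_left (Nat.mul_pos p0 p1) ?_
    rw [ha] at d1
    calc _ = Nat.card H * a * (Nat.card α).descFactorial j * Nat.card (stabilizer G Γ₁) := by ring
      _ = _ := by rw [d1, mul_assoc, e1, e0, mul_comm]
  · refine Nat.eq_of_mul_eq_mul_left (Nat.mul_pos p0 p1) ?_
    rw [ha] at d2
    calc _ = (Nat.card α - (j + 1)) * (Nat.card H * a * (Nat.card α).descFactorial j) *
          Nat.card (stabilizer G Γ₂) := by ring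
      _ = _ := by rw [d2, mul_assoc, e2, e0, mul_comm]
  · exact Nat.eq_of_mul_eq_mul_left (Nat.choose_pos (by omega)) ((card_homog h1 hΔ).trans e1.symm)

end Cfsg.Agent.H3
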