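import Cfsg.Agent.H3.LW4

set_option autoImplicit false

/-! The theorems of Livingstone and Wagner, part 2. -/

namespace Cfsg.Agent.H3

open MulAction Function
open scoped Pointwise

variable {α : Type*} [Fintype α] [DecidableEq α] {G : Subgroup (Equiv.Perm α)}

theorem not_congr {p m : ℕ} (h : ∃ d, d ∣ p - 1 ∧ m ≡ d [MOD p]) (hp : 2 ≤ p := by norm_num)
    (hd : ∀ d ∈ (p - 1).divisors, ¬ m % p = d % p := by decide) : False := by
  obtain ⟨d, h1, h2⟩ := h
  exact hd d (Nat.mem_divisors.2 ⟨h1, by omega⟩) h2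

theorem lw_exc {j : ℕ} (hj : 1 ≤ j) (hn : j + 2 ≤ Nat.card α) (ht : IsMultiplyPretransitive G α j)
    (hnt : ¬ IsMultiplyPretransitive G α (j + 1))
    (h1 : IsPretransitive G (Set.powersetCard α (j + 1)))
    (h2 : IsPretransitive G (Set.powersetCard α (j + 2))) :
    (j + 2 = Nat.card α ∧ G = alternatingGroup α) ∨ (Nat.card α = 5 ∧ j = 2 ∧ Nat.card G = 20) ∨
      (Nat.card α = 6 ∧ j = 3 ∧ Nat.card G = 120) ∨
      (Nat.card α = 9 ∧ j = 3 ∧ (Nat.card G = 504 ∨ Nat.card G = 1512)) := by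
  have hf : ∀ g : G, (∀ x : α, g • x = x) → g = 1 := fun g h => Subtype.ext (Equiv.ext h)
  by_cases hnj : j + 2 = Nat.card α
  · refine Or.inl ⟨hnj, ?_⟩
    have : Nontrivial α := Finite.one_lt_card_iff_nontrivial.1 (by omega)
    have hle := _root_.IsMultiplyPretransitive.alternatingGroup_le α G (by rwa [← hnj, Nat.add_sub_cancel])
    have hd := Subgroup.index_dvd_of_le hle
    rw [alternatingGroup.index_eq_two, Nat.dvd_prime Nat.prime_two] at hd
    rcases hd with hd | hd
    · exfalso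
      rw [Subgroup.index_eq_one] at hd
      subst hd
      refine hnt (ktrans_iff.2 fun x y hx hy => ?_)
      obtain ⟨g, hg⟩ := ktrans_iff.1 (Equiv.Perm.isMultiplyPretransitive α (j + 1)) x y hx hy
      exact ⟨⟨g, trivial⟩, hg⟩
    · exact Equiv.Perm.eq_alternatingGroup_of_index_eq_two hd
  right
  obtain ⟨hH, a, h, s, s', a2, e1, e2, e3, e4, e5, e6⟩ := lw_data hf hn ht hnt h1 h2
  by_cases hj4 : 4 ≤ j
  · exfalso
    rcases lemmaR ht hH hj4 (by omega) with h | ⟨Δ, c, h⟩
    · omega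
    · exact hnt (ktrans_of_homog h1 c h.fullOn)
  have cg : ∀ i p m : ℕ, i + 1 ≤ j → p.Prime → Nat.card α = i + p → j + 1 ≤ p →
      Nat.card G = (i + p).choose i * (p * m) → ∃ d, d ∣ p - 1 ∧ m ≡ d [MOD p] := by
    intro i p m i1 hp i2 i3 i4
    refine congr_of_compl (isMultiplyPretransitive_of_le (G := G) (α := α) (n := j) i1 (by omega)) hp i2
      (fun g Δ c hg => ?_) i4
    obtain ⟨T, t1, t2⟩ := Finset.exists_subset_card_eq (s := Δᶜ) (n := j + 1)
      (by rw [Finset.card_compl, ← Nat.card_eq_fintype_card]; omega)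
    exact hH g T t2 fun x hx => hg x (by simpa using t1 hx)
  obtain ⟨m, hm⟩ : ∃ m, Nat.card α = j + 1 + m := ⟨_, (Nat.add_sub_cancel' (by omega)).symm⟩
  have m2 : 2 ≤ m := by omega
  rw [show Nat.card α - (j + 1) = m by omega] at e4
  rw [show Nat.card α - j = m + 1 by omega] at e1
  have ad : a ∣ (j + 1).factorial := Dvd.intro _ e3
  have md : a * m ∣ (j + 2).factorial := Dvd.intro _ e4
  have hd : a ∣ m + 1 := Dvd.intro _ e1
  have al := Nat.le_of_dvd (Nat.factorial_pos _) ad
  have ml := Nat.le_of_dvd (Nat.factorial_pos _) md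
  have inv : ∀ K : Subgroup G, Nat.card K = 2 → ∃ t ∈ K, t * t = 1 ∧ ∃ x : α, t • x ≠ x := fun K hK => by
    by_contra! hc
    have := odd_card_of_no_invol K fun t h1 h2 => hf t (hc t h1 h2)
    rw [hK] at this
    exact absurd this (by decide)
  obtain rfl | rfl | rfl : j = 1 ∨ j = 2 ∨ j = 3 := by omega
  · exfalso
    have : a = 2 ∧ m = 3 := by
      revert ad md hd
      norm_num [Nat.factorial] at al ml ⊢
      have : m ≤ 3 := by nlinarith
      interval_cases a; interval_cases m <;> decide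
    obtain ⟨rfl, rfl⟩ := this
    obtain ⟨x⟩ : Nonempty α := (Nat.card_pos_iff.1 (by omega)).1
    obtain ⟨t, -, t1, y, t2⟩ := inv _ ((e5 {x} (by simp)).trans (by omega))
    exact hnt (two_trans_of_two_homog_of_swap h1 t2 (by rw [← mul_smul, t1, one_smul]))
  · have : (a = 2 ∧ m = 3) ∨ (a = 3 ∧ m = 2) ∨ (a = 3 ∧ m = 8) := by
      revert ad md hd
      norm_num [Nat.factorial] at al ml ⊢
      have : m ≤ 12 := by nlinarith
      interval_cases a <;> interval_cases m <;> decide
    rcases this with ⟨rfl, rfl⟩ | ⟨rfl, rfl⟩ | ⟨rfl, rfl⟩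
    · exfalso
      have : Nontrivial α := Finite.one_lt_card_iff_nontrivial.1 (by omega)
      obtain ⟨x, y, hxy⟩ := exists_pair_ne α
      obtain ⟨t, t0, t1, z, t2⟩ := inv _ ((e5 {x, y} (Finset.card_pair hxy)).trans (by omega))
      have tx : t • x = x := (mem_fixingSubgroup_iff G).1 t0 x (by simp)
      have tt : t • t • z = z := by rw [← mul_smul, t1, one_smul]
      have c := e6 {x, z, t • z} (Finset.card_eq_three.2 ⟨_, _, _, fun e => t2 (by rw [← e, tx]),
        fun e => t2 (by rw [← tt, ← e, tx, tx]), t2.symm, rfl⟩)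
      have d := Subgroup.orderOf_dvd_natCard _ (mem_stab_of_fix (g := t) (Δ := {x, z, t • z})
        (by simp [tx, tt]))
      rw [orderOf_eq_prime (p := 2) (by rw [pow_two, t1]) (by rintro rfl; simp at t2), c] at d
      norm_num [Nat.factorial] at e3
      omega
    · obtain rfl : h = 1 := by omega
      exact Or.inl ⟨hm, rfl, by rw [e2, hm]; decide⟩
    · obtain rfl : h = 3 := by omega
      exact (not_congr (cg 0 11 30 (by norm_num) (by norm_num) hm (by norm_num) (by rw [e2, hm]; decide))).elim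
  · have : (a = 2 ∧ (m = 3 ∨ m = 5 ∨ m = 15)) ∨ (a = 3 ∧ (m = 2 ∨ m = 5 ∨ m = 8 ∨ m = 20)) ∨
        (a = 4 ∧ (m = 3 ∨ m = 15)) ∨ (a = 6 ∧ m = 5) ∨ (a = 8 ∧ m = 15) := by
      have k : ∀ a ∈ Finset.range 25, ∀ m ∈ Finset.range 61, 2 ≤ a → 2 ≤ m → a ∣ 24 → a * m ∣ 120 →
        a ∣ m + 1 → (a = 2 ∧ (m = 3 ∨ m = 5 ∨ m = 15)) ∨ (a = 3 ∧ (m = 2 ∨ m = 5 ∨ m = 8 ∨ m = 20)) ∨
        (a = 4 ∧ (m = 3 ∨ m = 15)) ∨ (a = 6 ∧ m = 5) ∨ (a = 8 ∧ m = 15) := by decide +kernel
      norm_num [Nat.factorial] at al ml ad md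
      exact k a (by simp; omega) m (by simp; nlinarith) a2 m2 ad md hd
    right
    rcases this with ⟨rfl, rfl | rfl | rfl⟩ | ⟨rfl, rfl | rfl | rfl | rfl⟩ | ⟨rfl, rfl | rfl⟩ |
      ⟨rfl, rfl⟩ | ⟨rfl, rfl⟩
    · obtain rfl : h = 2 := by omega
      exact (not_congr (cg 0 7 60 (by norm_num) (by norm_num) hm (by norm_num) (by rw [e2, hm]; decide))).elim
    · obtain rfl : h = 3 := by omega
      exact Or.inr ⟨hm, rfl, Or.inr (by rw [e2, hm]; decide)⟩
    · obtain rfl : h = 8 := by omega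
      exact (not_congr (cg 0 19 2448 (by norm_num) (by norm_num) hm (by norm_num) (by rw [e2, hm]; decide))).elim
    · obtain rfl : h = 1 := by omega
      exact Or.inl ⟨hm, rfl, by rw [e2, hm]; decide⟩
    · obtain rfl : h = 2 := by omega
      exact (not_congr (cg 2 7 4 (by norm_num) (by norm_num) hm (by norm_num) (by rw [e2, hm]; decide))).elim
    · obtain rfl : h = 3 := by omega
      exact (not_congr (cg 1 11 30 (by norm_num) (by norm_num) hm (by norm_num) (by rw [e2, hm]; decide))).elim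
    · obtain rfl : h = 7 := by omega
      exact (not_congr (cg 1 23 154 (by norm_num) (by norm_num) hm (by norm_num) (by rw [e2, hm]; decide))).elim
    · obtain rfl : h = 1 := by omega
      exact (no_sharp_seven ht hm (by rw [e2, hm]; decide)).elim
    · obtain rfl : h = 4 := by omega
      exact (not_congr (cg 0 19 1224 (by norm_num) (by norm_num) hm (by norm_num) (by rw [e2, hm]; decide))).elim
    · obtain rfl : h = 1 := by omega
      exact Or.inr ⟨hm, rfl, Or.inl (by rw [e2, hm]; decide)⟩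
    · obtain rfl : h = 2 := by omega
      exact (not_congr (cg 0 19 612 (by norm_num) (by norm_num) hm (by norm_num) (by rw [e2, hm]; decide))).elim

theorem lw_pred (j : ℕ) (hn : 2 * (j + 2) ≤ Nat.card α)
    (h2 : IsPretransitive G (Set.powersetCard α (j + 2))) : IsMultiplyPretransitive G α (j + 1) := by
  have hp : ∀ j, 2 * (j + 2) ≤ Nat.card α → IsPretransitive G (Set.powersetCard α (j + 2)) →
      IsPretransitive G (Set.powersetCard α (j + 1)) := fun j hn h =>
    homog_pred (k := j + 2) (by omega) h fun q _ hq => by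
      have := Nat.le_of_dvd (by omega) hq
      rw [← Nat.card_eq_fintype_card]; omega
  induction j with
  | zero =>
    refine ktrans_of_on fun s hs f hf => ?_
    obtain ⟨a, rfl⟩ := Finset.card_eq_one.1 hs
    obtain ⟨g, hg⟩ := homog_iff.1 (hp 0 hn h2) {a} {f a} (by simp) (by simp)
    exact ⟨g, by simpa using hg⟩
  | succ j ih =>
    by_contra hc
    have h1 := hp _ hn h2
    have := lw_exc (by omega) (by omega) (ih (by omega) h1) hc h1 h2
    omega

theorem lw_trans {k : ℕ} (hk : 5 ≤ k) (hn : 2 * k ≤ Nat.card α)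
    (h : IsPretransitive G (Set.powersetCard α k)) : IsMultiplyPretransitive G α k := by
  obtain ⟨j, rfl⟩ : ∃ j, k = j + 2 := ⟨k - 2, by omega⟩
  have ht := lw_pred j hn h
  by_contra hc
  obtain ⟨Δ₀, c0, h0⟩ := exists_cyc3On (k := j + 1) (by omega) _ α G rfl (by omega) ht
  have h3 : ∀ Δ : Finset α, Δ.card = j + 2 → Cyc3On G Δ := fun Δ c a ha b hb d hd n1 n2 n3 => by
    obtain ⟨g, rfl⟩ := homog_iff.1 h Δ₀ Δ c0 c
    obtain ⟨a, ha', rfl⟩ := Finset.mem_smul_finset.1 ha
    obtain ⟨b, hb', rfl⟩ := Finset.mem_smul_finset.1 hb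
    obtain ⟨d, hd', rfl⟩ := Finset.mem_smul_finset.1 hd
    obtain ⟨u, u1, u2, u3, u4⟩ := h0 a ha' b hb' d hd' (fun e => n1 (e ▸ rfl)) (fun e => n2 (e ▸ rfl))
      (fun e => n3 (e ▸ rfl))
    refine ⟨g * u * g⁻¹, by simp [mul_smul, u1], by simp [mul_smul, u2], by simp [mul_smul, u3],
      fun x hx m1 m2 m3 => ?_⟩
    obtain ⟨x, hx', rfl⟩ := Finset.mem_smul_finset.1 hx
    simp [mul_smul, u4 x hx' (fun e => m1 (e ▸ rfl)) (fun e => m2 (e ▸ rfl)) (fun e => m3 (e ▸ rfl))]
  have h4 : ∀ Δ : Finset α, Δ.card = j + 2 → ∀ p ∈ Δ, ∀ q ∈ Δ, p ≠ q → ¬ SwapAt G Δ p q := by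
    intro Δ c p hp q hq n1 base
    have step : ∀ p ∈ Δ, ∀ q ∈ Δ, ∀ u ∈ Δ, p ≠ q → u ≠ p → SwapAt G Δ p q → SwapAt G Δ p u := by
      rintro p hp q hq u hu n1 n2 ⟨g, g1, g2, g3⟩
      by_cases n3 : u = q
      · exact n3 ▸ ⟨g, g1, g2, g3⟩
      obtain ⟨w, w1, w2, w3, w4⟩ := h3 Δ c q hq u hu p hp (Ne.symm n3) n1.symm n2
      refine ⟨w * g, by rw [mul_smul, g1, w1], by rw [mul_smul, g3 u hu n2 n3, w2], fun x hx m1 m2 => ?_⟩
      by_cases m3 : x = q
      · rw [m3, mul_smul, g2, w3]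
      · rw [mul_smul, g3 x hx m1 m3, w4 x hx m3 m2 m1]
    refine hc (ktrans_of_homog h c (SwapOn.fullOn fun a ha b hb n => ?_))
    by_cases e : a = p
    · rw [e]; exact step p hp q hq b hb n1 (e ▸ n.symm) base
    · exact step a ha p hp b hb e n.symm (step p hp q hq a ha n1 e base).symm
  obtain ⟨T, -, c1⟩ := Finset.exists_subset_card_eq (s := (Finset.univ : Finset α)) (n := j - 3)
    (by rw [Finset.card_univ, ← Nat.card_eq_fintype_card]; omega)
  have h5 : IsMultiplyPretransitive (fixingSubgroup G (T : Set α))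
      (SubMulAction.ofFixingSubgroup G (T : Set α)) 4 :=
    SubMulAction.ofFixingSubgroup.isMultiplyPretransitive G (n := j + 1) _
      (by rw [Set.ncard_coe_finset]; omega)
  have hc : Nat.card (SubMulAction.ofFixingSubgroup G (T : Set α)) = Nat.card α - (j - 3) := by
    have := Set.ncard_add_ncard_compl (T : Set α)
    rw [Set.ncard_coe_finset, c1] at this
    change Nat.card ((T : Set α)ᶜ : Set α) = _
    rw [Nat.card_coe_set_eq]; omega
  have cU : ∀ a b c d e : SubMulAction.ofFixingSubgroup G (T : Set α), Injective ![a, b, c, d] →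
      a ≠ e → b ≠ e → c ≠ e → d ≠ e →
      (insert a.1 (insert b.1 (insert c.1 (insert d.1 (insert e.1 T))))).card = j + 2 := by
    intro a b c d e hi n1 n2 n3 n4
    have n := fun i j (hij : i ≠ j) => hi.ne hij
    have m1 : a ≠ b := n 0 1 (by decide)
    have m2 : a ≠ c := n 0 2 (by decide)
    have m3 : a ≠ d := n 0 3 (by decide)
    have m4 : b ≠ c := n 1 2 (by decide)
    have m5 : b ≠ d := n 1 3 (by decide)
    have m6 : c ≠ d := n 2 3 (by decide)
    have t : ∀ x : SubMulAction.ofFixingSubgroup G (T : Set α), x.1 ∉ T := fun x => x.2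
    rw [Finset.card_insert_of_notMem (by simp [Subtype.val_inj, *]),
      Finset.card_insert_of_notMem (by simp [Subtype.val_inj, *]),
      Finset.card_insert_of_notMem (by simp [Subtype.val_inj, *]),
      Finset.card_insert_of_notMem (by simp [Subtype.val_inj, *]), Finset.card_insert_of_notMem (t e)]
    omega
  have := card_le_six_of_even h5 (fun g hg => Subtype.ext (Subtype.ext (Equiv.ext fun x => by
      by_cases hx : x ∈ T
      · exact (mem_fixingSubgroup_iff G).1 g.2 x hx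
      · exact congrArg Subtype.val (hg ⟨x, hx⟩))))
    (fun g a b c d e n1 n2 n3 n4 g1 g2 g3 g4 g5 => by
      have m : ∀ x, g • x = x → a ≠ x ∧ b ≠ x := fun x hx =>
        ⟨fun e => n1 (by rw [← g1, e, hx]), fun e => n1 (by rw [← g2, e, hx])⟩
      refine h4 _ (cU a b c d e (inj4 n1 (m c g3).1 (m d g4).1 (m c g3).2 (m d g4).2 n2) (m e g5).1
        (m e g5).2 n3 n4) a (by simp) b (by simp) (fun e => n1 (Subtype.ext e))
        ⟨g, congrArg Subtype.val g1, congrArg Subtype.val g2, fun x hx m1 m2 => ?_⟩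
      simp only [Finset.mem_insert, m1, m2, false_or] at hx
      rcases hx with rfl | rfl | rfl | hx
      exacts [congrArg Subtype.val g3, congrArg Subtype.val g4, congrArg Subtype.val g5,
        (mem_fixingSubgroup_iff G).1 g.2 x hx])
    (fun g a b c d e hi g1 g2 g3 g4 g5 => by
      have n := fun i j (hij : i ≠ j) => hi.ne hij
      have m1 : a ≠ b := n 0 1 (by decide)
      have m2 : a ≠ c := n 0 2 (by decide)
      have m3 : a ≠ d := n 0 3 (by decide)
      have m4 : b ≠ c := n 1 2 (by decide)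
      have m5 : b ≠ d := n 1 3 (by decide)
      have m6 : c ≠ d := n 2 3 (by decide)
      have k1 : a ≠ e := fun h => m1 (by rw [← g1, h, g5])
      have k2 : b ≠ e := fun h => m4 (by rw [← g2, h, g5])
      have k3 : c ≠ e := fun h => m6 (by rw [← g3, h, g5])
      have k4 : d ≠ e := fun h => m3 (by rw [← g4, h, g5])
      have cc := cU a b c d e hi k1 k2 k3 k4
      have v := fun {x y : SubMulAction.ofFixingSubgroup G (T : Set α)} (h : x ≠ y) (e : x.1 = y.1) =>
        h (Subtype.ext e)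
      have t : ∀ x : SubMulAction.ofFixingSubgroup G (T : Set α), x.1 ∉ T := fun x => x.2
      obtain ⟨w, w1, w2, w3, w4⟩ := h3 _ cc d (by simp) c (by simp) a (by simp) (v m6.symm) (v m3.symm)
        (v m2.symm)
      have f1 : (g : G) • a.1 = b := congrArg Subtype.val g1
      have f2 : (g : G) • b.1 = c := congrArg Subtype.val g2
      have f3 : (g : G) • c.1 = d := congrArg Subtype.val g3
      have f4 : (g : G) • d.1 = a := congrArg Subtype.val g4
      have f5 : (g : G) • e.1 = e := congrArg Subtype.val g5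
      refine h4 _ cc a (by simp) b (by simp) (v m1) ⟨w * g, ?_, ?_, fun x hx n1 n2 => ?_⟩
      · rw [mul_smul, f1, w4 _ (by simp) (v m5) (v m4) (v m1.symm)]
      · rw [mul_smul, f2, w2]
      simp only [Finset.mem_insert, n1, n2, false_or] at hx
      rcases hx with rfl | rfl | rfl | hx
      · rw [mul_smul, f3, w1]
      · rw [mul_smul, f4, w3]
      · rw [mul_smul, f5, w4 _ (by simp) (v k4.symm) (v k3.symm) (v k1.symm)]
      · rw [mul_smul, (mem_fixingSubgroup_iff G).1 g.2 x hx, w4 _ (by simp [hx])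
          (fun e => t d (e ▸ hx)) (fun e => t c (e ▸ hx)) n1])
  omega

end Cfsg.Agent.H3
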