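import Cfsg.Agent.H3.PrimeDegree
import Cfsg.Agent.H3.JordanCycle
import Cfsg.Agent.H3.SmallSupport
import Cfsg.Agent.H1.PrimeDeg2
import Cfsg.Agent.S0724

set_option autoImplicit false

/-! Order data for transitive groups of prime degree; degree 7. -/

namespace Cfsg.Agent.H3

open MulAction Function

theorem card_ktrans' {G α : Type*} [Group G] [MulAction G α] [Finite α] {k : ℕ}
    (h : IsMultiplyPretransitive G α k) (hk : k ≤ Nat.card α) {Δ : Finset α} (hΔ : Δ.card = k) :
    (Nat.card α).descFactorial k * Nat.card (fixingSubgroup G (Δ : Set α)) = Nat.card G := by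
  have h1 := h.index_of_fixingSubgroup_mul (s := (Δ : Set α)) (by simpa using hΔ)
  rw [← Nat.factorial_mul_descFactorial hk, mul_comm] at h1
  rw [← Nat.eq_of_mul_eq_mul_left (Nat.factorial_pos _) h1, Subgroup.index_mul_card]

theorem descFactorial_dvd_of_ktrans {G α : Type*} [Group G] [MulAction G α] [Fintype α] {k : ℕ}
    (h : IsMultiplyPretransitive G α k) (hk : k ≤ Fintype.card α) :
    (Fintype.card α).descFactorial k ∣ Nat.card G := by
  obtain ⟨Δ, -, c1⟩ := Finset.exists_subset_card_eq (s := (Finset.univ : Finset α)) (n := k)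
    (by rw [Finset.card_univ]; omega)
  have := card_ktrans' h (by rwa [Nat.card_eq_fintype_card]) c1
  rw [Nat.card_eq_fintype_card] at this
  exact Dvd.intro _ this

section
variable {p : ℕ} [Fact p.Prime] {α : Type*} [Fintype α] {G : Type*} [Group G]
  [MulAction G α] [FaithfulSMul G α]

theorem normal_trans_prime (hα : Fintype.card α = p) [IsPretransitive G α] (N : Subgroup G)
    [N.Normal] (hN : N ≠ ⊥) : IsPretransitive N α := by
  have hprim : IsPreprimitive G α :=
    IsPreprimitive.of_prime_card (by rw [Nat.card_eq_fintype_card, hα]; exact Fact.out)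
  obtain ⟨⟨n, hn⟩, hn1⟩ := (Subgroup.ne_bot_iff_exists_ne_one).1 hN
  obtain ⟨a, ha⟩ := H1.exists_smul_ne (α := α) (g := n) (fun h => hn1 (Subtype.ext h))
  exact normal_trans hprim N hn ha

theorem prime_degree_data (hα : Fintype.card α = p) [ht : IsPretransitive G α] (P : Sylow p G) :
    ∃ d : ℕ, d ∣ p - 1 ∧ Nat.card G = Nat.card (Sylow p G) * p * d ∧
      Nat.card (Subgroup.normalizer ((P : Subgroup G) : Set G)) = p * d ∧
      (d = 1 → Nat.card G = p) := by
  have hp : p.Prime := Fact.out
  have := H1.finite_of_faithful G α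
  have hf : ∀ g : G, (∀ x : α, g • x = x) → g = 1 := fun g hg =>
    FaithfulSMul.eq_of_smul_eq_smul (α := α) fun x => by rw [hg, one_smul]
  obtain ⟨g, hg, hP⟩ := H1.sylow_eq_zpowers hα P
  have hα' : Nat.card α = p := by rw [Nat.card_eq_fintype_card, hα]
  have htr : IsPretransitive (Subgroup.zpowers g) α := by
    obtain ⟨a, ha⟩ := H1.exists_smul_ne (α := α) (g := g) (by
      rintro rfl
      rw [orderOf_one] at hg
      exact hp.one_lt.ne hg)
    rw [isPretransitive_iff_orbit_eq_univ a, Set.eq_univ_iff_ncard, orbit_zpowers_ncard hp hg ha,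
      hα']
  have : Nonempty α := Fintype.card_pos_iff.1 (hα ▸ hp.pos)
  obtain ⟨a⟩ := this
  have hPc : Nat.card (Subgroup.zpowers g) = p := by rw [Nat.card_zpowers, hg]
  have hcent : Subgroup.centralizer ((Subgroup.zpowers g : Subgroup G) : Set G) =
      Subgroup.zpowers g := by
    apply le_antisymm
    · intro c hc
      obtain ⟨⟨y, hy⟩, hya⟩ := htr.exists_smul_eq a (c • a)
      change y • a = c • a at hya
      have h1 : y⁻¹ * c ∈ Subgroup.centralizer ((Subgroup.zpowers g : Subgroup G) : Set G) :=
        Subgroup.mul_mem _ (Subgroup.inv_mem _ (Subgroup.le_centralizer _ hy)) hc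
      have h2 := hf _ (fix_all_of_commute htr (Subgroup.mem_centralizer_iff.1 h1) (a := a)
        (by rw [mul_smul, ← hya, inv_smul_smul]))
      rw [inv_mul_eq_one] at h2
      exact h2 ▸ hy
    · exact Subgroup.le_centralizer _
  have key := Subgroup.card_dvd_of_injective _
    (QuotientGroup.kerLift_injective (Subgroup.zpowers g).normalizerMonoidHom)
  rw [Subgroup.normalizerMonoidHom_ker, ← Subgroup.index, ← Subgroup.relIndex, hcent,
    IsCyclic.card_mulAut, hPc, Nat.totient_prime hp] at key
  have hN : Nat.card (Subgroup.normalizer ((P : Subgroup G) : Set G)) =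
      p * (Subgroup.zpowers g).relIndex
        (Subgroup.normalizer ((Subgroup.zpowers g : Subgroup G) : Set G)) := by
    rw [hP, ← hPc, Subgroup.relIndex, ← Subgroup.card_mul_index ((Subgroup.zpowers g).subgroupOf _),
      Nat.card_congr (Subgroup.subgroupOfEquivOfLe Subgroup.le_normalizer).toEquiv]
  refine ⟨_, key, ?_, hN, fun hd => ?_⟩
  · rw [mul_assoc, ← hN, Sylow.card_eq_index_normalizer P]
    exact (Subgroup.index_mul_card _).symm
  · rw [hd, mul_one] at hN
    have h1 : (P : Subgroup G) = Subgroup.normalizer ((P : Subgroup G) : Set G) :=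
      Subgroup.eq_of_le_of_card_ge Subgroup.le_normalizer (by rw [hN, hP, hPc])
    have h2 : Subgroup.normalizer ((P : Subgroup G) : Set G) ≤
        Subgroup.centralizer ((P : Subgroup G) : Set G) := by
      rw [← h1, hP, hcent]
    have h3 := (MonoidHom.ker_transferSylow_isComplement' P h2).card_mul_card
    rw [H1.sylow_card hα P] at h3
    by_cases hK : (MonoidHom.transferSylow P h2).ker = ⊥
    · rw [hK, Subgroup.card_bot, one_mul] at h3
      exact h3.symm
    · exfalso
      have := normal_trans_prime hα _ hK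
      have h4 := H1.prime_dvd_card (G := (MonoidHom.transferSylow P h2).ker) hα
      apply H1.not_sq_dvd_card (G := G) hα
      rw [← h3, pow_two]
      exact Nat.mul_dvd_mul_right h4 _

theorem solvable_of_card_sylow_one (hα : Fintype.card α = p) [IsPretransitive G α]
    (P : Sylow p G) (hP : (P : Subgroup G).Normal) : Group.IsSolvable G := by
  obtain ⟨g, hg, hP'⟩ := H1.sylow_eq_zpowers hα P
  obtain ⟨e, he⟩ := H1.exists_coord hα hg
  refine H1.solvable_of_affine e fun t => H1.affine_of_mem_normalizer hg he ?_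
  rw [← hP', Subgroup.normalizer_eq_top]
  trivial

/-- The order data of a non-solvable transitive group of prime degree. -/
theorem prime_degree_nonsolv (hα : Fintype.card α = p) [IsPretransitive G α]
    (hG : ¬ Group.IsSolvable G) : ∃ d n : ℕ, d ∣ p - 1 ∧ d ≠ 1 ∧ n % p = 1 ∧ n ≠ 1 ∧
      n = Nat.card (Sylow p G) ∧ Nat.card G = n * p * d ∧ p * (p - 1) ∣ Nat.card G ∧
      (Even d → IsMultiplyPretransitive G α 3) := by
  have hp : p.Prime := Fact.out
  have := H1.finite_of_faithful G α
  obtain ⟨P⟩ : Nonempty (Sylow p G) := inferInstance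
  obtain ⟨d, h1, h2, h3, h4⟩ := prime_degree_data hα P
  refine ⟨d, _, h1, fun hd => hG ?_, ?_, fun hn => hG ?_, rfl, h2, ?_, fun hd => ?_⟩
  · have := isCyclic_of_prime_card (h4 hd)
    let := IsCyclic.commGroup (α := G)
    infer_instance
  · have := card_sylow_modEq_one p G
    rw [Nat.ModEq, Nat.mod_eq_of_lt hp.one_lt] at this
    exact this
  · have : Subsingleton (Sylow p G) := (Nat.card_eq_one_iff_unique.1 hn).1
    exact solvable_of_card_sylow_one hα P (Sylow.normal_of_subsingleton P)
  · have h2t := (H1.solvable_or_two_transitive (G := G) hα).resolve_left hG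
    have := descFactorial_dvd_of_ktrans h2t (hα ▸ hp.two_le)
    rw [hα] at this
    simpa [Nat.descFactorial, mul_comm] using this
  · exact H1.three_transitive_of_even_normalizer hα hG P (h3 ▸ hd.mul_left p)

theorem normal_nonsolv (hα : Fintype.card α = p) [IsPretransitive G α]
    (hG : ¬ Group.IsSolvable G) (N : Subgroup G) [N.Normal] (hN : N ≠ ⊥) :
    Nat.card (Sylow p N) ≠ 1 := by
  intro hn
  have := H1.finite_of_faithful G α
  have := normal_trans_prime hα N hN
  have : Subsingleton (Sylow p N) := (Nat.card_eq_one_iff_unique.1 hn).1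
  obtain ⟨Q⟩ : Nonempty (Sylow p N) := inferInstance
  have hQ := Sylow.characteristic_of_subsingleton Q
  have hQn : ((Q : Subgroup N).map N.subtype).Normal := inferInstance
  obtain ⟨P, hP⟩ := (Q.2.map N.subtype).exists_le_sylow
  have : (Q : Subgroup N).map N.subtype = P := by
    apply Subgroup.eq_of_le_of_card_ge hP
    rw [H1.sylow_card hα P, Subgroup.card_map_of_injective N.subtype_injective, H1.sylow_card hα Q]
  exact hG (solvable_of_card_sylow_one hα P (this ▸ hQn))

end

theorem card_fixedBy_perm {α : Type*} [Fintype α] [DecidableEq α] (g : Equiv.Perm α) :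
    Nat.card (fixedBy α g) + g.support.card = Fintype.card α := by
  have : Nat.card (fixedBy α g) = g.supportᶜ.card := by
    rw [← Fintype.card_coe, ← Nat.card_eq_fintype_card]
    refine Nat.card_congr (Equiv.subtypeEquivRight fun x => ?_)
    simp [mem_fixedBy]
  rw [this, Finset.card_compl]
  have := Finset.card_le_univ g.support
  omega

theorem card_seven {α : Type*} [Fintype α] [DecidableEq α] (hα : Fintype.card α = 7)
    (G : Subgroup (Equiv.Perm α)) [IsPretransitive G α] (hG : ¬ Group.IsSolvable G)
    (hA : ¬ alternatingGroup α ≤ G) : Nat.card G = 168 := by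
  have : Fact (Nat.Prime 7) := ⟨by norm_num⟩
  have hprim : IsPreprimitive G α :=
    IsPreprimitive.of_prime_card (by rw [Nat.card_eq_fintype_card, hα]; norm_num)
  have hB := S0724.result G {0, 1, 2, 3} fun g hg h1 => by
    have h2 := card_fixedBy_perm g
    have h3 : ¬ g.support.card ≤ 3 := fun h => hA (alternating_le_of_support_le_three G hprim hg h1 h)
    simp only [Finset.mem_insert, Finset.mem_singleton]
    omega
  rw [hα] at hB
  norm_num at hB
  obtain ⟨d, n, h1, h2, h3, h4, -, h5, h6, -⟩ := prime_degree_nonsolv (p := 7) hα hG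
  have hsq : ¬ Squarefree (Nat.card G) := fun h => by
    have := IsZGroup.of_squarefree h
    exact hG inferInstance
  obtain ⟨m, hm⟩ := h6
  rw [hm] at hB h5 hsq ⊢
  have hm20 : m ∣ 20 := by
    apply Nat.dvd_of_mul_dvd_mul_left (by norm_num : 0 < 42)
    simpa using hB
  have hd : d ≤ 6 := Nat.le_of_dvd (by norm_num) h1
  have hm' : m ≤ 20 := Nat.le_of_dvd (by norm_num) hm20
  have h210 : m ≠ 5 := by
    rintro rfl
    exact hsq (by
      rw [Nat.squarefree_iff_nodup_primeFactorsList (by norm_num)]
      simp [Nat.primeFactorsList_ofNat])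
  interval_cases d <;> interval_cases m <;> omega

theorem simple_seven {α : Type*} [Fintype α] [DecidableEq α] (hα : Fintype.card α = 7)
    (G : Subgroup (Equiv.Perm α)) [IsPretransitive G α] (hG : ¬ Group.IsSolvable G)
    (hc : Nat.card G = 168) : IsSimpleGroup G := by
  have : Fact (Nat.Prime 7) := ⟨by norm_num⟩
  have : Nontrivial G := Finite.one_lt_card_iff_nontrivial.1 (by omega)
  refine ⟨fun N hN => ?_⟩
  by_cases h : N = ⊥
  · exact Or.inl h
  right
  have := normal_trans_prime (p := 7) hα N h
  have h1 := normal_nonsolv (p := 7) hα hG N h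
  obtain ⟨Q⟩ : Nonempty (Sylow 7 N) := inferInstance
  obtain ⟨d, h2, h3, -, h4⟩ := prime_degree_data (p := 7) hα Q
  have h5 := card_sylow_modEq_one 7 N
  have h6 := Subgroup.card_subgroup_dvd_card N
  rw [Nat.ModEq] at h5
  rw [← Subgroup.card_eq_iff_eq_top, hc]
  rw [hc, h3] at h6
  rw [h3] at h4 ⊢
  generalize Nat.card (Sylow 7 N) = n at *
  have h7 : n ∣ 24 := by
    have : n * d ∣ 24 := by
      apply Nat.dvd_of_mul_dvd_mul_left (by norm_num : 0 < 7)
      rwa [show 7 * (n * d) = n * 7 * d by ring]
    exact (Dvd.intro _ rfl).trans this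
  have hd : d ≤ 6 := Nat.le_of_dvd (by norm_num) h2
  have hn : n ≤ 24 := Nat.le_of_dvd (by norm_num) h7
  interval_cases d <;> interval_cases n <;> omega

end Cfsg.Agent.H3
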