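import Cfsg.Agent.H3.PD2

set_option autoImplicit false
set_option linter.unusedSectionVars false

/-! Supports of elements in primitive groups of degree 11. -/

namespace Cfsg.Agent.H3

open MulAction Function Equiv

section
variable {α : Type*} [Fintype α] [DecidableEq α]

theorem comm_support_three (g h : Perm α) (a : α) (hg : g a ≠ a) (hh : h a ≠ a)
    (H : ∀ x, g x ≠ x → h x ≠ x → x = a) :
    g * h * g⁻¹ * h⁻¹ ≠ 1 ∧ (g * h * g⁻¹ * h⁻¹).support.card ≤ 3 := by
  constructor
  · intro h1
    have h2 : g * h = h * g := by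
      rw [← mul_inv_eq_one, mul_inv_rev, ← mul_assoc, h1]
    have h3 : g (h a) = h a := by
      by_contra h4
      exact hh (H _ h4 fun h5 => hh (h.injective h5))
    have h4 := congrArg (fun f : Perm α => f a) h2
    simp only [Perm.mul_apply] at h4
    exact hg (h.injective (h4.symm.trans h3))
  · refine le_trans (Finset.card_le_card (t := {a, g a, h a}) fun x hx => ?_) Finset.card_le_three
    by_contra hcon
    simp only [Finset.mem_insert, Finset.mem_singleton, not_or] at hcon
    obtain ⟨h1, h2, h3⟩ := hcon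
    apply Perm.mem_support.1 hx
    simp only [Perm.mul_apply]
    by_cases hx' : h x = x
    · have e1 : h⁻¹ x = x := by rw [Perm.inv_eq_iff_eq, hx']
      rw [e1]
      have e2 : h (g⁻¹ x) = g⁻¹ x := by
        by_contra h4
        by_cases h5 : g (g⁻¹ x) = g⁻¹ x
        · have : g⁻¹ x = x := by rw [← h5]; simp
          rw [this] at h4
          exact h4 hx'
        · apply h2
          rw [← H _ h5 h4]
          simp
      rw [e2]
      simp
    · have e1 : g x = x := by
        by_contra h4
        exact h1 (H _ h4 hx')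
      have e2 : g (h⁻¹ x) = h⁻¹ x := by
        by_contra h4
        have h5 : h (h⁻¹ x) ≠ h⁻¹ x := by
          intro h6
          have : h⁻¹ x = x := by rw [← h6]; simp
          rw [this] at h6
          exact hx' h6
        apply h3
        rw [← H _ h4 h5]
        simp
      have e3 : g⁻¹ (h⁻¹ x) = h⁻¹ x := by rw [Perm.inv_eq_iff_eq, e2]
      rw [e3]
      simp [e1]

theorem exists_prime_pow (u : Perm α) (hu : u ≠ 1) :
    ∃ p k : ℕ, p.Prime ∧ orderOf (u ^ k) = p := by
  have h1 : orderOf u ≠ 1 := by rwa [ne_eq, orderOf_eq_one_iff]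
  exact ⟨_, _, Nat.minFac_prime h1, orderOf_pow_orderOf_div (orderOf_pos u).ne' (Nat.minFac_dvd _)⟩

theorem support_prime_order {h : Perm α} {p : ℕ} (hp : p.Prime) (ho : orderOf h = p) :
    ∃ k : ℕ, h.support.card = (k + 1) * p ∧ Perm.sign h = (-1) ^ ((k + 1) * p + (k + 1)) := by
  obtain ⟨k, hk⟩ := Perm.cycleType_prime_order (σ := h) (ho ▸ hp)
  refine ⟨k, ?_, ?_⟩
  · rw [← Perm.sum_cycleType, hk, Multiset.sum_replicate, ho, smul_eq_mul]
  · rw [Perm.sign_of_cycleType, hk, Multiset.sum_replicate, ho, smul_eq_mul, Multiset.card_replicate]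

theorem two_mul_le_support (G : Subgroup (Perm α)) (hG : IsPreprimitive G α)
    (hA : ¬ alternatingGroup α ≤ G) {h : Perm α} (hh : h ∈ G) {p : ℕ} (hp : p.Prime)
    (ho : orderOf h = p) (hpn : p + 3 ≤ Fintype.card α) : 2 * p ≤ h.support.card := by
  by_contra hcon
  have hc := Perm.isCycle_of_prime_order (σ := h) (ho ▸ hp) (by omega)
  exact hA (jordan_prime_cycle G hG hp hpn hc (by rw [← hc.orderOf, ho]) hh)

end

theorem exists_fix_avoid {G α : Type*} [Group G] [MulAction G α] [Finite G] [Fintype α]
    (h2 : IsMultiplyPretransitive G α 2) (a : α) (S : Finset α) (ha : a ∉ S)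
    (hS : S.card * S.card < Fintype.card α - 1) :
    ∃ h : G, h • a = a ∧ ∀ s ∈ S, h • s ∉ S := by
  classical
  have := Fintype.ofFinite G
  by_contra hcon
  push Not at hcon
  have hn : 2 ≤ Nat.card α := by rw [Nat.card_eq_fintype_card]; omega
  have h1 : IsMultiplyPretransitive G α 1 := isMultiplyPretransitive_of_le (n := 2) (by omega) hn
  have c1 := card_ktrans' h1 (by omega) (Δ := {a}) (by simp)
  have c2 : ∀ s ∈ S, (Nat.card α - 1) * Nat.card (fixingSubgroup G (({a, s} : Finset α) : Set α)) =
      Nat.card (fixingSubgroup G (({a} : Finset α) : Set α)) := by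
    intro s hs
    have := card_ktrans' h2 hn (Δ := {a, s}) (Finset.card_pair (fun h => ha (h ▸ hs)))
    rw [← c1] at this
    apply Nat.eq_of_mul_eq_mul_left (show 0 < Nat.card α by omega)
    simp only [Nat.descFactorial] at this
    simp only [Nat.sub_zero, mul_one] at this
    rw [← this]; ring
  set M := Nat.card (fixingSubgroup G (({a} : Finset α) : Set α)) with hM
  have hsub : (Finset.univ.filter fun g : G => g • a = a) ⊆
      (S ×ˢ S).biUnion fun q => Finset.univ.filter fun g : G => g • a = a ∧ g • q.1 = q.2 := by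
    intro g hg
    rw [Finset.mem_filter] at hg
    obtain ⟨s, hs, hs'⟩ := hcon g hg.2
    rw [Finset.mem_biUnion]
    exact ⟨(s, g • s), Finset.mem_product.2 ⟨hs, hs'⟩, by simp [hg.2]⟩
  have hc1 : (Finset.univ.filter fun g : G => g • a = a).card = M := by
    rw [hM, ← Fintype.card_coe, ← Nat.card_eq_fintype_card]
    refine Nat.card_congr (Equiv.subtypeEquivRight fun g => ?_)
    simp [mem_fixingSubgroup_iff]
  have hc2 : ∀ q ∈ S ×ˢ S, (Nat.card α - 1) *
      (Finset.univ.filter fun g : G => g • a = a ∧ g • q.1 = q.2).card ≤ M := by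
    intro q hq
    rw [← c2 q.1 (Finset.mem_product.1 hq).1]
    apply Nat.mul_le_mul_left
    rcases (Finset.univ.filter fun g : G => g • a = a ∧ g • q.1 = q.2).eq_empty_or_nonempty with
      h | ⟨g0, hg0⟩
    · rw [h]; simp
    · rw [Finset.mem_filter] at hg0
      rw [← Fintype.card_coe, ← Nat.card_eq_fintype_card]
      refine Nat.card_le_card_of_injective (fun g => ⟨g0⁻¹ * g.1, ?_⟩) fun g g' h => ?_
      · have hg := (Finset.mem_filter.1 g.2).2
        rw [mem_fixingSubgroup_iff]
        intro y hy
        simp only [Finset.coe_insert, Finset.coe_singleton, Set.mem_insert_iff,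
          Set.mem_singleton_iff] at hy
        rcases hy with rfl | rfl
        · rw [mul_smul, hg.1, inv_smul_eq_iff, hg0.2.1]
        · rw [mul_smul, hg.2, inv_smul_eq_iff, hg0.2.2]
      · exact Subtype.ext (mul_left_cancel (congrArg Subtype.val h))
  have h3 := (Finset.card_le_card hsub).trans Finset.card_biUnion_le
  rw [hc1] at h3
  have h4 := Nat.mul_le_mul_left (Nat.card α - 1) h3
  rw [Finset.mul_sum] at h4
  have h5 := h4.trans (Finset.sum_le_card_nsmul _ _ M hc2)
  rw [Finset.card_product, smul_eq_mul, Nat.card_eq_fintype_card] at h5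
  have h6 : 0 < M := Nat.card_pos
  have := Nat.le_of_mul_le_mul_right h5 h6
  omega

section
variable {α : Type*} [Fintype α] [DecidableEq α]

theorem six_le_support (hα : Fintype.card α = 11) (G : Subgroup (Perm α))
    (h2 : IsMultiplyPretransitive G α 2) (hG : IsPreprimitive G α)
    (hA : ¬ alternatingGroup α ≤ G) {u : Perm α} (hu : u ∈ G) (hu1 : u ≠ 1) :
    6 ≤ u.support.card := by
  obtain ⟨p, k, hp, ho⟩ := exists_prime_pow u hu1
  refine le_trans ?_ (Finset.card_le_card (Perm.support_pow_le u k))
  have hh := G.pow_mem hu k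
  generalize u ^ k = h at *
  by_contra hcon
  obtain ⟨j, hj, -⟩ := support_prime_order hp ho
  have hp5 : p ≤ 5 := by nlinarith
  have h3 := two_mul_le_support G hG hA hh hp ho (by omega)
  have h4 : 2 ≤ p := hp.two_le
  have h5 : h.support.card = 4 := by
    have : p = 2 := by omega
    subst this
    omega
  obtain ⟨a, ha⟩ : h.support.Nonempty := Finset.card_pos.1 (by omega)
  obtain ⟨x, hx1, hx2⟩ := exists_fix_avoid h2 a (h.support.erase a) (by simp)
    (by rw [Finset.card_erase_of_mem ha, h5, hα]; norm_num)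
  have hx1' : (x : Perm α) a = a := hx1
  have key := comm_support_three h (x * h * (x : Perm α)⁻¹) a (Perm.mem_support.1 ha)
    (by
      simp only [Perm.mul_apply]
      rw [show (x : Perm α)⁻¹ a = a by rw [Perm.inv_eq_iff_eq, hx1']]
      intro h6
      exact Perm.mem_support.1 ha ((x : Perm α).injective (h6.trans hx1'.symm)))
    (fun y hy1 hy2 => by
      by_contra hya
      have h6 : (x : Perm α)⁻¹ y ∈ h.support.erase a := by
        rw [Finset.mem_erase, Perm.mem_support]
        refine ⟨fun h7 => hya ?_, fun h7 => hy2 ?_⟩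
        · rw [Perm.inv_eq_iff_eq, hx1'] at h7
          exact h7
        · simp only [Perm.mul_apply]
          rw [h7]; simp
      apply hx2 _ h6
      change (x : Perm α) ((x : Perm α)⁻¹ y) ∈ _
      rw [show (x : Perm α) ((x : Perm α)⁻¹ y) = y by simp, Finset.mem_erase, Perm.mem_support]
      exact ⟨hya, hy1⟩)
  have hm : x * h * (x : Perm α)⁻¹ ∈ G := G.mul_mem (G.mul_mem x.2 hh) (G.inv_mem x.2)
  exact hA (alternating_le_of_support_le_three G hG
    (G.mul_mem (G.mul_mem (G.mul_mem hh hm) (G.inv_mem hh)) (G.inv_mem hm)) key.1 key.2)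

theorem ncard_moved (g : Perm α) : {x | g x ≠ x}.ncard = g.support.card := by
  rw [← Set.ncard_coe_finset]
  congr 1
  ext x
  simp

theorem ncard_fixed (g : Perm α) : {x | g x = x}.ncard + g.support.card = Fintype.card α := by
  rw [← card_fixedBy_perm g]
  rfl

theorem no_trans_fix (hα : Fintype.card α = 11) (G : Subgroup (Perm α))
    (hG : IsPreprimitive G α) (hA : ¬ alternatingGroup α ≤ G) (g : G)
    (hp : orderOf g = 2 ∨ orderOf g = 3) (hs : (g : Perm α).support.card = 6)
    (h : ∀ a b : α, g • a = a → g • b = b →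
      ∃ n ∈ Subgroup.normalizer ((Subgroup.zpowers g : Subgroup G) : Set G), n • a = b) : False := by
  have : Fact (Nat.Prime 5) := ⟨by norm_num⟩
  set N := Subgroup.normalizer ((Subgroup.zpowers g : Subgroup G) : Set G) with hN
  have hF : {x | (g : Perm α) x = x}.ncard = 5 := by
    have := ncard_fixed (g : Perm α)
    omega
  have hfix : ∀ n ∈ N, ∀ a : α, g • a = a → g • n • a = n • a := by
    intro n hn a ha
    have h1 : n⁻¹ * g * n⁻¹⁻¹ ∈ Subgroup.zpowers g :=
      (Subgroup.mem_normalizer_iff.1 (N.inv_mem hn) g).1 (Subgroup.mem_zpowers g)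
    have h2 : n⁻¹ * g * n⁻¹⁻¹ ∈ stabilizer G a := Subgroup.zpowers_le.2 ha h1
    rw [mem_stabilizer_iff, inv_inv, mul_smul, mul_smul, inv_smul_eq_iff] at h2
    exact h2
  obtain ⟨a, ha⟩ : {x | (g : Perm α) x = x}.Nonempty := Set.nonempty_of_ncard_ne_zero (by omega)
  have horb : orbit N a = {x | (g : Perm α) x = x} := by
    ext b
    constructor
    · rintro ⟨⟨n, hn⟩, rfl⟩
      exact hfix n hn a ha
    · intro hb
      obtain ⟨n, hn, hnb⟩ := h a b ha hb
      exact ⟨⟨n, hn⟩, hnb⟩
  have h5 := ncard_orbit_dvd_card N a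
  rw [horb, hF] at h5
  obtain ⟨⟨c, hcN⟩, hc⟩ := exists_prime_orderOf_dvd_card' (G := N) 5 h5
  rw [Subgroup.orderOf_mk] at hc
  have hC : IsPGroup 5 (Subgroup.zpowers c) :=
    IsPGroup.of_card (n := 1) (by rw [Nat.card_zpowers, hc, pow_one])
  have hCN : Subgroup.zpowers c ≤ N := Subgroup.zpowers_le.2 hcN
  obtain ⟨z, hz, hz'⟩ := pgroup_exists_fixed (by norm_num) hC (S := {x | (g : Perm α) x ≠ x})
    (Set.toFinite _) (fun u hu x hx h1 => hx (by
      have := hfix u⁻¹ (N.inv_mem (hCN hu)) _ h1
      rwa [inv_smul_smul] at this)) (by rw [ncard_moved, hs]; norm_num)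
  have hprime : (orderOf g).Prime := by rcases hp with h | h <;> rw [h] <;> norm_num
  have ho := orbit_zpowers_ncard hprime rfl (g := g) (a := z) hz
  obtain ⟨w, hw, hw'⟩ := pgroup_exists_fixed (by norm_num) hC
    (S := orbit (Subgroup.zpowers g) z \ {z}) (Set.toFinite _) (fun u hu x hx => by
      obtain ⟨⟨⟨k, hk⟩, rfl⟩, hx2⟩ := hx
      refine ⟨⟨⟨u * k * u⁻¹, (Subgroup.mem_normalizer_iff.1 (hCN hu) k).1 hk⟩, ?_⟩, fun h1 => hx2 ?_⟩
      · change (u * k * u⁻¹) • z = u • k • z
        rw [mul_smul, mul_smul, hz' u⁻¹ (Subgroup.inv_mem _ hu)]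
      · have h2 : u • k • z = u • z := by rw [hz' u hu]; exact h1
        exact smul_left_cancel u h2)
    (by
      rw [Set.ncard_sdiff_singleton_of_mem (mem_orbit_self _), ho]
      rcases hp with h | h <;> rw [h] <;> norm_num)
  have h6 := two_mul_le_support G hG hA c.2 (p := 5) (by norm_num)
    (by rw [Subgroup.orderOf_coe, hc]) (by omega)
  have h7 : (c : Perm α).support ⊆ Finset.univ \ {z, w} := by
    intro x hx
    simp only [Finset.mem_sdiff, Finset.mem_univ, Finset.mem_insert, Finset.mem_singleton, true_and]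
    rintro (rfl | rfl)
    · exact Perm.mem_support.1 hx (hz' c (Subgroup.mem_zpowers c))
    · exact Perm.mem_support.1 hx (hw' c (Subgroup.mem_zpowers c))
  have h8 := Finset.card_le_card h7
  rw [Finset.card_univ_sdiff, Finset.card_pair (fun h => hw.2 h.symm), hα] at h8
  omega

theorem no_three_three (hα : Fintype.card α = 11) (G : Subgroup (Perm α))
    (h2 : IsMultiplyPretransitive G α 2) (hG : IsPreprimitive G α)
    (hA : ¬ alternatingGroup α ≤ G) (g : G) (hg : orderOf g = 3) :
    (g : Perm α).support.card ≠ 6 := by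
  intro hs
  have : Fact (Nat.Prime 3) := ⟨by norm_num⟩
  refine no_trans_fix hα G hG hA g (Or.inr hg) hs fun a b ha hb => ?_
  by_cases hab : a = b
  · exact ⟨1, Subgroup.one_mem _, by rw [one_smul, hab]⟩
  have hn : Nat.card α = 11 := by rw [Nat.card_eq_fintype_card, hα]
  have hPc : Nat.card (Subgroup.zpowers g) = 3 := by rw [Nat.card_zpowers, hg]
  have hle : ∀ x y : α, g • x = x → g • y = y →
      Subgroup.zpowers g ≤ fixingSubgroup G (({x, y} : Finset α) : Set α) := by
    intro x y hx hy
    rw [Subgroup.zpowers_le, mem_fixingSubgroup_iff]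
    intro v hv
    simp only [Finset.coe_insert, Finset.coe_singleton, Set.mem_insert_iff,
      Set.mem_singleton_iff] at hv
    rcases hv with rfl | rfl <;> assumption
  have cab := card_ktrans' h2 (by omega) (Δ := {a, b}) (Finset.card_pair hab)
  by_cases h9 : 9 ∣ Nat.card (fixingSubgroup G (({a, b} : Finset α) : Set α))
  · have hF : {x | (g : Perm α) x = x}.ncard = 5 := by
      have := ncard_fixed (g : Perm α)
      omega
    have hF' : ({x | (g : Perm α) x = x} \ {a, b}).ncard = 3 := by
      rw [Set.ncard_sdiff (by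
        rintro v (rfl | rfl)
        · exact ha
        · exact hb), hF, Set.ncard_pair hab]
    obtain ⟨x, hx, y, hy, hxy⟩ := (Set.one_lt_ncard (Set.toFinite _)).1 (show 1 < _ by rw [hF']; norm_num)
    have cxy := card_ktrans' h2 (by omega) (Δ := {x, y}) (Finset.card_pair hxy)
    set K := fixingSubgroup G (({x, y} : Finset α) : Set α) with hK
    have h9' : 3 ^ (1 + 1) ∣ Nat.card K := by
      rw [← cab] at cxy
      rw [Nat.eq_of_mul_eq_mul_left (by rw [hn]; decide) cxy]
      exact h9
    have hle' := hle x y hx.1 hy.1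
    obtain ⟨Q, hQ, hQ'⟩ := Sylow.exists_subgroup_card_pow_succ h9'
      (H := (Subgroup.zpowers g).subgroupOf K) (by
        rw [Nat.card_congr (Subgroup.subgroupOfEquivOfLe hle').toEquiv, hPc, pow_one])
    have hcomm := IsPGroup.isMulCommutative_of_card_eq_prime_sq (p := 3) hQ
    set R := Q.map K.subtype with hR
    have hRc : Nat.card R = 9 := by
      rw [hR, Subgroup.card_map_of_injective K.subtype_injective, hQ]; norm_num
    have hRg : ∀ u ∈ R, u * g = g * u := by
      rintro _ ⟨u, hu, rfl⟩
      have h1 : (⟨g, hle' (Subgroup.mem_zpowers g)⟩ : K) ∈ Q :=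
        hQ' (Subgroup.mem_subgroupOf.2 (Subgroup.mem_zpowers g))
      have h3 := hcomm.is_comm.comm ⟨u, hu⟩ ⟨_, h1⟩
      exact congrArg (fun t : Q => ((t : K) : G)) h3
    have hRK : ∀ u ∈ R, u • x = x ∧ u • y = y := by
      rintro _ ⟨u, -, rfl⟩
      have := (mem_fixingSubgroup_iff G).1 u.2
      exact ⟨this x (by simp), this y (by simp)⟩
    have hdiv : ∀ v : α, (orbit R v).ncard = 1 ∨ (orbit R v).ncard = 3 ∨ (orbit R v).ncard = 9 := by
      intro v
      have h1 := ncard_orbit_dvd_card R v
      rw [hRc] at h1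
      have h3 := Nat.le_of_dvd (by norm_num) h1
      generalize (orbit R v).ncard = m at *
      interval_cases m <;> omega
    have hT : ({x | (g : Perm α) x = x} \ {x, y}).ncard = 3 := by
      rw [Set.ncard_sdiff (by
        rintro v (rfl | rfl)
        · exact hx.1
        · exact hy.1), hF, Set.ncard_pair hxy]
    have hax : a ≠ x := fun h => hx.2 (Or.inl h.symm)
    have hay : a ≠ y := fun h => hy.2 (Or.inl h.symm)
    have hsub : orbit R a ⊆ {x | (g : Perm α) x = x} \ {x, y} := by
      rintro _ ⟨⟨u, hu⟩, rfl⟩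
      refine ⟨?_, ?_⟩
      · change g • u • a = u • a
        rw [← mul_smul, ← hRg u hu, mul_smul, ha]
      · rintro (h | h)
        · exact hax (smul_left_cancel u (h.trans (hRK u hu).1.symm))
        · exact hay (smul_left_cancel u (h.trans (hRK u hu).2.symm))
    have hle3 := Set.ncard_le_ncard hsub (Set.toFinite _)
    rcases hdiv a with h1 | h1 | h1
    · exfalso
      have hRa : ∀ u ∈ R, u • a = a := by
        intro u hu
        obtain ⟨v, hv⟩ := Set.ncard_eq_one.1 h1
        have e1 : u • a ∈ orbit R a := ⟨⟨u, hu⟩, rfl⟩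
        have e2 : a ∈ orbit R a := mem_orbit_self _
        rw [hv] at e1 e2
        exact e1.trans e2.symm
      obtain ⟨z, hz⟩ : (g : Perm α).support.Nonempty := Finset.card_pos.1 (by omega)
      have hz' : g • z ≠ z := Perm.mem_support.1 hz
      have hsub' : orbit R z ⊆ {v | (g : Perm α) v ≠ v} := by
        rintro _ ⟨⟨u, hu⟩, rfl⟩ h
        apply hz'
        change g • u • z = u • z at h
        rw [← mul_smul, ← hRg u hu, mul_smul] at h
        exact smul_left_cancel u h
      have h3 := Set.ncard_le_ncard hsub' (Set.toFinite _)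
      rw [ncard_moved, hs] at h3
      have h4 := card_orbit_mul_card_inf R z
      have h5 : R ⊓ stabilizer G z ≠ ⊥ := by
        intro h
        rw [h, Subgroup.card_bot] at h4
        omega
      obtain ⟨⟨u, hu1, hu2⟩, hu⟩ := (Subgroup.ne_bot_iff_exists_ne_one).1 h5
      have h6 := six_le_support hα G h2 hG hA u.2 (fun h => hu (Subtype.ext (Subtype.ext h)))
      have h7 : ({x, y, a} : Set α) ∪ orbit (Subgroup.zpowers g) z ⊆ {v | (u : Perm α) v = v} := by
        rintro v ((rfl | rfl | rfl) | ⟨⟨k, hk⟩, rfl⟩)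
        · exact (hRK u hu1).1
        · exact (hRK u hu1).2
        · exact hRa u hu1
        · change u • k • z = k • z
          have h8 : u ∈ Subgroup.centralizer {g} := by
            rw [Subgroup.mem_centralizer_singleton_iff]; exact hRg u hu1
          have h9 : u * k = k * u := by
            obtain ⟨i, rfl⟩ := hk
            exact (Commute.zpow_right (hRg u hu1) i)
          rw [← mul_smul, h9, mul_smul, mem_stabilizer_iff.1 hu2]
      have h8 := Set.ncard_le_ncard h7 (Set.toFinite _)
      rw [Set.ncard_union_eq (by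
        rw [Set.disjoint_left]
        rintro v hv ⟨⟨k, hk⟩, rfl⟩
        have h9 : g • k • z = k • z := by
          rcases hv with h | h | h
          · have : k • z = x := h
            rw [this]; exact hx.1
          · have : k • z = y := h
            rw [this]; exact hy.1
          · have : k • z = a := h
            rw [this]; exact ha
        obtain ⟨i, rfl⟩ := hk
        rw [← mul_smul, (Commute.self_zpow g i).eq, mul_smul] at h9
        exact hz' (smul_left_cancel _ h9)) (Set.toFinite _) (Set.toFinite _),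
        orbit_zpowers_ncard (by norm_num) hg hz', Set.ncard_eq_three.2
          ⟨x, y, a, hxy, hax.symm, hay.symm, rfl⟩] at h8
      have := ncard_fixed (u : Perm α)
      omega
    · have := Set.eq_of_subset_of_ncard_le hsub (by omega) (Set.toFinite _)
      have hb' : b ∈ orbit R a := by
        rw [this]
        refine ⟨hb, ?_⟩
        rintro (h | h)
        · exact hx.2 (Or.inr h.symm)
        · exact hy.2 (Or.inr h.symm)
      obtain ⟨⟨u, hu⟩, hub⟩ := hb'
      refine ⟨u, mem_normalizer_of_conj_mem ?_, hub⟩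
      rintro _ ⟨i, rfl⟩
      refine ⟨i, ?_⟩
      simp only
      rw [(Commute.zpow_right (hRg u hu) i).eq, mul_inv_cancel_right]
    · omega
  · set K := fixingSubgroup G (({a, b} : Finset α) : Set α) with hK
    have hle' := hle a b ha hb
    have hS : SylowIn 3 (Subgroup.zpowers g) K := by
      refine ⟨hle', IsPGroup.of_card (n := 1) (by rw [hPc, pow_one]), fun h => h9 ?_⟩
      have h1 : Nat.card (Subgroup.zpowers g) * (Subgroup.zpowers g).relIndex K = Nat.card K := by
        rw [← Subgroup.card_mul_index ((Subgroup.zpowers g).subgroupOf K), Subgroup.relIndex,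
          Nat.card_congr (Subgroup.subgroupOfEquivOfLe hle').toEquiv]
      rw [← h1, hPc]
      exact Nat.mul_dvd_mul_left 3 h
    obtain ⟨x, hx⟩ := ktrans_iff.1 h2 ![a, b] ![b, a]
      (by intro i j; fin_cases i <;> fin_cases j <;> simp [hab, Ne.symm hab])
      (by intro i j; fin_cases i <;> fin_cases j <;> simp [hab, Ne.symm hab])
    have hxa : x • a = b := hx 0
    have hxb : x • b = a := hx 1
    obtain ⟨y, hy, hy'⟩ := hS.adjust (by norm_num) (x := x) fun u hu => by
      have h1 := (mem_fixingSubgroup_iff G).1 (hle' hu)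
      rw [mem_fixingSubgroup_iff]
      intro v hv
      simp only [Finset.coe_insert, Finset.coe_singleton, Set.mem_insert_iff,
        Set.mem_singleton_iff] at hv
      rcases hv with rfl | rfl
      · rw [mul_smul, mul_smul, ← hxb, inv_smul_smul, h1 b (by simp)]
      · rw [mul_smul, mul_smul, ← hxa, inv_smul_smul, h1 a (by simp)]
    refine ⟨y * x, mem_normalizer_of_conj_mem hy', ?_⟩
    rw [mul_smul, hxa]
    exact (mem_fixingSubgroup_iff G).1 hy b (by simp)

theorem eight_le_support (hα : Fintype.card α = 11) (G : Subgroup (Perm α))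
    (h2 : IsMultiplyPretransitive G α 2) (hG : IsPreprimitive G α)
    (hA : ¬ alternatingGroup α ≤ G) {u : Perm α} (hu : u ∈ G) (hu1 : u ≠ 1)
    (hue : Perm.sign u = 1) : 8 ≤ u.support.card := by
  obtain ⟨p, k, hp, ho⟩ := exists_prime_pow u hu1
  refine le_trans ?_ (Finset.card_le_card (Perm.support_pow_le u k))
  have hh := G.pow_mem hu k
  have he : Perm.sign (u ^ k) = 1 := by rw [map_pow, hue, one_pow]
  generalize u ^ k = h at *
  by_contra hcon
  obtain ⟨j, hj, hj'⟩ := support_prime_order hp ho
  have hp7 : p ≤ 7 := by nlinarith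
  have h3 := two_mul_le_support G hG hA hh hp ho (by omega)
  have h4 : 2 ≤ p := hp.two_le
  have h6 := six_le_support hα G h2 hG hA hh (by
    rintro rfl
    rw [orderOf_one] at ho
    omega)
  obtain rfl | rfl : p = 2 ∨ p = 3 := by omega
  · obtain rfl : j = 2 := by omega
    rw [he] at hj'
    exact absurd hj' (by decide)
  · exact no_three_three hα G h2 hG hA ⟨h, hh⟩ (by rw [Subgroup.orderOf_mk, ho])
      (show h.support.card = 6 by omega)

end

end Cfsg.Agent.H3
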