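import Cfsg.Agent.H3.PD3
import Cfsg.Agent.S0732

set_option autoImplicit false
set_option linter.unusedSectionVars false

/-! Non-solvable transitive groups of degree 11. -/

namespace Cfsg.Agent.H3

open MulAction Function Equiv

variable {α : Type*} [Fintype α] [DecidableEq α]

theorem psl_of_660 (hα : Fintype.card α = 11) (G : Subgroup (Perm α)) [IsPretransitive G α]
    (hc : Nat.card G = 660) (hn : Nat.card (Sylow 11 G) = 12) :
    Nonempty (G ≃* Matrix.ProjectiveSpecialLinearGroup (Fin 2) (ZMod 11)) := by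
  classical
  have : Fact (Nat.Prime 11) := ⟨by norm_num⟩
  have := Fintype.ofFinite (Sylow 11 G)
  have hinj : Injective (MulAction.toPermHom G (Sylow 11 G)) := by
    rw [← MonoidHom.ker_eq_bot_iff]
    by_contra hK
    have := normal_trans_prime (p := 11) hα _ hK
    have h1 := H1.prime_dvd_card (G := (MulAction.toPermHom G (Sylow 11 G)).ker) (p := 11) hα
    obtain ⟨⟨c, hcK⟩, hc⟩ := exists_prime_orderOf_dvd_card' 11 h1
    rw [Subgroup.orderOf_mk] at hc
    have hC : Nat.card (Subgroup.zpowers c) = 11 := by rw [Nat.card_zpowers, hc]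
    have h2 : ∀ Q : Sylow 11 G, Subgroup.zpowers c = Q := by
      intro Q
      refine Subgroup.eq_of_le_of_card_ge ?_ (by rw [H1.sylow_card hα Q, hC])
      rw [← (IsPGroup.of_card (n := 1) (by rw [hC, pow_one])).sylow_mem_fixedPoints_iff]
      rintro ⟨u, hu⟩
      have h3 : u ∈ (MulAction.toPermHom G (Sylow 11 G)).ker := Subgroup.zpowers_le.2 hcK hu
      exact congrArg (fun f : Perm (Sylow 11 G) => f Q) h3
    have : Subsingleton (Sylow 11 G) := ⟨fun P Q => Sylow.ext ((h2 P).symm.trans (h2 Q))⟩
    have := Nat.card_of_subsingleton (Classical.arbitrary (Sylow 11 G))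
    omega
  have e := MonoidHom.ofInjective hinj
  have : IsPretransitive (MulAction.toPermHom G (Sylow 11 G)).range (Sylow 11 G) := ⟨fun P Q => by
    obtain ⟨g, hg⟩ := exists_smul_eq G P Q
    exact ⟨⟨_, g, rfl⟩, hg⟩⟩
  rcases S0732.result (p := 11) (d := 5) (by norm_num) (by rw [← Nat.card_eq_fintype_card, hn])
    (MulAction.toPermHom G (Sylow 11 G)).range (by rw [← Nat.card_congr e.toEquiv, hc])
    (by norm_num) with ⟨h, -⟩ | ⟨-, ⟨f⟩⟩ | ⟨q, -, h, -⟩
  · omega
  · exact ⟨e.trans f⟩
  · exfalso
    have h1 : (3 : ℕ) ∣ 2 ^ q := h ▸ by norm_num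
    have := Nat.prime_three.dvd_of_dvd_pow h1
    omega

theorem sharp_four_of_card (hα : Fintype.card α = 11) (G : Subgroup (Perm α))
    (hc : Nat.card G = 7920) (h8 : ∀ u ∈ G, u ≠ 1 → 8 ≤ u.support.card) :
    IsMultiplyPretransitive G α 4 ∧ ∀ x : Fin 4 ↪ α, stabilizer G x = ⊥ := by
  have hs : ∀ x : Fin 4 ↪ α, stabilizer G x = ⊥ := by
    intro x
    rw [eq_bot_iff]
    intro u hu
    by_contra h1
    have h2 := h8 u u.2 (fun h => h1 (Subtype.ext h))
    have h3 : (u : Perm α).support ⊆ Finset.univ \ Finset.univ.map x := by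
      intro v hv
      simp only [Finset.mem_sdiff, Finset.mem_univ, Finset.mem_map, true_and]
      rintro ⟨i, rfl⟩
      exact Perm.mem_support.1 hv (congrArg (fun f : Fin 4 ↪ α => f i) hu)
    have h4 := Finset.card_le_card h3
    rw [Finset.card_univ_sdiff, Finset.card_map, hα] at h4
    simp at h4
    omega
  refine ⟨?_, hs⟩
  have hE : Nat.card (Fin 4 ↪ α) = 7920 := by
    rw [Nat.card_eq_fintype_card, Fintype.card_embedding_eq, hα]; rfl
  obtain ⟨x⟩ : Nonempty (Fin 4 ↪ α) := (Nat.card_pos_iff.1 (by omega)).1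
  refine (isPretransitive_iff_orbit_eq_univ (G := G) x).2 ?_
  rw [Set.eq_univ_iff_ncard, hE, ← index_stabilizer, hs,
    Subgroup.index_bot, hc]

theorem eleven_even (hα : Fintype.card α = 11) (G : Subgroup (Perm α)) [IsPretransitive G α]
    (hG : ¬ Group.IsSolvable G) (hA : ¬ alternatingGroup α ≤ G) (he : G ≤ alternatingGroup α) :
    (Nat.card G = 7920 ∧ IsMultiplyPretransitive G α 4 ∧ ∀ x : Fin 4 ↪ α, stabilizer G x = ⊥) ∨
      (Nat.card G = 660 ∧
        Nonempty (G ≃* Matrix.ProjectiveSpecialLinearGroup (Fin 2) (ZMod 11))) := by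
  have : Fact (Nat.Prime 11) := ⟨by norm_num⟩
  have hn : Nat.card α = 11 := by rw [Nat.card_eq_fintype_card, hα]
  have hprim : IsPreprimitive G α := IsPreprimitive.of_prime_card (by rw [hn]; norm_num)
  have h2 := (H1.solvable_or_two_transitive (G := G) (p := 11) hα).resolve_left hG
  have h8 : ∀ u ∈ G, u ≠ 1 → 8 ≤ u.support.card := fun u hu hu1 =>
    eight_le_support hα G h2 hprim hA hu hu1 (he hu)
  have hB := S0724.result G {0, 1, 2, 3} fun g hg h1 => by
    have h2 := card_fixedBy_perm g
    have h3 := h8 g hg h1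
    simp only [Finset.mem_insert, Finset.mem_singleton]
    omega
  rw [hα] at hB
  norm_num at hB
  obtain ⟨d, n, h1, h3, h4, h5, h6, h7, h9, h10⟩ := prime_degree_nonsolv (p := 11) hα hG
  have h990 : Even d → 990 ∣ Nat.card G ∧ Nat.card G ≠ 990 := fun hd => by
    have h3t := h10 hd
    refine ⟨by simpa [hα] using descFactorial_dvd_of_ktrans h3t (by omega), fun h => ?_⟩
    have : Fact (Nat.Prime 2) := ⟨by norm_num⟩
    obtain ⟨t, ht⟩ := exists_prime_orderOf_dvd_card' (G := G) 2 (by rw [h]; norm_num)
    obtain ⟨j, hj, hj'⟩ := support_prime_order (h := (t : Perm α)) (p := 2) (by norm_num)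
      (by rw [Subgroup.orderOf_coe, ht])
    have hs : Perm.sign (t : Perm α) = 1 := he t.2
    have hle := (t : Perm α).support.card_le_univ
    have hj4 : j ≠ 4 := by
      rintro rfl
      rw [hs] at hj'
      exact absurd hj' (by decide)
    obtain ⟨Δ, hΔ, c1⟩ := Finset.exists_subset_card_eq (s := (t : Perm α).supportᶜ) (n := 3)
      (by rw [Finset.card_compl]; omega)
    have c2 := card_ktrans' h3t (by omega) c1
    rw [hn, h, show Nat.descFactorial 11 3 = 990 by decide] at c2
    have c3 : fixingSubgroup G (Δ : Set α) = ⊥ := Subgroup.card_eq_one.1 (by omega)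
    have : t ∈ fixingSubgroup G (Δ : Set α) := by
      rw [mem_fixingSubgroup_iff]
      intro y hy
      have := hΔ hy
      rw [Finset.mem_compl, Perm.notMem_support] at this
      exact this
    rw [c3, Subgroup.mem_bot] at this
    rw [this, orderOf_one] at ht
    omega
  obtain ⟨m, hm⟩ := h9
  have hm72 : m ∣ 72 := by
    apply Nat.dvd_of_mul_dvd_mul_left (by norm_num : 0 < 110)
    rw [hm] at hB
    simpa using hB
  have hd : d ≤ 10 := Nat.le_of_dvd (by norm_num) h1
  have key : (m = 72 ∨ (m = 6 ∧ n = 12)) := by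
    rw [hm] at h7 h990
    have hm' : m ≤ 72 := Nat.le_of_dvd (by norm_num) hm72
    clear hB hm h6 h10
    obtain rfl | rfl | rfl : d = 2 ∨ d = 5 ∨ d = 10 := by interval_cases d <;> omega
    · have := h990 (by decide)
      interval_cases m <;> omega
    · interval_cases m <;> omega
    · have := h990 (by decide)
      interval_cases m <;> omega
  rcases key with rfl | ⟨rfl, rfl⟩
  · exact Or.inl ⟨hm, sharp_four_of_card hα G hm h8⟩
  · exact Or.inr ⟨hm, psl_of_660 hα G hm h6.symm⟩

theorem eleven_le_alt (hα : Fintype.card α = 11) (G : Subgroup (Perm α)) [IsPretransitive G α]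
    (hG : ¬ Group.IsSolvable G) (hA : ¬ alternatingGroup α ≤ G) : G ≤ alternatingGroup α := by
  by_contra he
  have : Fact (Nat.Prime 11) := ⟨by norm_num⟩
  have hn : Nat.card α = 11 := by rw [Nat.card_eq_fintype_card, hα]
  have hprim : IsPreprimitive G α := IsPreprimitive.of_prime_card (by rw [hn]; norm_num)
  have h2 := (H1.solvable_or_two_transitive (G := G) (p := 11) hα).resolve_left hG
  let f : G →* ℤˣ := Perm.sign.comp G.subtype
  have hf : f.ker.index = 2 := by
    rw [Subgroup.index_ker]
    have : f.range = ⊤ := by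
      obtain ⟨g, hg, hg'⟩ := SetLike.not_le_iff_exists.1 he
      rw [eq_top_iff]
      intro u _
      rcases Int.units_eq_one_or u with rfl | rfl
      · exact Subgroup.one_mem _
      · exact ⟨⟨g, hg⟩, (Int.units_eq_one_or _).resolve_left hg'⟩
    rw [this]
    simp
  have hsol : ¬ Group.IsSolvable f.ker := fun h =>
    hG (Group.isSolvable_of_ker_le_range f.ker.subtype f (by rw [Subgroup.range_subtype]))
  have hne : f.ker ≠ ⊥ := fun h => hsol (by rw [h]; infer_instance)
  have htr := normal_trans_prime (p := 11) hα _ hne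
  let G0 := f.ker.map G.subtype
  have e : f.ker ≃* G0 := f.ker.equivMapOfInjective G.subtype G.subtype_injective
  have hle : G0 ≤ G := Subgroup.map_subtype_le _
  have : IsPretransitive G0 α := ⟨fun a b => by
    obtain ⟨u, hu⟩ := exists_smul_eq f.ker a b
    exact ⟨⟨_, u, u.2, rfl⟩, hu⟩⟩
  have hc : Nat.card G = 2 * Nat.card G0 := by
    rw [← Subgroup.index_mul_card f.ker, hf, Nat.card_congr e.toEquiv]
  rcases eleven_even hα G0 (fun h => hsol (Group.isSolvable_of_isSolvable_injective (f := e.toMonoidHom)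
    e.injective)) (fun h => hA (h.trans hle)) (by rintro _ ⟨u, hu, rfl⟩; exact hu) with
    ⟨h1, h4, h5⟩ | ⟨h1, -⟩
  · have h4' : IsMultiplyPretransitive G α 4 := by
      rw [ktrans_iff] at h4 ⊢
      intro x y hx hy
      obtain ⟨g, hg⟩ := h4 x y hx hy
      exact ⟨⟨g, hle g.2⟩, hg⟩
    have hK : ∀ Δ : Finset α, Δ.card = 4 → Nat.card (fixingSubgroup G (Δ : Set α)) = 2 := by
      intro Δ c1
      have c2 := card_ktrans' h4' (by omega) c1
      rw [hn, hc, h1, show Nat.descFactorial 11 4 = 7920 by decide] at c2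
      omega
    obtain ⟨Δ, -, c1⟩ := Finset.exists_subset_card_eq (s := (Finset.univ : Finset α)) (n := 4)
      (by rw [Finset.card_univ]; omega)
    have : Fact (Nat.Prime 2) := ⟨by norm_num⟩
    obtain ⟨⟨t, htK⟩, ht⟩ := exists_prime_orderOf_dvd_card' 2 (hK Δ c1).symm.dvd
    rw [Subgroup.orderOf_mk] at ht
    have ht1 : t ≠ 1 := by
      rintro rfl
      rw [orderOf_one] at ht
      omega
    obtain ⟨j, hj, -⟩ := support_prime_order (h := (t : Perm α)) (p := 2) (by norm_num)
      (by rw [Subgroup.orderOf_coe, ht])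
    have h6 := six_le_support hα G h2 hprim hA t.2 (fun h => ht1 (Subtype.ext h))
    have h7 : (t : Perm α).support ⊆ Finset.univ \ Δ := by
      intro v hv
      simp only [Finset.mem_sdiff, Finset.mem_univ, true_and]
      exact fun h => Perm.mem_support.1 hv ((mem_fixingSubgroup_iff G).1 htK v h)
    have h8 := Finset.card_le_card h7
    rw [Finset.card_univ_sdiff, c1, hα] at h8
    have hs : (t : Perm α).support.card = 6 := by omega
    refine no_trans_fix hα G hprim hA t (Or.inl ht) hs fun a b ha hb => ?_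
    have hFa : a ∈ (t : Perm α).supportᶜ := by
      rw [Finset.mem_compl, Perm.notMem_support]; exact ha
    have hFb : b ∈ (t : Perm α).supportᶜ := by
      rw [Finset.mem_compl, Perm.notMem_support]; exact hb
    have hF : (t : Perm α).supportᶜ.card = 5 := by rw [Finset.card_compl]; omega
    obtain ⟨Γ, g1, g2, g3⟩ := Finset.exists_subsuperset_card_eq (n := 4) (s := {a, b})
      (t := (t : Perm α).supportᶜ) (by
        intro v hv
        simp only [Finset.mem_insert, Finset.mem_singleton] at hv
        rcases hv with rfl | rfl <;> assumption) (Finset.card_le_two.trans (by norm_num)) (by omega)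
    obtain ⟨x, hx⟩ := exists_smul_eq_on h4' (by omega) Γ g3.le (Equiv.swap a b)
      (Equiv.swap a b).injective.injOn
    have htΓ : ∀ v ∈ Γ, t • v = v := fun v hv => by
      have := g2 hv
      rw [Finset.mem_compl, Perm.notMem_support] at this
      exact this
    have hz : Subgroup.zpowers t = fixingSubgroup G (Γ : Set α) := by
      apply Subgroup.eq_of_le_of_card_ge
      · rw [Subgroup.zpowers_le, mem_fixingSubgroup_iff]
        exact htΓ
      · rw [hK Γ g3, Nat.card_zpowers, ht]
    refine ⟨x, mem_normalizer_of_conj_mem fun u hu => ?_, by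
      rw [hx a (g1 (by simp)), Equiv.swap_apply_left]⟩
    rw [hz, mem_fixingSubgroup_iff] at hu ⊢
    intro v hv
    have hv' : Equiv.swap a b v ∈ Γ := by
      rw [Equiv.swap_apply_def]
      split_ifs
      · exact g1 (by simp)
      · exact g1 (by simp)
      · exact hv
    have := hx _ hv'
    rw [Equiv.swap_apply_self] at this
    rw [mul_smul, mul_smul, ← this, inv_smul_smul, hu _ hv']
  · obtain ⟨d, n, k1, k3, k4, -, -, k7, -, k10⟩ := prime_degree_nonsolv (p := 11) hα hG
    have h990 : Even d → 990 ∣ Nat.card G := fun hd => by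
      simpa [hα] using descFactorial_dvd_of_ktrans (k10 hd) (by omega)
    rw [hc, h1] at k7 h990
    have hd : d ≤ 10 := Nat.le_of_dvd (by norm_num) k1
    obtain rfl | rfl | rfl : d = 2 ∨ d = 5 ∨ d = 10 := by interval_cases d <;> omega
    · omega
    · omega
    · have := h990 (by decide)
      omega

end Cfsg.Agent.H3
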