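import Cfsg.Agent.Orth.Geom

/-! Simply laced root sets in dimension five: the case `D_5`. -/

set_option autoImplicit false
set_option linter.unusedSimpArgs false
set_option linter.unusedSectionVars false
set_option linter.unusedVariables false

namespace Cfsg.Agent.H3.S4

open Module Cfsg.Agent.Orth

variable {k W : Type*} [Field k] [AddCommGroup W] [Module k W] [FiniteDimensional k W]
  {Q : QuadraticForm k W} {R : W → Prop}

/-- an irreducible simply laced root set whose reflection group contains `-1` -/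
structure RS (Q : QuadraticForm k W) (R : W → Prop) : Prop where
  two : (2 : k) ≠ 0
  nd : Nd Q
  dim : finrank k W = 5
  bb : ∀ u, R u → B Q u u = 2
  fin : {u | R u}.Finite
  neg : ∀ u, R u → R (-u)
  refl : ∀ u v, R u → R v → R (B Q u v • u - v)
  f1 : ∀ u v, R u → R v → v ≠ u → v ≠ -u → B Q u v = 0 ∨ B Q u v = 1 ∨ B Q u v = -1
  tri : ∀ a b c, R a → R b → R c → B Q a b = -1 → B Q a c = -1 → B Q b c = -1 → a ≠ b → a ≠ c →
    b ≠ c → a + b + c = 0
  a2 : (3 : k) = 0 → ∀ a b c d, R a → R b → R c → R d → B Q a b = -1 → a ≠ b → B Q c d = -1 →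
    c ≠ d → B Q a c = 0 → B Q a d = 0 → B Q b c = 0 → B Q b d = 0 → False
  irr : ∀ u, R u → ∀ U : Submodule k W, (∀ u, R u → ∀ w ∈ U, B Q u w • u - w ∈ U) → U = ⊥ ∨ U = ⊤
  inv : ∀ I : (W → W) → Prop, I id → (∀ f g, I f → I g → I (f ∘ g)) →
    (∀ u, R u → I fun x => x - B Q u x • u) → ∀ u v, R u → R v → v ≠ u → v ≠ -u → I Neg.neg

namespace RS

variable (h : RS Q R)
include h

theorem sub {u v : W} (hu : R u) (hv : R v) (e : B Q u v = 1) : R (u - v) := by
  simpa [e] using h.refl u v hu hv

theorem add {u v : W} (hu : R u) (hv : R v) (e : B Q u v = -1) : R (u + v) := by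
  simpa using h.sub hu (h.neg v hv) (by simp [e])

theorem ne_zero {u : W} (hu : R u) : u ≠ 0 := by
  rintro rfl
  exact h.two (by simpa using (h.bb 0 hu).symm)

theorem expand {e : Fin 5 → W} (he : ∀ i j, B Q (e i) (e j) = if i = j then 1 else 0) (x : W) :
    x = ∑ i, B Q (e i) x • e i := by
  have hli : LinearIndependent k e := Fintype.linearIndependent_iff.2 fun g hg i => by
    simpa [he] using congrArg (B Q (e i)) hg
  have hs := hli.span_eq_top_of_card_eq_finrank' (by simp [h.dim])
  refine sub_eq_zero.1 (h.nd _ fun y => ?_)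
  obtain ⟨c, rfl⟩ := (Submodule.mem_span_range_iff_exists_fun k).1 (hs ▸ Submodule.mem_top (x := y))
  simp [he]

theorem d5_roots {e : Fin 5 → W} (he : ∀ i j, B Q (e i) (e j) = if i = j then 1 else 0)
    (hr : ∀ i j, i ≠ j → R (e i + e j) ∧ R (e i - e j)) {x : W} (hx : R x) :
    ∃ i j, i ≠ j ∧ ∃ s t : k, s * s = 1 ∧ t * t = 1 ∧ x = s • e i + t • e j := by
  by_contra! hh
  have h2 := h.two
  set y : Fin 5 → k := fun i => B Q (e i) x with hy
  have hs : ∑ i, y i * y i = 2 := by
    have := h.bb x hx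
    nth_rw 1 [h.expand he x] at this
    simpa using this
  have key : ∀ i j, i ≠ j → y i ≠ 0 → (y j ≠ 0 ∧ 4 * (y i * y i) = 1) ∨ (y j = 0 ∧ y i * y i = 1) := by
    intro i j hij hi
    have a1 := h.f1 _ x (hr i j hij).1 hx (fun e => hh i j hij 1 1 (by simp) (by simp) (by simp [e]))
      fun e => hh i j hij (-1) (-1) (by simp) (by simp) (by simp [e, add_comm])
    have a2 := h.f1 _ x (hr i j hij).2 hx (fun e => hh i j hij 1 (-1) (by simp) (by simp)
      (by simp [e, sub_eq_add_neg])) fun e => hh i j hij (-1) 1 (by simp) (by simp)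
      (by simp [e, sub_eq_add_neg, add_comm])
    simp only [map_add, map_sub, LinearMap.add_apply, LinearMap.sub_apply] at a1 a2
    change y i + y j = 0 ∨ y i + y j = 1 ∨ y i + y j = -1 at a1
    change y i - y j = 0 ∨ y i - y j = 1 ∨ y i - y j = -1 at a2
    by_cases hj : y j = 0
    · refine Or.inr ⟨hj, ?_⟩
      rw [hj, add_zero] at a1
      rcases a1 with e | e | e
      exacts [absurd e hi, by simp [e], by simp [e]]
    · refine Or.inl ⟨hj, ?_⟩
      have a3 : 4 * (y i * y i) = (y i + y j + (y i - y j)) ^ 2 := by ring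
      have a4 : y i + y j + (y i - y j) ≠ 0 := fun e => mul_ne_zero h2 hi (by linear_combination e)
      have a5 : y i + y j - (y i - y j) ≠ 0 := fun e => mul_ne_zero h2 hj (by linear_combination e)
      rw [a3]
      rcases a1 with e | e | e <;> rcases a2 with e' | e' | e' <;> rw [e, e'] at a4 a5 ⊢ <;>
        simp at a4 a5 ⊢
  classical
  set N := Finset.univ.filter fun i => y i ≠ 0
  have hN : ∀ i, i ∈ N ↔ y i ≠ 0 := fun i => by simp [N]
  have hs' : ∑ i ∈ N, y i * y i = 2 := by
    rw [← hs, Finset.sum_filter_of_ne fun i _ e => left_ne_zero_of_mul e]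
  have h4 : (4 : k) ≠ 0 := by rw [show (4 : k) = 2 * 2 by norm_num]; exact mul_ne_zero h2 h2
  have hc : 2 ≤ N.card := by
    by_contra! hc
    obtain ⟨i, hi⟩ := Finset.card_le_one_iff_subset_singleton.1 (Nat.lt_succ_iff.1 hc)
    rcases Finset.subset_singleton_iff.1 hi with e | e <;> rw [e] at hs'
    · exact h2 (by simpa using hs'.symm)
    · obtain ⟨j, hj⟩ := exists_ne i
      rcases key i j hj.symm ((hN i).1 (by simp [e])) with ⟨a, -⟩ | ⟨-, a⟩
      · exact hj (by simpa [e] using (hN j).2 a)
      · rw [Finset.sum_singleton, a] at hs'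
        exact one_ne_zero (α := k) (by linear_combination -hs')
  have k1 : ∀ i ∈ N, 4 * (y i * y i) = 1 := fun i hi => by
    obtain ⟨j, hj, hji⟩ := Finset.exists_mem_ne hc i
    exact ((key i j hji.symm ((hN i).1 hi)).resolve_right fun e => (hN j).1 hj e.1).2
  have k3 : (N.card : k) = 8 := by
    have := Finset.sum_congr rfl k1
    rw [← Finset.mul_sum, hs'] at this
    simp at this
    linear_combination -this
  have c5 : N.card ≤ 5 := by simpa using Finset.card_le_univ N
  have h3 : (3 : k) = 0 := by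
    by_cases e : N = Finset.univ
    · rw [e] at k3; simp at k3; linear_combination -k3
    · obtain ⟨j, hj⟩ : ∃ j, j ∉ N := by
        by_contra! hj
        exact e (Finset.eq_univ_of_forall hj)
      obtain ⟨i, hi⟩ := Finset.card_pos.1 (show 0 < N.card by omega)
      have := (key i j (by rintro rfl; exact hj hi) ((hN i).1 hi)).resolve_left
        fun e => hj ((hN j).2 e.1)
      linear_combination k1 i hi - 4 * this.2
  have k4 : ∀ i ∈ N, y i * y i = 1 := fun i hi => by linear_combination k1 i hi - y i * y i * h3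
  interval_cases hcard : N.card
  · obtain ⟨i, j, hij, e'⟩ := Finset.card_eq_two.1 hcard
    refine hh i j hij _ _ (k4 i (by simp [e'])) (k4 j (by simp [e'])) ?_
    rw [← Finset.sum_pair (f := fun i => y i • e i) hij, ← e',
      Finset.sum_filter_of_ne fun i _ e => left_ne_zero_of_smul e]
    exact h.expand he x
  · exact h2 (by push_cast at k3; linear_combination -k3 - h3)
  · exact h2 (by push_cast at k3; linear_combination k3 + 2 * h3)
  have k2 : ∀ i, y i * y i = 1 := fun i =>
    k4 i (by rw [Finset.eq_univ_of_card N (by simp [hcard])]; simp)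
  have r1 : ∀ i j, i ≠ j → ∀ s t : k, s * s = 1 → t * t = 1 → R (s • e i + t • e j) := by
    intro i j hij s t hs ht
    rcases mul_self_eq_one_iff.1 hs with rfl | rfl <;> rcases mul_self_eq_one_iff.1 ht with rfl | rfl
    · simpa using (hr i j hij).1
    · simpa [sub_eq_add_neg] using (hr i j hij).2
    · simpa [sub_eq_add_neg, add_comm] using h.neg _ (hr i j hij).2
    · simpa [sub_eq_add_neg, add_comm] using h.neg _ (hr i j hij).1
  have b1 : ∀ i, B Q x (e i) = y i := fun i => B_comm Q _ _
  refine h.a2 h3 x (y 3 • e 3 + y 4 • e 4) (y 0 • e 0 + (-y 1) • e 1) (y 1 • e 1 + (-y 2) • e 2) hx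
    (r1 _ _ (by decide) _ _ (k2 _) (k2 _)) (r1 _ _ (by decide) _ _ (k2 _) (by simp [k2]))
    (r1 _ _ (by decide) _ _ (k2 _) (by simp [k2])) ?_ (hh _ _ (by decide) _ _ (k2 _) (k2 _)) ?_
    (fun e' => ?_) ?_ ?_ ?_ ?_
  · simp [b1, k2]; linear_combination h3
  · simp [he, k2]
  · have := congrArg (B Q (e 0)) e'
    simp [he] at this
    simpa [this] using k2 0
  all_goals simp [b1, k2, he]

theorem d5 {e : Fin 5 → W} (he : ∀ i j, B Q (e i) (e j) = if i = j then 1 else 0)
    (hr : ∀ i j, i ≠ j → R (e i + e j) ∧ R (e i - e j)) : False := by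
  have h2 := h.two
  have := h.inv (fun φ => ∀ x, ∏ i, B Q (e i) (φ x) = ∏ i, B Q (e i) x) (fun _ => rfl)
    (fun f g hf hg x => (hf _).trans (hg x)) (fun u hu x => ?_) _ _ (hr 0 1 (by decide)).1
    (hr 0 1 (by decide)).2 (fun e' => ?_) (fun e' => ?_) (∑ i, e i)
  · simp [he] at this
    exact h2 (by linear_combination -this)
  · obtain ⟨i, j, hij, s, t, hs, ht, rfl⟩ := h.d5_roots he hr hu
    have m : j ∈ Finset.univ.erase i := by simp [hij.symm]
    rw [← Finset.mul_prod_erase _ _ (Finset.mem_univ i), ← Finset.mul_prod_erase _ _ m,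
      ← Finset.mul_prod_erase _ _ (Finset.mem_univ i), ← Finset.mul_prod_erase _ _ m, ← mul_assoc,
      ← mul_assoc]
    congr 1
    · rcases mul_self_eq_one_iff.1 hs with rfl | rfl <;>
        rcases mul_self_eq_one_iff.1 ht with rfl | rfl <;> simp [he, hij, hij.symm] <;> ring
    · refine Finset.prod_congr rfl fun l hl => ?_
      simp at hl
      simp [he, hl.1, hl.2]
  · have := congrArg (B Q (e 1)) e'
    simp [he] at this
    exact h2 (by linear_combination -this)
  · have := congrArg (B Q (e 0)) e'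
    simp [he] at this
    exact h2 (by linear_combination this)

end RS

end Cfsg.Agent.H3.S4
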