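import Cfsg.Agent.H3.S4B1

/-! Simply laced root sets in dimension five: the case `D_4`. -/

set_option autoImplicit false
set_option linter.unusedSimpArgs false
set_option linter.unusedSectionVars false
set_option linter.unusedVariables false

namespace Cfsg.Agent.H3.S4

open Module Cfsg.Agent.Orth

variable {k W : Type*} [Field k] [AddCommGroup W] [Module k W] [FiniteDimensional k W]
  {Q : QuadraticForm k W} {R : W → Prop} {a b c d m x f : W}

/-- four orthogonal roots whose half sum is a root -/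
structure D4 (Q : QuadraticForm k W) (R : W → Prop) (a b c d m : W) : Prop where
  ra : R a
  rb : R b
  rc : R c
  rd : R d
  rm : R m
  ab : B Q a b = 0
  ac : B Q a c = 0
  ad : B Q a d = 0
  bc : B Q b c = 0
  bd : B Q b d = 0
  cd : B Q c d = 0
  e : (2 : k) • m = a + b + c + d

theorem D4.s12 (D : D4 Q R a b c d m) : D4 Q R b a c d m :=
  ⟨D.rb, D.ra, D.rc, D.rd, D.rm, (B_comm Q _ _).trans D.ab, D.bc, D.bd, D.ac, D.ad, D.cd,
    by rw [D.e]; abel⟩

theorem D4.s23 (D : D4 Q R a b c d m) : D4 Q R a c b d m :=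
  ⟨D.ra, D.rc, D.rb, D.rd, D.rm, D.ac, D.ab, D.ad, (B_comm Q _ _).trans D.bc, D.cd, D.bd,
    by rw [D.e]; abel⟩

theorem D4.s34 (D : D4 Q R a b c d m) : D4 Q R a b d c m :=
  ⟨D.ra, D.rb, D.rd, D.rc, D.rm, D.ab, D.ad, D.ac, D.bd, D.bc, (B_comm Q _ _).trans D.cd,
    by rw [D.e]; abel⟩

theorem D4.sum (D : D4 Q R a b c d m) (x : W) :
    2 * B Q x m = B Q x a + B Q x b + B Q x c + B Q x d := by
  simpa using congrArg (B Q x) D.e

namespace RS

variable (h : RS Q R)
include h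

theorem am (D : D4 Q R a b c d m) : B Q a m = 1 := mul_left_cancel₀ h.two (by
  rw [D.sum, h.bb a D.ra, D.ab, D.ac, D.ad]; ring)

theorem n1 (D : D4 Q R a b c d m) : D4 Q R (-a) b c d (m - a) :=
  ⟨h.neg _ D.ra, D.rb, D.rc, D.rd, h.sub D.rm D.ra ((B_comm Q _ _).trans (h.am D)),
    by simp [D.ab], by simp [D.ac], by simp [D.ad], D.bc, D.bd, D.cd, by
      rw [smul_sub, D.e]; module⟩

theorem n2 (D : D4 Q R a b c d m) : D4 Q R a (-b) c d (m - b) := (h.n1 D.s12).s12

theorem n3 (D : D4 Q R a b c d m) : D4 Q R a b (-c) d (m - c) := (h.n2 D.s23).s23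

theorem n4 (D : D4 Q R a b c d m) : D4 Q R a b c (-d) (m - d) := (h.n3 D.s34).s34

theorem L2 (D : D4 Q R a b c d m) (hx : R x) (xa : B Q x a = 1) (xb : B Q x b = 1)
    (xc : B Q x c = 0) (xd : B Q x d = 0) : False := by
  have h2 := h.two
  set t : k := 2⁻¹ with ht
  have t2 : 2 * t = 1 := mul_inv_cancel₀ h2
  set e : Fin 5 → W := ![t • (a + b), t • (a - b), t • (c + d), t • (c - d), x - t • (a + b)] with hE
  have he : ∀ i j, B Q (e i) (e j) = if i = j then 1 else 0 := by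
    have aa := h.bb a D.ra
    have bb := h.bb b D.rb
    have cc := h.bb c D.rc
    have dd := h.bb d D.rd
    have xx := h.bb x hx
    intro i j
    fin_cases i <;> fin_cases j <;>
      simp [e, aa, bb, cc, dd, xx, xa, xb, xc, xd, D.ab, D.ac, D.ad, D.bc, D.bd, D.cd, B_comm Q b a,
        B_comm Q c a, B_comm Q d a, B_comm Q c b, B_comm Q d b, B_comm Q d c, B_comm Q a x,
        B_comm Q b x, B_comm Q c x, B_comm Q d x] <;> grind
  have sy : ∀ i j, R (e i + e j) ∧ R (e i - e j) → R (e j + e i) ∧ R (e j - e i) := fun i j p =>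
    ⟨add_comm (e i) _ ▸ p.1, by simpa using h.neg _ p.2⟩
  have tr : ∀ i j l, i ≠ j → j ≠ l → i ≠ l → R (e i + e j) ∧ R (e i - e j) →
      R (e j + e l) ∧ R (e j - e l) → R (e i + e l) ∧ R (e i - e l) := fun i j l a1 a2 a3 p q =>
    ⟨by convert h.add p.2 q.1 (by simp [he, a1, a2, a3]) using 1; abel,
      by simpa using h.add p.2 q.2 (by simp [he, a1, a2, a3])⟩
  have m1 : ∀ {u v : W}, R u → v = u → R v := fun hu e => e ▸ hu
  have p1 : R (e 0 + e 1) ∧ R (e 0 - e 1) :=
    ⟨m1 D.ra (by simp only [e]; simp; linear_combination (norm := module) t2 • a),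
      m1 D.rb (by simp only [e]; simp; linear_combination (norm := module) t2 • b)⟩
  have p3 : R (e 2 + e 3) ∧ R (e 2 - e 3) :=
    ⟨m1 D.rc (by simp only [e]; simp; linear_combination (norm := module) t2 • c),
      m1 D.rd (by simp only [e]; simp; linear_combination (norm := module) t2 • d)⟩
  have p2 : R (e 0 + e 2) ∧ R (e 0 - e 2) :=
    ⟨m1 D.rm (by
        simp only [e]; simp; linear_combination (norm := module) t2 • m - t • D.e),
      m1 (h.n4 (h.n3 D)).rm (by
        simp only [e]; simp; linear_combination (norm := module) t2 • (m - c - d) - t • D.e)⟩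
  have p4 : R (e 0 + e 4) ∧ R (e 0 - e 4) :=
    ⟨m1 hx (by simp [e]), m1 (h.add D.ra (h.sub D.rb hx ((B_comm Q _ _).trans xb))
      (by simp [D.ab, B_comm Q a x, xa])) (by
        simp only [e]; simp; linear_combination (norm := module) t2 • (a + b))⟩
  have p0 : ∀ j, j ≠ 0 → R (e 0 + e j) ∧ R (e 0 - e j) := fun j hj => by
    fin_cases j
    exacts [absurd rfl hj, p1, p2, tr _ _ _ (by decide) (by decide) (by decide) p2 p3, p4]
  refine h.d5 he fun i j hij => ?_
  by_cases hi : i = 0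
  · subst hi; exact p0 j hij.symm
  by_cases hj : j = 0
  · subst hj; exact sy _ _ (p0 i hi)
  exact tr _ 0 _ hi (Ne.symm hj) hij (sy _ _ (p0 i hi)) (p0 j hj)

theorem L1 (D : D4 Q R a b c d m) (hx : R x) (xf : B Q f x ≠ 0) (fa : B Q f a = 0)
    (fb : B Q f b = 0) (fc : B Q f c = 0) (fd : B Q f d = 0) (xa : B Q x a = 1) :
    (B Q x b + B Q x c + B Q x d) ^ 2 = 1 := by
  have fm : B Q f m = 0 := mul_left_cancel₀ h.two (by rw [D.sum, fa, fb, fc, fd]; ring)
  have s := D.sum x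
  rcases h.f1 m x D.rm hx (by rintro rfl; exact xf fm) (by rintro rfl; simp [fm] at xf) with e | e | e <;>
    rw [B_comm] at e
  · rw [show B Q x b + B Q x c + B Q x d = -1 by linear_combination -s - xa + 2 * e]; ring
  · rw [show B Q x b + B Q x c + B Q x d = 1 by linear_combination -s - xa + 2 * e]; ring
  · have := h.tri (-a) x m (h.neg _ D.ra) hx D.rm (by simp [B_comm Q a x, xa]) (by simp [h.am D]) e
      (by rintro rfl; simp [fa] at xf) (fun e' => by
        have := h.am D.s12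
        simp [← e', B_comm Q b a, D.ab] at this) (by rintro rfl; exact xf fm)
    exact absurd (by simpa [fa, fm] using congrArg (B Q f) this) xf

theorem L3 (D : D4 Q R a b c d m) (hx : R x) (xf : B Q f x ≠ 0) (fa : B Q f a = 0)
    (fb : B Q f b = 0) (fc : B Q f c = 0) (fd : B Q f d = 0) (xa : B Q x a = 1)
    (xb : B Q x b = 0 ∨ B Q x b = 1) (xc : B Q x c = 0 ∨ B Q x c = 1)
    (xd : B Q x d = 0 ∨ B Q x d = 1) : False := by
  have h2 := h.two
  have a1 := h.L1 D hx xf fa fb fc fd xa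
  have a2 := h.L1 (h.n2 D) hx xf fa (by simp [fb]) fc fd xa
  have a3 := h.L1 (h.n3 D) hx xf fa fb (by simp [fc]) fd xa
  rcases xb with xb | xb <;> rcases xc with xc | xc <;> rcases xd with xd | xd
  · simp [xb, xc, xd] at a1
  · exact h.L2 D.s34.s23 hx xa xd xb xc
  · exact h.L2 D.s23 hx xa xc xb xd
  · simp [xb, xc, xd] at a3
  · exact h.L2 D hx xa xb xc xd
  · simp [xb, xc, xd] at a2
  · simp [xb, xc, xd] at a2
  · rw [xb, xc, xd] at a1
    exact mul_ne_zero h2 (mul_ne_zero h2 h2) (by linear_combination a1)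

theorem L4 (D : D4 Q R a b c d m) (hx : R x) (xf : B Q f x ≠ 0) (fa : B Q f a = 0)
    (fb : B Q f b = 0) (fc : B Q f c = 0) (fd : B Q f d = 0) (xa : B Q x a ≠ 0) : False := by
  have k1 : ∀ u, R u → B Q f u = 0 → (B Q x u = 0 ∨ B Q x u = 1) ∨ B Q x (-u) = 1 := fun u hu fu => by
    have := h.f1 u x hu hx (by rintro rfl; exact xf fu) (by rintro rfl; simp [fu] at xf)
    rw [B_comm] at this
    simpa [or_assoc, neg_eq_iff_eq_neg] using this
  have k4 : ∀ {a b c d m}, D4 Q R a b c d m → B Q f a = 0 → B Q f b = 0 → B Q f c = 0 →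
      B Q f d = 0 → B Q x a = 1 → B Q x b = 0 ∨ B Q x b = 1 → B Q x c = 0 ∨ B Q x c = 1 → False :=
    fun D fa fb fc fd xa xb xc => (k1 _ D.rd fd).elim (h.L3 D hx xf fa fb fc fd xa xb xc) fun e =>
      h.L3 (h.n4 D) hx xf fa fb fc (by simp [fd]) xa xb xc (Or.inr e)
  have k3 : ∀ {a b c d m}, D4 Q R a b c d m → B Q f a = 0 → B Q f b = 0 → B Q f c = 0 →
      B Q f d = 0 → B Q x a = 1 → B Q x b = 0 ∨ B Q x b = 1 → False :=
    fun D fa fb fc fd xa xb => (k1 _ D.rc fc).elim (k4 D fa fb fc fd xa xb) fun e =>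
      k4 (h.n3 D) fa fb (by simp [fc]) fd xa xb (Or.inr e)
  have k2 : ∀ {a b c d m}, D4 Q R a b c d m → B Q f a = 0 → B Q f b = 0 → B Q f c = 0 →
      B Q f d = 0 → B Q x a = 1 → False :=
    fun D fa fb fc fd xa => (k1 _ D.rb fb).elim (k3 D fa fb fc fd xa) fun e =>
      k3 (h.n2 D) fa (by simp [fb]) fc fd xa (Or.inr e)
  rcases k1 _ D.ra fa with (e | e) | e
  exacts [xa e, k2 D fa fb fc fd e, k2 (h.n1 D) (by simp [fa]) fb fc fd e]

theorem d4 (D : D4 Q R a b c d m) : False := by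
  have hL : ∀ w, w ∈ perp Q (Submodule.span k {a, b, c, d}) ↔
      B Q w a = 0 ∧ B Q w b = 0 ∧ B Q w c = 0 ∧ B Q w d = 0 := fun w => by
    simp [mem_perp_span, B_comm Q w]
  refine (h.irr a D.ra (perp Q (Submodule.span k {a, b, c, d})) fun x hx f hf => ?_).elim
    (fun e => ?_) fun e => ?_
  rotate_left
  · have := h.nd.finrank_perp (Submodule.span k {a, b, c, d})
    have := finrank_span_four_le (F := k) a b c d
    have := h.dim
    rw [e, finrank_bot] at *
    omega
  · exact h.two ((h.bb a D.ra).symm.trans ((hL a).1 (e ▸ Submodule.mem_top)).1)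
  by_cases xf : B Q f x = 0
  · simpa [B_comm Q x f, xf] using hf
  refine Submodule.sub_mem _ (Submodule.smul_mem _ _ ((hL x).2 ?_)) hf
  obtain ⟨fa, fb, fc, fd⟩ := (hL f).1 hf
  exact ⟨by_contra (h.L4 D hx xf fa fb fc fd), by_contra (h.L4 D.s12 hx xf fb fa fc fd),
    by_contra (h.L4 D.s23.s12 hx xf fc fa fb fd), by_contra (h.L4 D.s34.s23.s12 hx xf fd fa fb fc)⟩

theorem d4' (ra : R a) (rb : R b) (rc : R c) (rm : R m) (ab : B Q a b = 0) (ac : B Q a c = 0)
    (bc : B Q b c = 0) (ma : B Q m a = 1) (mb : B Q m b = 1) (mc : B Q m c = 1) : False := by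
  have r1 := h.sub (h.sub (h.sub rm ra ma) rb (by simp [mb, ab])) rc (by simp [mc, ac, bc])
  have r2 := h.add rm r1 (by simp [h.bb m rm, ma, mb, mc]; ring)
  refine h.d4 (d := m + (m - a - b - c)) ⟨ra, rb, rc, r2, rm, ab, ac, ?_, bc, ?_, ?_, by module⟩ <;>
    simp [B_comm Q a m, B_comm Q b m, B_comm Q c m, B_comm Q b a, B_comm Q c a, B_comm Q c b,
      ma, mb, mc, ab, ac, bc, h.bb _ ra, h.bb _ rb, h.bb _ rc] <;> ring

end RS

end Cfsg.Agent.H3.S4
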