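import Cfsg.Agent.H3.S4B2

/-! Simply laced root sets in dimension five: type `A`. -/

set_option autoImplicit false
set_option linter.unusedSimpArgs false
set_option linter.unusedSectionVars false
set_option linter.unusedVariables false

namespace Cfsg.Agent.H3.S4

open Module Cfsg.Agent.Orth

variable {k W : Type*} [Field k] [AddCommGroup W] [Module k W] [FiniteDimensional k W]
  {Q : QuadraticForm k W} {R : W → Prop} {S : Finset W} {x : W}

/-- cliques of roots -/
def Cq (Q : QuadraticForm k W) (R : W → Prop) (S : Finset W) : Prop :=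
  (∀ s ∈ S, R s) ∧ ∀ s ∈ S, ∀ t ∈ S, s ≠ t → B Q s t = 1 ∧ t ≠ -s

theorem Cq.ins [DecidableEq W] (hS : Cq Q R S) (hx : R x) (e : ∀ s ∈ S, B Q x s = 1 ∧ s ≠ -x) :
    Cq Q R (insert x S) := by
  refine ⟨by simpa [hx] using hS.1, ?_⟩
  simp only [Finset.mem_insert]
  rintro s (rfl | hs) t (rfl | ht) hst
  · exact absurd rfl hst
  · exact e t ht
  · exact ⟨(B_comm Q _ _).trans (e s hs).1, fun e' => (e s hs).2 (by simp [e'])⟩
  · exact hS.2 s hs t ht hst

namespace RS

variable (h : RS Q R)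
include h

theorem cq_max {u : W} (hu : R u) : ∃ S, Cq Q R S ∧ S.Nonempty ∧
    ∀ T, Cq Q R T → T.card ≤ S.card := by
  classical
  have hm : ∀ T, T ∈ h.fin.toFinset.powerset.filter (Cq Q R) ↔ Cq Q R T := fun T => by
    simp only [Finset.mem_filter, Finset.mem_powerset, and_iff_right_iff_imp]
    exact fun hT s hs => by simpa using hT.1 s hs
  have h1 : Cq Q R {u} := ⟨by simpa using hu, by simp⟩
  obtain ⟨S, hS, hS'⟩ := Finset.exists_max_image _ Finset.card ⟨_, (hm _).2 h1⟩
  exact ⟨S, (hm S).1 hS, Finset.card_pos.1 (by simpa using hS' _ ((hm _).2 h1)),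
    fun T hT => hS' T ((hm T).2 hT)⟩

theorem cq_pos (hS : Cq Q R S) (hm : ∀ T, Cq Q R T → T.card ≤ S.card) (hx : R x)
    (n1 : ∀ s ∈ S, x ≠ s ∧ x ≠ -s) (n2 : ∀ s ∈ S, ∀ t ∈ S, x ≠ s - t)
    (h01 : ∀ s ∈ S, B Q x s = 0 ∨ B Q x s = 1) {s : W} (hs : s ∈ S) (e : B Q x s = 1) : False := by
  classical
  have h2 := h.two
  have big : ∀ y, y ∉ S → ¬ Cq Q R (insert y S) := fun y hy c => by
    have := hm _ c
    rw [Finset.card_insert_of_notMem hy] at this
    omega
  by_cases c1 : ∀ t ∈ S, B Q x t = 1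
  · exact big x (fun hx => (n1 x hx).1 rfl) (hS.ins hx fun t ht =>
      ⟨c1 t ht, fun e => (n1 t ht).2 (by simp [e])⟩)
  push Not at c1
  obtain ⟨t, ht, c1⟩ := c1
  replace c1 := (h01 t ht).resolve_right c1
  have st : s ≠ t := by rintro rfl; simp [e] at c1
  have ss := h.bb s (hS.1 s hs)
  by_cases c2 : ∀ r ∈ S, r ≠ s → B Q x r = 0
  · refine big (s - x) (fun hx => n2 s hs _ hx (by simp)) (hS.ins (h.sub (hS.1 s hs) hx
      ((B_comm Q _ _).trans e)) fun r hr => ?_)
    by_cases rs : r = s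
    · subst rs
      refine ⟨by simp [ss, e]; ring, fun e' => ?_⟩
      have e2 : x = (2 : k) • r := by linear_combination (norm := module) -e'
      have e3 : (3 : k) = 0 := by rw [e2] at e; simp [ss] at e; linear_combination e
      exact (n1 r hr).2 (by linear_combination (norm := module) e2 + e3 • r)
    · have sr := (hS.2 s hs r hr (Ne.symm rs)).1
      refine ⟨by simp [sr, c2 r hr rs], fun e' => ?_⟩
      have e2 : x = s + r := by linear_combination (norm := module) -e'
      have := h.bb x hx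
      rw [e2] at this
      simp [ss, sr, B_comm Q r s, h.bb r (hS.1 r hr)] at this
      exact mul_ne_zero h2 h2 (by linear_combination this)
  push Not at c2
  obtain ⟨r, hr, rs, c2⟩ := c2
  replace c2 := (h01 r hr).resolve_left c2
  have rt : r ≠ t := by rintro rfl; simp [c2] at c1
  have sr := (hS.2 s hs r hr (Ne.symm rs)).1
  exact h.d4' hx (h.sub (hS.1 s hs) (hS.1 r hr) sr) (hS.1 t ht) (hS.1 s hs) (by simp [e, c2]) c1
    (by simp [(hS.2 s hs t ht st).1, (hS.2 r hr t ht rt).1]) ((B_comm Q _ _).trans e)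
    (by simp [ss, sr]; ring) (hS.2 s hs t ht st).1

theorem cq_cases [DecidableEq W] (hS : Cq Q R S) (hm : ∀ T, Cq Q R T → T.card ≤ S.card)
    (hx : R x) : (∃ s ∈ insert 0 S, ∃ t ∈ insert 0 S, x = s - t) ∨ ∀ s ∈ S, B Q x s = 0 := by
  by_contra! hh
  obtain ⟨n, s, hs, e⟩ := hh
  have n1 : ∀ s ∈ S, x ≠ s ∧ x ≠ -s := fun s hs =>
    ⟨by simpa using n s (by simp [hs]) 0 (by simp), by simpa using n 0 (by simp) s (by simp [hs])⟩
  have n2 : ∀ s ∈ S, ∀ t ∈ S, x ≠ s - t := fun s hs t ht => n s (by simp [hs]) t (by simp [ht])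
  have k1 : ∀ s ∈ S, B Q x s = 0 ∨ B Q x s = 1 ∨ B Q x s = -1 := fun s hs =>
    B_comm Q x s ▸ h.f1 s x (hS.1 s hs) hx (n1 s hs).1 (n1 s hs).2
  have k2 : ∀ s ∈ S, ∀ t ∈ S, B Q x s = 1 → B Q x t = -1 → False := fun s hs t ht a b => by
    have st : s ≠ t := by rintro rfl; exact h.two (by linear_combination b - a)
    have := h.tri (-s) x t (h.neg _ (hS.1 s hs)) hx (hS.1 t ht) (by simp [B_comm Q s x, a])
      (by simp [(hS.2 s hs t ht st).1]) b (n1 s hs).2.symm (hS.2 s hs t ht st).2.symm (n1 t ht).1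
    exact n2 s hs t ht (by linear_combination (norm := module) this)
  rcases (k1 s hs).resolve_left e with e | e
  · exact h.cq_pos hS hm hx n1 n2 (fun t ht => (k1 t ht).imp_right fun a =>
      a.resolve_right (k2 s hs t ht e)) hs e
  · refine h.cq_pos hS hm (h.neg x hx) (fun s hs => ⟨fun e => (n1 s hs).2 (by simp [← e]),
      fun e => (n1 s hs).1 (neg_injective e)⟩) (fun s hs t ht e => n2 t ht s hs (by
        linear_combination (norm := module) -e)) (fun t ht => ?_) hs (by simp [e])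
    rcases k1 t ht with a | a | a
    exacts [by simp [a], (k2 t ht s hs a e).elim, by simp [a]]

theorem cq_gram [DecidableEq W] (hS : Cq Q R S) {p q : W} (hp : p ∈ insert 0 S)
    (hq : q ∈ insert 0 S) : B Q p q = (if p = q then 1 else 0) - (if p = 0 then 1 else 0) -
      (if q = 0 then 1 else 0) + 1 := by
  rcases Finset.mem_insert.1 hp with rfl | hp <;> rcases Finset.mem_insert.1 hq with rfl | hq
  · simp
  · simp [h.ne_zero (hS.1 q hq), (h.ne_zero (hS.1 q hq)).symm]
  · simp [h.ne_zero (hS.1 p hp)]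
  · by_cases e : p = q
    · subst e; simp [h.ne_zero (hS.1 p hp), h.bb p (hS.1 p hp)]; ring
    · simp [h.ne_zero (hS.1 p hp), h.ne_zero (hS.1 q hq), e, (hS.2 p hp q hq e).1]

theorem no_root (u : W) : ¬ R u := fun hu => by
  classical
  have h2 := h.two
  obtain ⟨S, hS, ⟨s0, hs0⟩, hm⟩ := h.cq_max hu
  have hP : ∀ p ∈ insert 0 S, p ∈ Submodule.span k (S : Set W) := fun p hp => by
    rcases Finset.mem_insert.1 hp with rfl | hp
    exacts [Submodule.zero_mem _, Submodule.subset_span hp]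
  have hz : ∀ x, (∀ s ∈ S, B Q x s = 0) → ∀ w ∈ Submodule.span k (S : Set W), B Q w x = 0 :=
    fun x hx => mem_perp_span.2 fun s hs => (B_comm Q _ _).trans (hx s hs)
  have hT : Submodule.span k (S : Set W) = ⊤ := (h.irr u hu _ fun x hx w hw => by
    rcases h.cq_cases hS hm hx with ⟨s, hs, t, ht, rfl⟩ | e
    · exact Submodule.sub_mem _ (Submodule.smul_mem _ _ (Submodule.sub_mem _ (hP s hs) (hP t ht))) hw
    · simpa [B_comm Q x w, hz x e w hw] using hw).resolve_left fun e =>
      h.ne_zero (hS.1 s0 hs0) (by simpa [e] using hP s0 (by simp [hs0]))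
  have hc : 5 ≤ S.card := by
    have := finrank_span_finset_le_card (R := k) S
    rwa [Set.finrank, hT, finrank_top, h.dim] at this
  have hd : ∀ x, R x → ∃ s ∈ insert 0 S, ∃ t ∈ insert 0 S, x = s - t := fun x hx =>
    (h.cq_cases hS hm hx).resolve_right fun e =>
      h.ne_zero hx (h.nd x fun w => hz x e w (hT ▸ Submodule.mem_top))
  have hg : ∀ p ∈ insert 0 S, ∀ q ∈ insert 0 S, ∀ r ∈ insert 0 S, ∀ s ∈ insert 0 S,
      B Q (p - q) (r - s) = (if p = r then 1 else 0) - (if p = s then 1 else 0) -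
        (if q = r then 1 else 0) + if q = s then 1 else 0 := fun p hp q hq r hr s hs => by
    simp only [map_sub, LinearMap.sub_apply, h.cq_gram hS hp hr, h.cq_gram hS hp hs,
      h.cq_gram hS hq hr, h.cq_gram hS hq hs]
    ring
  have uq : ∀ p ∈ insert 0 S, ∀ q ∈ insert 0 S, ∀ r ∈ insert 0 S, ∀ s ∈ insert 0 S, p ≠ q →
      p - q = r - s → p = r := fun p hp q hq r hr s hs pq e => by
    obtain ⟨z, hz, hz'⟩ := Finset.exists_mem_notMem_of_card_lt_card (s := {p, q, r, s}) (t := S)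
      (Finset.card_le_four.trans_lt hc)
    simp only [Finset.mem_insert, Finset.mem_singleton, not_or] at hz'
    have a1 := hg p hp q hq p hp z (by simp [hz])
    rw [e, hg r hr s hs p hp z (by simp [hz])] at a1
    by_contra pr
    simp [Ne.symm pr, pq.symm, Ne.symm hz'.1, Ne.symm hz'.2.1, Ne.symm hz'.2.2.1,
      Ne.symm hz'.2.2.2] at a1
    split_ifs at a1
    · exact h2 (by linear_combination -a1)
    · simp at a1
  obtain ⟨s, hs, st⟩ := Finset.exists_mem_ne (show 1 < S.card by omega) s0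
  obtain ⟨p, hp, q, hq, r, hr, pq, pr, qr, e1, e2⟩ := h.inv (fun φ => ∀ p ∈ insert 0 S,
    ∀ q ∈ insert 0 S, ∀ r ∈ insert 0 S, p ≠ q → p ≠ r → q ≠ r → ∃ p' ∈ insert 0 S,
      ∃ q' ∈ insert 0 S, ∃ r' ∈ insert 0 S, p' ≠ q' ∧ p' ≠ r' ∧ q' ≠ r' ∧ φ (p - q) = p' - q' ∧
        φ (p - r) = p' - r')
    (fun p hp q hq r hr a b c => ⟨p, hp, q, hq, r, hr, a, b, c, rfl, rfl⟩)
    (fun f g hf hg p hp q hq r hr a b c => by
      obtain ⟨p, hp, q, hq, r, hr, a, b, c, e1, e2⟩ := hg p hp q hq r hr a b c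
      simpa only [Function.comp, e1, e2] using hf p hp q hq r hr a b c)
    (fun x hx p hp q hq r hr a b c => by
      obtain ⟨s, hs, t, ht, rfl⟩ := hd x hx
      have k1 : ∀ p ∈ insert 0 S, Equiv.swap s t p ∈ insert 0 S := fun p hp => by
        rw [Equiv.swap_apply_def]; split_ifs <;> assumption
      have k2 : ∀ p, Equiv.swap s t p =
          p - ((if s = p then 1 else 0 : k) - if t = p then 1 else 0) • (s - t) := fun p => by
        have st : s ≠ t := sub_ne_zero.1 (h.ne_zero hx)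
        by_cases a : p = s
        · subst a; simp [st.symm]
        by_cases b : p = t
        · subst b; simp [st]
        simp [Equiv.swap_apply_of_ne_of_ne a b, Ne.symm a, Ne.symm b]
      refine ⟨_, k1 p hp, _, k1 q hq, _, k1 r hr, (Equiv.swap s t).injective.ne a,
        (Equiv.swap s t).injective.ne b, (Equiv.swap s t).injective.ne c, ?_, ?_⟩ <;>
        simp only [k2, hg s hs t ht p hp q hq, hg s hs t ht p hp r hr] <;> module)
    s0 s (hS.1 _ hs0) (hS.1 s hs) st (hS.2 _ hs0 s hs st.symm).2 0 (by simp) s0 (by simp [hs0]) s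
    (by simp [hs]) (h.ne_zero (hS.1 _ hs0)).symm (h.ne_zero (hS.1 _ hs)).symm st.symm
  exact st ((uq p hp r hr s (by simp [hs]) 0 (by simp) pr (by simp [← e2])).symm.trans
    (uq p hp q hq s0 (by simp [hs0]) 0 (by simp) pq (by simp [← e1])))

end RS

end Cfsg.Agent.H3.S4
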