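import Cfsg.Agent.H3.S4B3
import Cfsg.Agent.H6.S4.If

/-! Subgroups of `Sp_4`: no root involutions in the simply laced case. -/

set_option autoImplicit false
set_option linter.unusedSimpArgs false
set_option linter.unusedSectionVars false
set_option linter.unusedVariables false

namespace Cfsg.Agent.H3.S4

open Module Cfsg.Agent.H9.Sp Cfsg.Agent.H8.M3 Cfsg.Agent.H6.S4

universe u

variable {k V W : Type*} [Field k] [AddCommGroup V] [Module k V] [FiniteDimensional k V]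
  [AddCommGroup W] [Module k W] [FiniteDimensional k W]
  {B : V →ₗ[k] V →ₗ[k] k} {Q : QuadraticForm k W} {ι : W →ₗ[k] End k V}
  {G : Type u} [Group G] {P : Subgroup (End k V)ˣ} {π : P →* G} {p : ℕ}
  {g g' : (End k V)ˣ} {u v a b c d : W}

theorem bb (hu : Rt Q ι P u) : Orth.B Q u u = 2 := by rw [Orth.B_self, hu.1, mul_one]

theorem ι_cancel (h : Cl B Q ι) (hu : Q u = 1) {X Y : End k V} (e : ι u * X = ι u * Y) : X = Y := by
  have := congrArg (ι u * ·) e
  simpa only [sqm h, hu, one_smul] using this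

theorem pair_eq (h : Cl B Q ι) (hu : Q u = 1) (e : g.1 = ι u * ι v) (t : k) (e' : g.1 = t • 1) :
    v = t • u := inj' h (ι_cancel h hu (by
  rw [← e, e', map_smul, mul_smul_comm, sq' h, hu, one_smul]))

theorem pair_ne (h : Cl B Q ι) (hu : Q u = 1) (e : g.1 = ι u * ι v) (h1 : v ≠ u) (h2 : v ≠ -u) :
    g ≠ 1 ∧ g ≠ -1 :=
  ⟨fun e' => h1 (by simpa using pair_eq h hu e 1 (by simp [e'])),
    fun e' => h2 (by simpa using pair_eq h hu e (-1) (by simp [e']))⟩

theorem rt_fin (h : St B Q ι P π) : {u | Rt Q ι P u}.Finite := by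
  have := h.fin
  refine Set.Finite.of_finite_image (f := ι) ((Set.finite_range fun g : P => g.1.1).subset ?_)
    fun x _ y _ e => inj' h.cl e
  rintro _ ⟨u, ⟨-, g, hg, e⟩, rfl⟩
  exact ⟨⟨g, hg⟩, e⟩

theorem rt_irr [IsAlgClosed k] (h : St B Q ι P π) (hu : Rt Q ι P u) (U : Submodule k W)
    (hU : ∀ u, Rt Q ι P u → ∀ w ∈ U, Orth.B Q u w • u - w ∈ U) : U = ⊥ ∨ U = ⊤ := by
  obtain ⟨a, x, hx, e⟩ := id hu
  refine h.irrWX (X := {g | g ∈ P ∧ ∃ u, Rt Q ι P u ∧ g.1 = ι u}) (fun _ a => a.1) ?_ ⟨hx, u, hu, e⟩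
    (Rt.inv h a e).2.1 (Rt.inv h a e).2.2 U ?_
  · rintro g hg y ⟨hy, v, hv, e⟩
    exact ⟨P.mul_mem (P.mul_mem hg hy) (P.inv_mem hg), _, hv.wa h hg, by
      rw [ι_wa h.cl (h.sp g hg), ← e]; rfl⟩
  · rintro g ⟨hg, v, hv, e⟩ w hw
    rw [wa_rt h.cl (h.sp g hg) hv.1 e]
    exact hU v hv w hw

theorem rt_inv (h : St B Q ι P π) (I : (W → W) → Prop) (i1 : I id)
    (im : ∀ f g, I f → I g → I (f ∘ g))
    (ir : ∀ u, Rt Q ι P u → I fun x => x - Orth.B Q u x • u) (hu : Rt Q ι P u) (hv : Rt Q ι P v)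
    (h1 : v ≠ u) (h2 : v ≠ -u) : I Neg.neg := by
  obtain ⟨g, hg, e, -⟩ := hu.pair h hv
  have key := h.ind (X := {g | g ∈ P ∧ ∃ u v, Rt Q ι P u ∧ Rt Q ι P v ∧ g.1 = ι u * ι v})
    (fun _ a => a.1) ?_ ⟨hg, u, v, hu, hv, e⟩ (pair_ne h.cl hu.1 e h1 h2).1
    (pair_ne h.cl hu.1 e h1 h2).2 (fun g => I (wa ι g)) ?_ ?_ ?_ ?_
  · obtain ⟨a, x, hx, e⟩ := id hu
    convert im _ _ (key x hx) (ir u hu) using 1
    funext w
    simp [wa_rt h.cl (h.sp x hx) a e, bb hu]
    module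
  · rintro g hg y ⟨hy, u, v, hu, hv, e⟩
    exact ⟨P.mul_mem (P.mul_mem hg hy) (P.inv_mem hg), _, _, hu.wa h hg, hv.wa h hg, by
      simp only [ι_wa h.cl (h.sp g hg), nc k V, e]⟩
  · convert i1 using 1
    exact funext (wa_one h.cl)
  · convert i1 using 1
    exact funext fun w => by rw [wa_neg h.cl (SpU B).one_mem, wa_one h.cl]; rfl
  · intro a ha b hb h1 h2
    convert im _ _ h1 h2 using 1
    exact funext (wa_mul h.cl (h.sp a ha) (h.sp b hb))
  · rintro g ⟨hg, u, v, hu, hv, e⟩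
    obtain ⟨a, x, hx, e1⟩ := id hu
    obtain ⟨b, y, hy, e2⟩ := id hv
    obtain rfl : g = x * y := Units.ext (by rw [e, ← e1, ← e2]; rfl)
    convert im _ _ (ir u hu) (ir v hv) using 1
    funext w
    simp [wa_mul h.cl (h.sp x hx) (h.sp y hy), wa_rt h.cl (h.sp x hx) a e1,
      wa_rt h.cl (h.sp y hy) b e2]
    module

variable [Fact p.Prime] [CharP k p]

theorem f0 (h : S2 p B Q ι P π) (hu : Rt Q ι P u) (hv : Rt Q ι P v) (e : Orth.B Q u v = 2)
    (h1 : v ≠ u) : p = 3 := by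
  obtain ⟨g, hg, e1, e2⟩ := hu.pair h.toSt hv
  exact h.p3 hg (e ▸ e2) fun e' => h1 (by simpa using pair_eq h.cl hu.1 e1 1 (by simp [e']))

theorem un_pair (h : S2 p B Q ι P π) (h3 : (3 : k) = 0) (hu : Rt Q ι P u) (hv : Rt Q ι P v)
    (e : Orth.B Q u v = -1) (h1 : u ≠ v) : ∃ g ∈ P, g.1 = ι u * ι v ∧ Un g ∧ g ≠ 1 :=
  let ⟨g, hg, e1, e2⟩ := hu.pair h.toSt hv
  ⟨g, hg, e1, un_of_T2 (by rw [e2, e]; congr 1; linear_combination -h3), fun e' =>
    h1.symm (by simpa using pair_eq h.cl hu.1 e1 1 (by simp [e']))⟩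

theorem a2 (h : S2 p B Q ι P π) (h3 : (3 : k) = 0) (ha : Rt Q ι P a) (hb : Rt Q ι P b)
    (hc : Rt Q ι P c) (hd : Rt Q ι P d) (ab : Orth.B Q a b = -1) (n1 : a ≠ b)
    (cd : Orth.B Q c d = -1) (n2 : c ≠ d) (ac : Orth.B Q a c = 0) (ad : Orth.B Q a d = 0)
    (bc : Orth.B Q b c = 0) (bd : Orth.B Q b d = 0) : False := by
  have c0 := h.cl
  obtain ⟨x, hx, e1, ux, x1⟩ := un_pair h h3 ha hb ab n1
  obtain ⟨y, hy, e2, uy, y1⟩ := un_pair h h3 hc hd cd n2
  have k1 : ∀ u, Orth.B Q u c = 0 → Orth.B Q u d = 0 → ι u * y.1 = y.1 * ι u := fun u e e' => by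
    simp only [e2, nc k V, antim c0 u, anti' c0 u, e, e', zero_smul, zero_sub, neg_neg]
  have k2 : ¬ ι a * x.1 = x.1 * ι a := fun e => by
    rw [e1, mul_assoc] at e
    obtain ⟨t, rfl⟩ := comm_ι c0 (by rintro rfl; simpa using ha.1) (ι_cancel c0 ha.1 e)
    simp [bb ha] at ab
    exact n1 (by rw [show t = 1 from mul_right_cancel₀ c0.two (by linear_combination ab - h3), one_smul])
  rcases h.h9 (eq_of_cast Nat.prime_three (by exact_mod_cast h3)) hx hy ux uy x1 (Units.ext (by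
    rw [Units.val_mul, Units.val_mul, e1, mul_assoc, k1 b bc bd, ← mul_assoc, k1 a ac ad, mul_assoc]))
    with e | rfl | rfl
  · exact y1 e
  · exact k2 (k1 a ac ad)
  · exact k2 (Commute.units_inv_right_iff.1 (k1 a ac ad))

theorem tri (h : S2 p B Q ι P π) (ha : Rt Q ι P a) (hb : Rt Q ι P b) (hc : Rt Q ι P c)
    (ab : Orth.B Q a b = -1) (ac : Orth.B Q a c = -1) (bc : Orth.B Q b c = -1) (n1 : a ≠ b)
    (n2 : a ≠ c) (n3 : b ≠ c) : a + b + c = 0 := by
  have c0 := h.cl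
  by_contra hn
  have hp : p = 3 := f0 h (ha.refl h.toSt hb) hc (by simp [ab, ac, bc]; ring) fun e => hn (by
    rw [e, ab]; module)
  have h3 := three_eq (k := k) hp
  obtain ⟨x, hx, e1, ux, x1⟩ := un_pair h h3 ha hb ab n1
  obtain ⟨y, hy, e2, uy, y1⟩ := un_pair h h3 ha hc ac n2
  have hxy : x * y = y * x := by
    obtain ⟨m, rfl⟩ : ∃ m, b = a + m := ⟨b - a, by abel⟩
    obtain ⟨n, rfl⟩ : ∃ n, c = a + n := ⟨c - a, by abel⟩
    have am : Orth.B Q m a = 0 := by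
      simp [bb ha] at ab; rw [Orth.B_comm]; linear_combination ab - h3
    have an : Orth.B Q n a = 0 := by
      simp [bb ha] at ac; rw [Orth.B_comm]; linear_combination ac - h3
    have nm : Orth.B Q n m = 0 := by
      simp [bb ha, am, Orth.B_comm Q a n, an] at bc; rw [Orth.B_comm]; linear_combination bc - h3
    have qm : Q m = 0 := by simpa [Orth.Q_add, ha.1, Orth.B_comm Q a, am] using hb.1
    have qn : Q n = 0 := by simpa [Orth.Q_add, ha.1, Orth.B_comm Q a, an] using hc.1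
    have z1 : (x * y * (y * x)⁻¹).1 = 1 + ι m * ι n := by
      rw [Units.val_mul, Units.mul_inv_eq_iff_eq_mul]
      simp only [nc k V, e1, e2, map_add, sqm c0, sq' c0, ha.1, qm, qn, antim c0 m a, antim c0 n a,
        antim c0 n m, anti' c0 m a, anti' c0 n a, anti' c0 n m, am, an, nm, zero_smul, one_smul,
        zero_sub, neg_neg, neg_zero, add_zero]
      linear_combination (norm := module) -h3 • (ι m * ι n)
    have hz : x * y * (y * x)⁻¹ ∈ P := P.mul_mem (P.mul_mem hx hy) (P.inv_mem (P.mul_mem hy hx))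
    have z0 : x * y * (y * x)⁻¹ = 1 → x * y = y * x := mul_inv_eq_one.1
    generalize x * y * (y * x)⁻¹ = z at *
    have c1 : x * z = z * x := Units.ext (by
      simp only [nc k V, e1, z1, map_add, sqm c0, sq' c0, ha.1, qm, qn, antim c0 m a, antim c0 n a,
        antim c0 n m, anti' c0 m a, anti' c0 n a, anti' c0 n m, am, an, nm, zero_smul, one_smul,
        zero_sub, neg_neg, neg_zero, add_zero]
      abel)
    have c2 : z * y = y * z := Units.ext (by
      simp only [nc k V, e2, z1, map_add, sqm c0, sq' c0, ha.1, qm, qn, antim c0 m a, antim c0 n a,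
        antim c0 n m, anti' c0 m a, anti' c0 n a, anti' c0 n m, am, an, nm, zero_smul, one_smul,
        zero_sub, neg_neg, neg_zero, add_zero]
      abel)
    rcases h.h9 hp hx hz ux ⟨2, by
      simp only [sq, nc k V, z1, add_sub_cancel_left, sqm c0, qm, antim c0 n m, nm, zero_smul,
        neg_zero, zero_sub]⟩ x1 c1 with e | rfl | rfl
    exacts [z0 e, c2, Commute.inv_left_iff.1 c2]
  rcases h.h9 hp hx hy ux uy x1 hxy with e | rfl | rfl
  · exact y1 e
  · exact n3 (inj' c0 (ι_cancel c0 ha.1 (e1.symm.trans e2)))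
  · rw [inv_pair c0 e1 (by rw [ha.1, hb.1, one_mul])] at e2
    have := ι3 c0 a b
    rw [e2, sqm c0, ha.1, one_smul, ab] at this
    exact hn (by rw [inj' c0 this]; module)

theorem bcore [IsAlgClosed k] (h : S2 p B Q ι P π) (hb : ∀ u v, Rt Q ι P u → Rt Q ι P v →
    Orth.B Q u v = 0 ∨ Orth.B Q u v ^ 2 = 1 ∨ Orth.B Q u v ^ 2 = 4) : NoI1 P :=
  h.noI1_iff.2 (RS.no_root (Q := Q) ⟨h.cl.two, h.cl.nd, h.cl.dim, fun _ => bb, rt_fin h.toSt,
    fun _ hu => hu.neg h.toSt, fun _ _ hu hv => hu.refl h.toSt hv, fun u v hu hv h1 h2 => by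
      refine (hb u v hu hv).imp_right fun e => e.elim (fun e => mul_self_eq_one_iff.1 (sq (Orth.B Q u v) ▸ e)) fun e => ?_
      rcases sq_eq_sq_iff_eq_or_eq_neg.1 (show _ = (2 : k) ^ 2 by rw [e]; norm_num) with e | e
      · exact Or.inr (by linear_combination e + three_eq (k := k) (f0 h hu hv e h1))
      · exact Or.inl (by linear_combination e - three_eq (k := k) (f0 h (hu.neg h.toSt) hv (by simp [e]) h2)),
    fun _ _ _ => tri h, fun h3 _ _ _ _ => a2 h h3, fun _ => rt_irr h.toSt,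
    fun I i1 im ir _ _ => rt_inv h.toSt I i1 im ir⟩)

end Cfsg.Agent.H3.S4
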