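import Cfsg.Agent.Orth.Ext4

/-! `Ω_3(q^r).r` in `Ω_{3r}(q)`, part 1: field lemmas and transfer. -/

set_option autoImplicit false
set_option linter.unusedSectionVars false

namespace Cfsg.Agent.H3

open Module Cfsg.Agent.Orth

theorem exists_transfer {G A : Type*} [Group G] [Finite G] [CommGroup A] (N : Subgroup G)
    (θ : N →* A) : ∃ lam : G →* A,
    (∀ g, lam g ≠ 1 → ∃ (x : G) (k : ℕ) (h : x⁻¹ * g ^ k * x ∈ N), θ ⟨_, h⟩ ≠ 1) ∧
    ∀ t : N, (∀ (x : G) (k : ℕ) (h : x⁻¹ * (t : G) ^ k * x ∈ N), x ∉ N → θ ⟨_, h⟩ = 1) →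
      lam t = θ t := by
  classical
  refine ⟨MonoidHom.transfer θ, fun g hg => ?_, fun t ht => ?_⟩
  · have := Fintype.ofFinite (Quotient (MulAction.orbitRel (Subgroup.zpowers g) (G ⧸ N)))
    rw [MonoidHom.transfer_eq_prod_quotient_orbitRel_zpowers_quot] at hg
    obtain ⟨q, -, hq⟩ := Finset.exists_ne_one_of_prod_ne_one hg
    exact ⟨_, _, _, hq⟩
  · have := Fintype.ofFinite (Quotient (MulAction.orbitRel (Subgroup.zpowers (t : G)) (G ⧸ N)))
    rw [MonoidHom.transfer_eq_prod_quotient_orbitRel_zpowers_quot]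
    have fx : ∀ s : Subgroup.zpowers (t : G), s • ((1 : G) : G ⧸ N) = ((1 : G) : G ⧸ N) := fun s => by
      change ((s * 1 : G) : G ⧸ N) = _
      rw [QuotientGroup.eq]
      simpa using Subgroup.zpowers_le.2 t.2 s.2
    rw [Finset.prod_eq_single (Quotient.mk'' ((1 : G) : G ⧸ N))]
    · obtain ⟨s, hs⟩ : (Quotient.mk'' ((1 : G) : G ⧸ N) : Quotient (MulAction.orbitRel
          (Subgroup.zpowers (t : G)) (G ⧸ N))).out ∈ MulAction.orbit (Subgroup.zpowers (t : G))
          ((1 : G) : G ⧸ N) := MulAction.orbitRel_apply.1 (Quotient.mk_out' _)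
      simp only [fx] at hs
      have h1 : (((1 : G) : G ⧸ N)).out ∈ N := by
        simpa using QuotientGroup.eq.1 (QuotientGroup.out_eq' ((1 : G) : G ⧸ N)).symm
      have h2 : Function.minimalPeriod ((t : G) • ·) ((1 : G) : G ⧸ N) = 1 :=
        Function.minimalPeriod_eq_one_iff_isFixedPt.2 (fx ⟨t, Subgroup.mem_zpowers _⟩)
      have : θ ((⟨_, h1⟩ : N)⁻¹ * t * ⟨_, h1⟩) = θ t := by
        rw [map_mul, map_mul, map_inv, mul_right_comm, inv_mul_cancel, one_mul]
      rw [← this]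
      congr 1
      ext
      simp [← hs, h2]
    · intro q _ hq
      refine ht _ _ _ fun h => hq ?_
      rw [← q.out_eq', ← q.out.out_eq']
      congr 1
      rw [QuotientGroup.eq]; simpa using h
    · simp

lemma quad_zero {F : Type*} [Field F] (h2 : (2 : F) ≠ 0) {a b c n : F} (hn : (3 : F) = 0 → n = 0)
    (h : ∀ s, a * (s * s) + b * s + c = n ∨ a * (s * s) + b * s + c = 0) : a = 0 := by
  by_cases h3 : (3 : F) = 0
  · simp only [hn h3, or_self] at h
    exact mul_left_cancel₀ h2 (by linear_combination h 1 + h (-1) - 2 * h 0)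
  · have k : ∀ s, (a * (s * s) + b * s + c - n) * (a * (s * s) + b * s + c) = 0 := fun s => by
      rcases h s with e | e <;> simp [e]
    have : 2 * 2 * 2 * 3 * (a * a) = 0 := by
      linear_combination k 2 - 4 * k 1 + 6 * k 0 - 4 * k (-1) + k (-2)
    simpa [h2, h3] using this

section fld
variable {F K : Type*} [Field F] [Field K] [Algebra F K] [FiniteDimensional F K]

lemma sqF (ho : Odd (finrank F K)) {z : K} {c : F} (h : z * z = algebraMap F K c) :
    ∃ d, z = algebraMap F K d := by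
  obtain ⟨j, hj⟩ := ho
  by_cases hc : c = 0
  · exact ⟨0, by simpa [hc] using h⟩
  have h1 := congrArg (fun x => algebraMap F K (Algebra.norm F x)) h
  simp only [map_mul, Algebra.norm_algebraMap, hj, map_pow] at h1
  have hc' : algebraMap F K c ^ j ≠ 0 := pow_ne_zero _ (by simpa using hc)
  have : (algebraMap F K (Algebra.norm F z) - z * algebraMap F K c ^ j) *
      (algebraMap F K (Algebra.norm F z) + z * algebraMap F K c ^ j) = 0 := by
    linear_combination h1 - algebraMap F K c ^ (2 * j) * h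
  rcases mul_eq_zero.1 this with e | e
  · exact ⟨Algebra.norm F z / c ^ j, by rw [map_div₀, map_pow, eq_div_iff hc']; linear_combination -e⟩
  · exact ⟨-Algebra.norm F z / c ^ j, by
      rw [map_div₀, map_pow, eq_div_iff hc', map_neg]; linear_combination e⟩

lemma exists_sq_mul [Finite F] [Finite K] (h2 : (2 : F) ≠ 0) (ho : Odd (finrank F K)) {y : K}
    (hy : y ≠ 0) : ∃ c : F, c ≠ 0 ∧ ∃ μ : K, μ ≠ 0 ∧ y = algebraMap F K c * (μ * μ) := by
  classical
  have := Fintype.ofFinite F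
  have := Fintype.ofFinite K
  by_cases hs : IsSquare y
  · obtain ⟨μ, rfl⟩ := hs
    exact ⟨1, one_ne_zero, μ, fun h => hy (by simp [h]), by simp⟩
  obtain ⟨ν, hν⟩ := FiniteField.exists_nonsquare (F := F) (fun h => h2 (by
    have := ringChar.Nat.cast_ringChar (R := F); rw [h] at this; exact_mod_cast this))
  have h0 : ν ≠ 0 := by rintro rfl; simp at hν
  have h0' : algebraMap F K ν ≠ 0 := by simpa using h0
  have hK : ¬ IsSquare (algebraMap F K ν) := fun ⟨z, hz⟩ => by
    obtain ⟨d, rfl⟩ := sqF ho hz.symm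
    exact hν ⟨d, (algebraMap F K).injective (by rw [hz, map_mul])⟩
  have := (quadraticChar_one_iff_isSquare (mul_ne_zero hy h0')).1 (by
    rw [map_mul, quadraticChar_neg_one_iff_not_isSquare.2 hs,
      quadraticChar_neg_one_iff_not_isSquare.2 hK]; norm_num)
  obtain ⟨μ, hμ⟩ := this
  exact ⟨ν⁻¹, inv_ne_zero h0, μ, fun h => by simp [h, hy, h0] at hμ, by
    rw [← hμ, map_inv₀]; field_simp⟩

lemma eq_mul_of_comm (hp : (finrank F K).Prime) {ζ : Module.End F K} {k : K}
    (hk : ∀ α, k ≠ algebraMap F K α) (h : ∀ y, ζ (k * y) = k * ζ y) (y : K) : ζ y = ζ 1 * y := by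
  let S : Subalgebra F K :=
    { carrier := {k | ∀ x, ζ (k * x) = k * ζ x}
      mul_mem' := fun {a b} ha hb x => by rw [mul_assoc, ha, hb, mul_assoc]
      add_mem' := fun {a b} ha hb x => by rw [add_mul, map_add, ha, hb, add_mul]
      algebraMap_mem' := fun c x => by rw [← Algebra.smul_def, ← Algebra.smul_def, map_smul] }
  simpa [mul_comm] using subalgebra_eq_top hp S h hk y 1

lemma exists_notF (hp : (finrank F K).Prime) : ∃ k : K, ∀ α, k ≠ algebraMap F K α := by
  have := finrank_span_singleton_le (F := F) (1 : K)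
  have := hp.two_le
  obtain ⟨k, -, hk⟩ := exists_mem_notMem_of_finrank_lt (H := ⊤) (X := F ∙ (1 : K))
    (by rw [finrank_top]; omega)
  exact ⟨k, fun α h => hk (Submodule.mem_span_singleton.2
    ⟨α, by rw [h, Algebra.algebraMap_eq_smul_one]⟩)⟩

lemma sq_nondeg (h2 : (2 : F) ≠ 0) {τ : K →ₗ[F] F} (hτ : ∃ c, τ c ≠ 0) {c : K}
    (h : ∀ y, τ (c * (y * y)) = 0) : c = 0 := tau_nondeg hτ fun k => by
  have := h (k + 1)
  rw [show c * ((k + 1) * (k + 1)) = c * (k * k) + c * (1 * 1) + k * c + k * c by ring,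
    map_add, map_add, map_add, h, h] at this
  exact mul_left_cancel₀ h2 (by linear_combination this)

/-- a semilinear map has trace zero -/
lemma trace_semi {V : Type*} [AddCommGroup V] [Module F V] [Module K V] [IsScalarTower F K V]
    {g : V →ₗ[F] V} {σ : K ≃ₐ[F] K} (hσ : σ ≠ 1) (h : ∀ (a : K) x, g (a • x) = σ a • g x) :
    LinearMap.trace F V g = 0 := by
  obtain ⟨b, hb⟩ : ∃ b, σ b ≠ b := by
    by_contra e; push Not at e; exact hσ (AlgEquiv.ext e)
  let m : K → V →ₗ[F] V := fun a => (LinearMap.lsmul K V a).restrictScalars F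
  have e : g = m (σ b - b)⁻¹ * g * m b - m b * (m (σ b - b)⁻¹ * g) := by
    ext x
    simp only [m, LinearMap.sub_apply, Module.End.mul_apply, LinearMap.restrictScalars_apply,
      LinearMap.lsmul_apply, h, smul_smul, ← sub_smul]
    rw [mul_comm b, ← mul_sub, inv_mul_cancel₀ (sub_ne_zero.2 hb), one_smul]
  rw [e, map_sub, LinearMap.trace_mul_comm, sub_self]

lemma chi_zero (h2 : (2 : F) ≠ 0) (h3 : 3 ≤ finrank F K) {τ : K →ₗ[F] F} (hτ : ∃ c, τ c ≠ 0)
    {n α c₀ : F} (hn : (3 : F) = 0 → n = 0) (l χ : K →ₗ[F] F)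
    (h : ∀ w, τ w ≠ c₀ → α + l w + χ (w * w) = n ∨ α + l w + χ (w * w) = 0) : χ = 0 := by
  obtain ⟨c, hc⟩ := id hτ
  obtain ⟨y₀, hy₀⟩ : ∃ y, τ y = 1 := ⟨(τ c)⁻¹ • c, by simp [hc]⟩
  have h1 : ∀ w, τ w = 0 → χ (w * w) = 0 := fun w hw => by
    set w₀ := (c₀ + 1) • y₀
    refine quad_zero h2 (b := l w + 2 * χ (w₀ * w)) (c := α + l w₀ + χ (w₀ * w₀)) hn fun s => ?_
    have := h (w₀ + s • w) (by simp [w₀, hy₀, hw])
    have e : α + l (w₀ + s • w) + χ ((w₀ + s • w) * (w₀ + s • w)) = χ (w * w) * (s * s) +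
        (l w + 2 * χ (w₀ * w)) * s + (α + l w₀ + χ (w₀ * w₀)) := by
      simp only [mul_add, add_mul, map_add, smul_mul_assoc, mul_smul_comm, map_smul, smul_eq_mul,
        mul_comm w w₀]
      ring
    rwa [e] at this
  obtain ⟨e, he⟩ := exists_tau_mul hτ χ
  by_contra hχ
  have he0 : e ≠ 0 := by rintro rfl; exact hχ (LinearMap.ext fun k => by simp [he])
  have d1 := LinearMap.finrank_range_add_finrank_ker τ
  have d2 := Submodule.finrank_le (LinearMap.range τ)
  have d3 := finrank_span_singleton_le (F := F) e⁻¹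
  rw [finrank_self] at d2
  obtain ⟨w, hw, hwe⟩ := exists_mem_notMem_of_finrank_lt (H := LinearMap.ker τ) (X := F ∙ e⁻¹)
    (by omega)
  have h4 : ∀ y, τ y = 0 → τ (e * w * y) = 0 := fun y hy => by
    have := h1 (w + y) (by simp [hy, LinearMap.mem_ker.1 hw])
    rw [show (w + y) * (w + y) = w * w + y * y + w * y + w * y by ring, map_add, map_add, map_add,
      h1 w hw, h1 y hy, he, ← mul_assoc] at this
    exact mul_left_cancel₀ h2 (by linear_combination this)
  have h5 : e * w - algebraMap F K (τ (e * w * y₀)) = 0 := tau_nondeg hτ fun k => by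
    have := h4 (k - τ k • y₀) (by simp [hy₀])
    rw [mul_sub, map_sub, mul_smul_comm, map_smul] at this
    rw [mul_sub, map_sub, mul_comm k, mul_comm k, ← Algebra.smul_def, map_smul]
    simp only [smul_eq_mul] at this ⊢
    linear_combination this
  refine hwe (Submodule.mem_span_singleton.2 ⟨τ (e * w * y₀), ?_⟩)
  rw [Algebra.smul_def, ← sub_eq_zero.1 h5]; field_simp

/-- torus invariant groups of alternating maps -/
theorem alt_surj [Finite F] [Finite K] (h2 : (2 : F) ≠ 0) (hp : (finrank F K).Prime)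
    (ho : Odd (finrank F K)) {τ : K →ₗ[F] F} (hτ : ∃ c, τ c ≠ 0)
    (Z : AddSubgroup (Module.End F K)) (alt : ∀ ζ ∈ Z, ∀ y, τ (y * ζ y) = 0)
    (tor : ∀ ζ ∈ Z, ∀ μ : K, μ ≠ 0 → LinearMap.mul F K (μ * μ) * ζ * LinearMap.mul F K (μ * μ) ∈ Z)
    {ζ₀ : Module.End F K} (h0 : ζ₀ ∈ Z) (hne : ζ₀ ≠ 0) {v a : K} (hv : v ≠ 0)
    (ha : τ (a * v) = 0) : ∃ ζ ∈ Z, ζ v = a := by
  have h2K : (2 : K) ≠ 0 := by
    rw [← map_ofNat (algebraMap F K) 2]; exact (map_ne_zero _).2 h2
  have z1 : ∀ ζ ∈ Z, ∀ k : K, (∀ α, k ≠ algebraMap F K α) → (∀ y, ζ (k * y) = k * ζ y) → ζ = 0 := by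
    intro ζ hζ k hk h
    have e := eq_mul_of_comm hp hk h
    have : ζ 1 = 0 := sq_nondeg h2 hτ fun y => by rw [← alt ζ hζ y, e y]; congr 1; ring
    ext y; rw [e y, this]; simp
  let m := LinearMap.mul F K
  let S : K → Module.End F K := fun μ => m (μ * μ) * ζ₀ * m (μ * μ)
  have hS : ∀ μ, S μ ∈ Z := fun μ => by
    by_cases hμ : μ = 0
    · simp [S, hμ]
    · exact tor _ h0 μ hμ
  let Δ : K → Module.End F K → Module.End F K := fun a ζ => m a * ζ - ζ * m a
  have d1 : ∀ a, (16 : K) • Δ a (Δ a ζ₀) ∈ Z := fun a => by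
    have e1 : ∀ x, (24 : K) • (m x * ζ₀ + ζ₀ * m x) ∈ Z := fun x => by
      convert Z.sub_mem (Z.nsmul_mem (Z.sub_mem (hS (x + 1)) (hS (x - 1))) 8)
        (Z.sub_mem (hS (x + x + 1)) (hS (x + x - 1))) using 1
      ext y
      simp only [S, m, mul_add, add_mul, mul_sub, sub_mul, mul_one, one_mul, map_add, map_sub,
        LinearMap.smul_apply, LinearMap.add_apply, LinearMap.sub_apply, Module.End.mul_apply,
        LinearMap.mul_apply']
      simp only [smul_eq_mul, nsmul_eq_mul]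
      ring
    convert Z.sub_mem (e1 (a * a)) (Z.nsmul_mem (Z.sub_mem (Z.add_mem (hS (a + 1)) (hS (a - 1)))
      (Z.nsmul_mem (Z.add_mem (hS a) (hS 1)) 2)) 4) using 1
    ext y
    simp only [S, m, Δ, mul_add, add_mul, mul_sub, sub_mul, mul_one, one_mul, map_add, map_sub,
      LinearMap.smul_apply, LinearMap.add_apply, LinearMap.sub_apply, Module.End.mul_apply,
      LinearMap.mul_apply', ← mul_assoc]
    simp only [smul_eq_mul, nsmul_eq_mul]
    ring
  let Z' : Submodule F (Module.End F K) :=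
    { carrier := {ζ | ∀ c : F, c • ζ ∈ Z}
      add_mem' := fun ha hb c => by rw [smul_add]; exact add_mem (ha c) (hb c)
      zero_mem' := fun c => by simp
      smul_mem' := fun c x hx c' => by rw [smul_smul]; exact hx _ }
  obtain ⟨b, hb⟩ := exists_notF hp
  have d2 : Δ b (Δ b ζ₀) ∈ Z' := fun c => by
    have h32 : algebraMap F K (c / 32) * 32 = algebraMap F K c := by
      rw [← map_ofNat (algebraMap F K) 32, ← map_mul, div_mul_cancel₀]
      rw [show (32 : F) = 2 ^ 5 by norm_num]; exact pow_ne_zero _ h2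
    convert Z.sub_mem (Z.sub_mem (d1 ((c / 32) • b + b)) (d1 ((c / 32) • b))) (d1 b) using 1
    ext y
    simp only [m, Δ, mul_add, add_mul, mul_sub, sub_mul, map_add,
      LinearMap.smul_apply, LinearMap.add_apply, LinearMap.sub_apply, Module.End.mul_apply,
      LinearMap.mul_apply', smul_eq_mul, smul_mul_assoc, mul_smul_comm, map_smul]
    simp only [Algebra.smul_def, ← h32]
    ring
  have d3 : Δ b (Δ b ζ₀) ≠ 0 := fun h => by
    have e := eq_mul_of_comm hp (ζ := Δ b ζ₀) hb fun y => by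
      have := LinearMap.congr_fun h y
      simp only [Δ, m, LinearMap.sub_apply, Module.End.mul_apply, LinearMap.mul_apply',
        LinearMap.zero_apply] at this ⊢
      linear_combination -this
    have e2 : Δ b ζ₀ 1 = 0 := (traceForm_nondegenerate F K).1 _ fun k => by
      have : m (Δ b ζ₀ 1 * k) = m b * (m k * ζ₀) - m k * ζ₀ * m b := by
        ext y
        have := e y
        simp only [Δ, m, LinearMap.sub_apply, Module.End.mul_apply, LinearMap.mul_apply'] at this ⊢
        linear_combination -k * this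
      change LinearMap.trace F K (m (Δ b ζ₀ 1 * k)) = 0
      rw [this, map_sub, LinearMap.trace_mul_comm, sub_self]
    refine hne (z1 _ h0 b hb fun y => ?_)
    have := e y
    rw [e2] at this
    simp only [Δ, m, LinearMap.sub_apply, Module.End.mul_apply, LinearMap.mul_apply'] at this
    linear_combination -this
  by_contra hc
  obtain ⟨φ, h1, h3⟩ := Submodule.exists_dual_map_eq_bot_of_notMem
    (p := Z'.map (LinearMap.applyₗ v)) (x := a)
    (fun ⟨ζ, hζ, e⟩ => hc ⟨ζ, by simpa using hζ 1, e⟩) inferInstance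
  obtain ⟨x, hx⟩ := exists_tau_mul hτ φ
  have h4 : ∀ ζ ∈ Z', τ (x * ζ v) = 0 := fun ζ hζ => by
    have : φ (ζ v) ∈ (Z'.map (LinearMap.applyₗ v)).map φ := ⟨_, ⟨ζ, hζ, rfl⟩, rfl⟩
    rwa [h3, Submodule.mem_bot, hx] at this
  set ζ := Δ b (Δ b ζ₀)
  have hZ : ζ ∈ Z := by simpa using d2 1
  have h5 : ∀ y, τ (x / v * y * ζ y) = 0 := fun y => by
    by_cases hy : y = 0
    · simp [hy]
    obtain ⟨c, -, μ, hμ, e⟩ := exists_sq_mul h2 ho (div_ne_zero hy hv)
    have := h4 (m (μ * μ) * ζ * m (μ * μ)) fun c => by simpa using tor _ (d2 c) μ hμ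
    rw [div_eq_iff hv] at e
    rw [e, mul_assoc (algebraMap F K c), ← Algebra.smul_def, map_smul, mul_smul_comm, mul_smul_comm,
      smul_mul_assoc, map_smul, map_smul, show x / v * (μ * μ * v) * ζ (μ * μ * v) =
        x * (μ * μ * ζ (μ * μ * v)) by field_simp]
    simp only [m, Module.End.mul_apply, LinearMap.mul_apply'] at this
    simp [this]
  refine d3 (z1 _ hZ (x / v) (fun α hα => h1 ?_) fun y => sub_eq_zero.1 (tau_nondeg hτ fun k => ?_))
  · rw [div_eq_iff hv] at hα
    rw [hx, hα, mul_assoc, ← Algebra.smul_def, map_smul, mul_comm, ha, smul_zero]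
  · have a1 := h5 (y + k)
    have a2 := alt ζ hZ (x / v * y + k)
    simp only [map_add, mul_add, add_mul, h5, alt ζ hZ] at a1 a2
    rw [mul_sub, map_sub, show k * (x / v * ζ y) = x / v * k * ζ y by ring]
    linear_combination a2 - a1

end fld

end Cfsg.Agent.H3
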