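import Cfsg.Agent.H3.X1

/-! `Ω_3(q^r).r` in `Ω_{3r}(q)`, part 2 (adapted from `Orth/Ext2`). -/

set_option autoImplicit false
set_option linter.unusedSectionVars false

namespace Cfsg.Agent.H3

open Module Cfsg.Agent.Orth

variable {F V : Type*} [Field F] [AddCommGroup V] [Module F V]
  {K : Type*} [Field K] [Algebra F K] [Module K V] [IsScalarTower F K V] {Q : QuadraticForm F V}

/-- a hyperbolic frame over `K` -/
structure Fr (D : XD Q K) (u : V) where
  n : V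
  f : V
  κ : F
  hu : D.QK u = 0
  hf : D.QK f = 0
  uf : B D.QK u f = 1
  un : B D.QK u n = 0
  fn : B D.QK f n = 0
  hn : D.QK n = algebraMap F K κ
  hκ : κ ≠ 0
  dec : ∀ v, ∃ a b c : K, v = a • u + b • n + c • f

/-- overgroups of the normaliser of `K` -/
structure G3 (D : XD Q K) (M : Subgroup (V ≃ₗ[F] V)) : Prop where
  le : M ≤ EO Q
  hH : ∀ g ∈ EO Q, SemiK K g → g ∈ M
  hm : finrank K V = 3
  odd : Odd (finrank F K)
  tr : D.τ = Algebra.trace F K

variable {D : XD Q K} {M : Subgroup (V ≃ₗ[F] V)}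

namespace Fr
variable {u : V} (Φ : Fr D u)
include Φ

lemma uu : B D.QK u u = 0 := B_self_of_sing _ Φ.hu
lemma ff : B D.QK Φ.f Φ.f = 0 := B_self_of_sing _ Φ.hf
lemma fu : B D.QK Φ.f u = 1 := by rw [B_comm, Φ.uf]
lemma nu : B D.QK Φ.n u = 0 := by rw [B_comm, Φ.un]
lemma nf : B D.QK Φ.n Φ.f = 0 := by rw [B_comm, Φ.fn]
lemma nn : B D.QK Φ.n Φ.n = 2 * algebraMap F K Φ.κ := by rw [B_self, Φ.hn]
lemma hκ' : algebraMap F K Φ.κ ≠ 0 := by simpa using Φ.hκ
lemma u0 : u ≠ 0 := fun h => by simpa [h] using Φ.uf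
lemma un' (w : K) : B D.QK u (w • Φ.n) = 0 := by simp [Φ.un]

lemma exists_Q : ∃ w : K, Q (w • Φ.n) ≠ 0 := by
  have : FiniteDimensional F K := Module.finite_of_finrank_pos D.prime.pos
  by_contra h
  push Not at h
  exact Φ.hκ' (sq_nondeg D.two D.hτ fun y => by rw [← h y, D.hQ, Q_smul, Φ.hn, mul_comm])

end Fr

variable [Finite F] [Finite K] [FiniteDimensional F V] [FiniteDimensional K V]

lemma G3.leO (G : G3 D M) : M ≤ O Q := G.le.trans EO_le_O

lemma G3.lin (G : G3 D M) (g : V ≃ₗ[K] V) (h : res F g ∈ EO Q) : res F g ∈ M :=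
  G.hH _ h fun a => ⟨a, fun x => map_smul g a x⟩

lemma G3.T (G : G3 D M) {u w : V} (hu : D.QK u = 0) (hw : B D.QK u w = 0) :
    res F (eich D.QK u w) ∈ M := G.lin _ (D.T_mem G.hm.ge hu hw)

lemma G3.RR (G : G3 D M) {a b : V} (h : D.QK a = D.QK b) :
    res F (refl D.QK a * refl D.QK b) ∈ M := G.lin _ (D.RR_mem G.hm.ge h)

lemma G3.three_le (G : G3 D M) : 3 ≤ finrank F K := by
  have := D.two_le
  obtain ⟨j, hj⟩ := G.odd
  omega

lemma G3.fr (G : G3 D M) {u : V} (hu : D.QK u = 0) (hu0 : u ≠ 0) : Nonempty (Fr D u) := by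
  obtain ⟨f, hf, huf⟩ := XD.exists_partnerK hu hu0
  have hU := ndOn_pair hu (v := f) (by simp [huf])
  have d1 := D.ndK.finrank_perp (Submodule.span K {u, f})
  have d2 := finrank_span_pair_le (F := K) u f
  have d3 := G.hm
  have d4 : 2 ≤ finrank K (Submodule.span K {u, f}) := by
    have := finrank_span_singleton hu0 (K := K)
    have := Submodule.finrank_lt_finrank_of_lt (s := K ∙ u) (t := Submodule.span K {u, f})
      (lt_of_le_of_ne (Submodule.span_mono (by simp)) fun h => by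
        have : f ∈ K ∙ u := h ▸ Submodule.subset_span (by simp)
        obtain ⟨c, rfl⟩ := Submodule.mem_span_singleton.1 this
        simp [B_self_of_sing _ hu] at huf)
    omega
  obtain ⟨n, hn, hq⟩ := (hU.perp D.ndK).exists_nonsing le_rfl (by omega)
  obtain ⟨c, hc, μ, hμ, e⟩ := exists_sq_mul D.two G.odd hq
  have hn' := Submodule.smul_mem _ μ⁻¹ hn
  have n0 : μ⁻¹ • n ≠ 0 := smul_ne_zero (inv_ne_zero hμ) (by rintro rfl; simp at hq)
  refine ⟨⟨μ⁻¹ • n, f, c, hu, hf, huf, mem_perp_span.1 hn' u (by simp),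
    mem_perp_span.1 hn' f (by simp), by rw [Q_smul, e]; field_simp, hc, fun v => ?_⟩⟩
  obtain ⟨y, hy, x, hx, rfl⟩ := hU.exists_decomp v
  obtain ⟨a, b, rfl⟩ := Submodule.mem_span_pair.1 hy
  rw [← Submodule.eq_of_le_of_finrank_le (S₁ := K ∙ (μ⁻¹ • n))
    ((Submodule.span_singleton_le_iff_mem _ _).2 hn')
    (by rw [finrank_span_singleton n0]; omega)] at hx
  obtain ⟨d, rfl⟩ := Submodule.mem_span_singleton.1 hx
  exact ⟨a, d, b, by abel⟩

theorem G3.EO_le_of_AU (G : G3 D M) {u : V} (hu : D.QK u = 0) (hu0 : u ≠ 0)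
    (h : ∀ l ∈ KL F K u, ∀ w ∈ perp Q (KL F K u), eich Q l w ∈ M) : EO Q ≤ M := by
  obtain ⟨Φ⟩ := G.fr hu hu0
  have he := Φ.hf
  have hue := Φ.uf
  have heu := Φ.fu
  set e := Φ.f with hedef
  have hqe : Q e = 0 := by rw [D.hQ, he, map_zero]
  have Pe : ∀ w ∈ perp Q (KL F K e), w ∈ AU Q M e := by
    intro w hw
    set κ := algebraMap F K Φ.κ
    have hq : D.QK (e - (-κ) • u) = κ := by simp [Q_add, Q_smul, he, hu, heu]
    have hgM := G.RR (Φ.hn.trans hq.symm)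
    have hg : refl D.QK Φ.n * refl D.QK (e - (-κ) • u) ∈ O D.QK :=
      mul_mem (refl_mem_O _ _) (refl_mem_O _ _)
    have hge : (refl D.QK Φ.n * refl D.QK (e - (-κ) • u)) ((-κ) • u) = e := by
      rw [mul_app, refl_sub_apply (by rw [Q_smul, hu, he, mul_zero]) (hq.trans_ne Φ.hκ'),
        refl_of_perp Φ.nf]
    generalize refl D.QK Φ.n * refl D.QK (e - (-κ) • u) = g at hgM hg hge
    have h1 : B D.QK ((-κ) • u) (g⁻¹ w) = 0 := by rw [← O_B_inv hg, hge]; exact D.mem_perp.1 hw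
    have := AU_map G.leO hgM (u := (-κ) • u) (w := g⁻¹ w) ⟨D.B_of_BK h1, h _ (smul_mem_KL _ u) _
      (D.mem_perp.2 (by simpa [κ, Φ.hκ] using h1))⟩
    rw [res_apply, hge] at this
    simpa using this
  let Y : Submodule F V :=
    { carrier := {x | ∀ c : F, c • x ∈ AU Q M e}
      add_mem' := fun ha hb c => by rw [smul_add]; exact add_mem (ha c) (hb c)
      zero_mem' := fun c => by simp
      smul_mem' := fun c x hx c' => by rw [smul_smul]; exact hx _ }
  have hY : perp Q (KL F K e) ≤ Y := fun x hx c => Pe _ (Submodule.smul_mem _ c hx)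
  have hperp : perp Q Y ≤ F ∙ e := by
    intro z hz
    have h1 := perp_anti hY hz
    rw [D.nd.perp_perp] at h1
    obtain ⟨k, rfl⟩ := mem_KL.1 h1
    by_contra hk
    obtain ⟨x, hx, hne⟩ := D.nd.exists_perp_B_ne hk
    set l := B D.QK e x • u with hl
    have hel : B D.QK e l = B D.QK e x := by simp [hl, heu]
    have hlu : l ∈ KL F K u := smul_mem_KL _ _
    have b1 : B Q l e = 0 := by
      rw [B_comm, D.hB, hel, ← D.hB]; exact mem_perp_span_singleton.1 hx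
    have b2 : B Q l (k • e) ≠ 0 := by rwa [B_comm, D.hB_smul, hel, ← D.hB_smul]
    have hy1 := Φ.un
    have hy2 : B D.QK e Φ.n = 0 := Φ.fn
    have hy3 := Φ.hn
    set y := Φ.n
    have hyu : y ∈ perp Q (KL F K u) := D.mem_perp.2 hy1
    have hg := h l hlu y hyu
    have hge : eich Q l y e = e := eich_apply_of_perp b1 (D.B_of_BK (by rwa [B_comm]))
    have h2 : (perp Q (KL F K e)).map (eich Q l y : V →ₗ[F] V) ≤ Y := by
      rintro _ ⟨w, hw, rfl⟩ c
      simpa using AU_fix G.leO hg hge (Pe _ (Submodule.smul_mem _ c hw))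
    have h3 := perp_anti h2 hz
    rw [perp_map (eich_mem_O _ _), D.nd.perp_perp] at h3
    obtain ⟨_, hx', h4⟩ := h3
    obtain ⟨k', rfl⟩ := mem_KL.1 hx'
    rw [LinearEquiv.coe_coe, eich_apply (D.ts hu l hlu) (hyu l hlu)] at h4
    have h5 := congrArg (B D.QK u) h4
    have h6 := congrArg (B D.QK y) h4
    have hyl : B D.QK y l = 0 := by rw [hl, map_smul, B_comm D.QK y u, hy1, smul_zero]
    simp only [map_sub, map_add, D.BK_fsmul, map_smul, hue, hy1, D.BK_KL hu hlu, smul_eq_mul,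
      mul_zero, mul_one, add_zero, sub_zero] at h5
    simp only [map_sub, map_add, D.BK_fsmul, map_smul, B_comm D.QK y e, hy2, hyl, B_self, hy3,
      smul_eq_mul, mul_zero, mul_one, zero_add, sub_zero, mul_eq_zero, D.twoK, or_false,
      map_eq_zero, Φ.hκ] at h6
    exact b2 (h5 ▸ h6)
  have hfull : Full Q M e := by
    intro w hw
    have := perp_anti hperp (mem_perp_span_singleton.2 hw)
    rw [D.nd.perp_perp] at this
    simpa using (this 1).2
  obtain ⟨w, hw⟩ := Φ.exists_Q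
  refine EO_le_of_full_of_move D.nd (D.dimF G.hm.ge) G.leO hqe hfull (G.T hu (Φ.un' w)) ?_
  rw [res_apply, eich_apply hu (Φ.un' w), D.hB]
  rw [D.hQ] at hw
  simpa [Φ.uf, Φ.fu, Φ.nf, hedef, Φ.ff, Φ.fn] using hw

lemma G3.T_NN (G : G3 D M) {u w : V} (hu : D.QK u = 0) (hw : B D.QK u w = 0) :
    (B D.QK w).restrictScalars F ∈ D.NN M hu := by
  refine ⟨fun x hx => ?_, _, G.T hu (w := -w) (by simp [hw]), fun x hx => ?_⟩
  · obtain ⟨a, rfl⟩ := mem_KL.1 hx
    simp [B_comm D.QK w u, hw]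
  · rw [res_apply, eich_apply_of_perp_left hu (by simp [hw]) hx]; simp

theorem G3.EO_le_of_NN (G : G3 D M) {u : V} (hu : D.QK u = 0) (hu0 : u ≠ 0)
    (h : ∀ w, B D.QK u w = 0 → ∀ c : K, (B Q w).smulRight c ∈ D.NN M hu) : EO Q ≤ M := by
  refine G.EO_le_of_AU hu hu0 (eich_mem_of_induced D.nd (D.ts hu) G.leO ?_ fun l hl w hw => ?_)
  · obtain ⟨Φ⟩ := G.fr hu hu0
    obtain ⟨w, hw⟩ := Φ.exists_Q
    exact ⟨_, D.mem_perp.2 (Φ.un' w), _, D.mem_perp.2 (Φ.un' w), by
      rw [B_self]; exact mul_ne_zero D.two hw⟩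
  · obtain ⟨c, rfl⟩ := mem_KL.1 hl
    obtain ⟨-, ρ, hρ, h2⟩ := h w (D.mem_perp.1 hw) (-c)
    refine ⟨ρ, hρ, fun x hx => ?_⟩
    rw [h2 x (D.mem_perp.1 hx), LinearMap.smulRight_apply, smul_assoc, neg_smul, smul_neg,
      sub_eq_add_neg]

lemma G3.tor (G : G3 D M) {u : V} (hu : D.QK u = 0) (hu0 : u ≠ 0) :
    ∀ μ : K, μ ≠ 0 → ∃ h ∈ O D.QK, res F h ∈ M ∧ (∀ k : K, h (k • u) = (μ * μ * k) • u) ∧
      ∀ x, B D.QK u x = 0 → h x - x ∈ KL F K u := by
  obtain ⟨f, hf, huf⟩ := XD.exists_partnerK hu hu0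
  have hfu : B D.QK f u = 1 := by rwa [B_comm]
  intro μ hμ
  set g := refl D.QK (f - μ • u) * refl D.QK (f - u) with hg
  have hgO : g ∈ O D.QK := mul_mem (refl_mem_O _ _) (refl_mem_O _ _)
  have g1 : g u = μ • u := by
    have e1 : refl D.QK (f - u) u = f :=
      refl_sub_apply (by rw [hu, hf]) (by simp [Q_sub, hu, hf, hfu])
    have e2 : refl D.QK (f - μ • u) (μ • u) = f :=
      refl_sub_apply (by rw [Q_smul, hu, hf, mul_zero]) (by simp [Q_sub, Q_smul, hu, hf, hfu, hμ])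
    rw [hg, mul_app, e1]
    nth_rewrite 2 [← e2]
    rw [refl_refl]
  have g2 : ∀ x, B D.QK u x = 0 → g x - x ∈ KL F K u := by
    intro x hx
    have h0 : g (x - B D.QK f x • u) = x - B D.QK f x • u := by
      rw [hg, mul_app, refl_of_perp (a := f - u), refl_of_perp] <;>
        simp [hx, hfu, B_self_of_sing _ hu]
    rw [map_sub, map_smul, g1, sub_eq_iff_eq_add] at h0
    rw [h0, show ∀ a b c : V, a - b + c - a = c - b from fun a b c => by abel]
    exact sub_mem (KL_smul_mem (smul_mem_KL _ _) _) (smul_mem_KL _ _)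
  refine ⟨_, mul_mem hgO hgO, G.lin _ (D.sq_mem G.hm.ge hgO), fun k => ?_, fun x hx => ?_⟩
  · rw [map_smul, mul_app, g1, map_smul, g1, smul_smul, smul_smul]
    congr 1; ring
  · have h1 := g2 x hx
    have h2 := g2 (g x) (by simpa [hx] using D.BK_KL hu h1)
    simpa using add_mem h2 h1

theorem G3.EO_le_of_not_star (G : G3 D M) (h : ¬ D.Star M) : EO Q ≤ M := by
  simp only [XD.Star, not_forall] at h
  obtain ⟨u, hu, hu0, s, hs, hsL, a, ha⟩ := h
  obtain ⟨f, hf, huf⟩ := XD.exists_partnerK hu hu0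
  have hfu : B D.QK f u = 1 := by rwa [B_comm]
  let A : Subring (Module.End F K) :=
    { carrier := {α | ∀ n ∈ D.NN M hu, α ∘ₗ n ∈ D.NN M hu}
      mul_mem' := fun ha hb n hn => ha _ (hb n hn)
      one_mem' := fun n hn => hn
      add_mem' := fun ha hb n hn => by
        rw [LinearMap.add_comp]; exact add_mem (ha n hn) (hb n hn)
      zero_mem' := fun n _ => by rw [LinearMap.zero_comp]; exact zero_mem _
      neg_mem' := fun ha n hn => by rw [LinearMap.neg_comp]; exact neg_mem (ha n hn) }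
  have hA : ∀ h ∈ M, ∀ α : Module.End F K, (∀ k, h (k • u) = α k • u) →
      (∀ x, B D.QK u x = 0 → h x - x ∈ KL F K u) → α ∈ A := by
    rintro h hh α h1 h2 n ⟨n1, ρ, hρ, n2⟩
    have hL : ∀ x ∈ KL F K u, h x ∈ KL F K u := fun x hx => by
      obtain ⟨k, rfl⟩ := mem_KL.1 hx
      rw [h1]; exact smul_mem_KL _ _
    refine ⟨fun x hx => by simp [n1 x hx], h * ρ * h⁻¹, mul_mem (mul_mem hh hρ) (inv_mem hh),
      fun x hx => ?_⟩
    have h3 : B D.QK u (h⁻¹ x) = 0 := D.mem_perp.1 (perp_stable (inv_mem (G.leO hh))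
      (inv_mem_of_forall_mem hL) x (D.mem_perp.2 hx))
    have h4 := n1 _ (h2 _ h3)
    rw [apply_inv_apply, map_sub, sub_eq_zero] at h4
    rw [mul_app, mul_app, n2 _ h3, map_add, apply_inv_apply, h1, ← h4]; rfl
  let co : (V ≃ₗ[F] V) → Module.End F K := fun g =>
    (B D.QK f).restrictScalars F ∘ₗ (g : V →ₗ[F] V) ∘ₗ
      (LinearMap.toSpanSingleton K V u).restrictScalars F
  have hco : ∀ g : V ≃ₗ[F] V, (∀ x ∈ KL F K u, g x ∈ KL F K u) → ∀ k, g (k • u) = co g k • u := by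
    intro g hg k
    obtain ⟨c, hc⟩ := mem_KL.1 (hg _ (smul_mem_KL k u))
    simp [co, ← hc, hfu]
  have tor : ∀ μ : K, μ ≠ 0 → ∃ h ∈ M, (∀ k : K, h (k • u) = (μ * μ * k) • u) ∧
      ∀ x, B D.QK u x = 0 → h x - x ∈ KL F K u := fun μ hμ => by
    obtain ⟨h, -, h1⟩ := G.tor hu hu0 μ hμ
    exact ⟨_, h1⟩
  have sq : ∀ P : K → Prop, P 0 → (∀ μ, μ ≠ 0 → P (μ * μ)) → (∀ a b, P a → P b → P (a - b)) →
      ∀ c, P c := by
    intro P h0 h1 h2 c
    have h3 : ∀ μ, P (μ * μ) := fun μ => by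
      by_cases hμ : μ = 0
      · simpa [hμ] using h0
      · exact h1 μ hμ
    have := h2 _ _ (h3 ((c + 1) / 2)) (h3 ((c - 1) / 2))
    convert this using 1
    have := D.twoK
    field_simp; ring
  have hmul : ∀ c, LinearMap.mul F K c ∈ A := by
    refine sq _ (by simp) (fun μ hμ => ?_) fun a b ha hb => by rw [map_sub]; exact sub_mem ha hb
    obtain ⟨h, hh, h1, h2⟩ := tor μ hμ
    exact hA h hh _ h1 h2
  have hsL' := inv_mem_of_forall_mem hsL
  have hψ : ∀ c, co s * LinearMap.mul F K c * co s⁻¹ ∈ A := by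
    refine sq _ (by simp) (fun μ hμ => ?_) fun a b ha hb => by
      rw [map_sub, mul_sub, sub_mul]; exact sub_mem ha hb
    obtain ⟨h, hh, h1, h2⟩ := tor μ hμ
    refine hA (s * h * s⁻¹) (mul_mem (mul_mem hs hh) (inv_mem hs)) _ (fun k => ?_) fun x hx => ?_
    · rw [mul_app, mul_app, hco _ hsL', h1, hco _ hsL]; rfl
    · have := hsL _ (h2 (s⁻¹ x) (D.mem_perp.1 (perp_stable (inv_mem (G.leO hs)) hsL' x
        (D.mem_perp.2 hx))))
      rwa [map_sub, apply_inv_apply] at this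
  obtain ⟨φ, hφ0, hφ⟩ := exists_rank_one D.prime A hmul (hψ a) fun b hb => ha ⟨b, fun x hx => by
    obtain ⟨k, hk⟩ := mem_KL.1 (hsL x hx)
    have h1 : x = co s⁻¹ k • u := by rw [← hco _ hsL', hk]; simp
    have := LinearMap.congr_fun hb k
    simp only [Module.End.mul_apply, LinearMap.mul_apply'] at this
    rw [← hk, h1, smul_smul, hco _ hsL, this, smul_smul]⟩
  obtain ⟨e, he⟩ := exists_tau_mul D.hτ φ
  have he0 : e ≠ 0 := by rintro rfl; exact hφ0 (LinearMap.ext fun k => by simp [he])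
  refine G.EO_le_of_NN hu hu0 fun w hw c => ?_
  convert hφ c _ (G.T_NN hu (w := e⁻¹ • w) (by simp [hw])) using 1
  ext x
  simp [he, he0, D.hB]

end Cfsg.Agent.H3
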