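import Cfsg.Agent.H3.X2

/-! `Ω_3(q^r).r` in `Ω_{3r}(q)`, part 3: the stabiliser of a singular point. -/

set_option autoImplicit false
set_option linter.unusedSectionVars false

namespace Cfsg.Agent.H3

open Module Cfsg.Agent.Orth

variable {F V : Type*} [Field F] [AddCommGroup V] [Module F V]
  {K : Type*} [Field K] [Algebra F K] [Module K V] [IsScalarTower F K V] {Q : QuadraticForm F V}
  {D : XD Q K} {M : Subgroup (V ≃ₗ[F] V)}
  [Finite F] [Finite K] [FiniteDimensional F V] [FiniteDimensional K V]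

lemma G3.exists_rot (G : G3 D M) {γ : K} (hγ : γ ≠ 0) :
    ∃ α β : K, α * α + γ * (β * β) = 1 ∧ ∀ c, 4 * (α * α) - 2 ≠ algebraMap F K c := by
  by_contra h
  push Not at h
  have h2 := D.twoK
  have h1 : ∀ k : K, k * k * γ ∈ (⊥ : Subalgebra F K) := fun k => by
    by_cases h0 : 1 + k * k * γ = 0
    · rw [eq_neg_of_add_eq_zero_right h0]; exact neg_mem (one_mem _)
    obtain ⟨c, hc⟩ := h ((1 - k * k * γ) / (1 + k * k * γ)) (2 * k / (1 + k * k * γ))
      (by rw [div_mul_div_comm, div_mul_div_comm, ← mul_div_assoc, ← add_div,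
        div_eq_one_iff_eq (mul_ne_zero h0 h0)]; ring)
    obtain ⟨d, hd⟩ := sqF G.odd (z := 2 * ((1 - k * k * γ) / (1 + k * k * γ))) (c := c + 2)
      (by rw [map_add, map_ofNat]; linear_combination hc)
    rw [← mul_div_assoc, div_eq_iff h0] at hd
    have h3 : algebraMap F K (2 + d) ≠ 0 := fun e => by
      rw [map_add, map_ofNat] at e
      exact mul_ne_zero h2 h2 (by linear_combination hd + (1 + k * k * γ) * e)
    refine Algebra.mem_bot.2 ⟨(2 - d) / (2 + d), ?_⟩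
    rw [map_div₀, div_eq_iff h3, map_add, map_sub, map_ofNat]
    linear_combination hd
  obtain ⟨b, hb⟩ := exists_notF D.prime
  obtain ⟨c, hc⟩ := Algebra.mem_bot.1 (h1 1)
  obtain ⟨d, hd⟩ := Algebra.mem_bot.1 (sub_mem (sub_mem (h1 (b + 1)) (h1 b)) (h1 1))
  refine hb (d / (2 * c)) ?_
  rw [map_div₀, map_mul, map_ofNat, hc, hd]; field_simp; ring

lemma G3.exists_inter (G : G3 D M) {X : Submodule F V} (hX : D.ML M X)
    (hn : ∀ u, u ≠ 0 → X ≠ KL F K u) :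
    ∃ X' Y', D.ML M X' ∧ D.ML M Y' ∧ X' ≠ Y' ∧ X' ⊓ Y' ≠ ⊥ := by
  have hne : ∀ (X' Y' : Submodule F V) (v : V), v ≠ 0 → v ∈ X' → v ∈ Y' → X' ⊓ Y' ≠ ⊥ :=
    fun X' Y' v h0 h1 h2 h => h0 (by
      have : v ∈ X' ⊓ Y' := ⟨h1, h2⟩
      rwa [h] at this)
  have d0 := hX.finrank
  have d00 := D.two_le
  obtain ⟨v, hv, hv0⟩ := Submodule.exists_mem_ne_zero_of_ne_bot (p := X)
    (by rintro rfl; simp at d0; omega)
  by_cases hq : D.QK v = 0
  · exact ⟨X, _, hX, XD.ML.base hq hv0, hn v hv0, hne _ _ v hv0 hv (self_mem_KL v)⟩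
  by_cases hc : ∃ h ∈ M, h v = v ∧ X.map (h : V →ₗ[F] V) ≠ X
  · obtain ⟨h, hh, h1, h2⟩ := hc
    exact ⟨_, _, hX.map hh, hX, h2, hne _ _ v hv0 ⟨v, hv, h1⟩ hv⟩
  exfalso
  push Not at hc
  obtain ⟨l, hl, hlv⟩ : ∃ l ∈ X, l ∉ KL F K v := by
    by_contra h; push Not at h
    exact hn v hv0 (Submodule.eq_of_le_of_finrank_eq h (by rw [d0, finrank_KL hv0]))
  have hv1 := NdOn.span_singleton D.twoK hq
  have hN := hv1.perp D.ndK
  have d1 := D.ndK.finrank_perp (K ∙ v)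
  have d2 := finrank_span_singleton (K := K) hv0
  have d3 := G.hm
  obtain ⟨y, hy, x, hx, rfl⟩ := hv1.exists_decomp l
  have hx0 : x ≠ 0 := by rintro rfl; exact hlv (by rw [add_zero]; exact hy)
  obtain ⟨w₀, hw₀, hq₀⟩ := hN.exists_nonsing le_rfl (by omega)
  have hs : K ∙ w₀ ≤ perp D.QK (K ∙ v) := by simpa using hw₀
  have hN0 := NdOn.span_singleton D.twoK hq₀
  have d4 := hN.finrank_inf_perp hs
  have d5 := finrank_span_singleton (K := K) (show w₀ ≠ 0 by rintro rfl; simp at hq₀)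
  obtain ⟨w₁, hw₁, hq₁⟩ := (hN.inf_perp hN0 hs).exists_nonsing le_rfl (by omega)
  have h01 : B D.QK w₀ w₁ = 0 := mem_perp_span_singleton.1 hw₁.2
  have h10 : B D.QK w₁ w₀ = 0 := by rwa [B_comm]
  have dec : ∀ z ∈ perp D.QK (K ∙ v), ∃ s t : K, z = s • w₀ + t • w₁ := fun z hz => by
    obtain ⟨a, ha, b, hb, rfl⟩ := hN0.exists_decomp z
    have hb' : b ∈ perp D.QK (K ∙ v) ⊓ perp D.QK (K ∙ w₀) := ⟨by simpa using sub_mem hz (hs ha), hb⟩
    rw [← Submodule.eq_of_le_of_finrank_le ((Submodule.span_singleton_le_iff_mem _ _).2 hw₁)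
      (by rw [finrank_span_singleton (by rintro rfl; simp at hq₁)]; omega)] at hb'
    obtain ⟨s, rfl⟩ := Submodule.mem_span_singleton.1 ha
    obtain ⟨t, rfl⟩ := Submodule.mem_span_singleton.1 hb'
    exact ⟨s, t, rfl⟩
  obtain ⟨α, β, hab, hF⟩ := G.exists_rot (div_ne_zero hq₁ hq₀)
  set b := α • w₀ + β • w₁ with hb
  have hbP : b ∈ perp D.QK (K ∙ v) := add_mem (Submodule.smul_mem _ _ hw₀) (Submodule.smul_mem _ _ hw₁.1)
  have hqb : D.QK b = D.QK w₀ := by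
    rw [hb, Q_add, Q_smul, Q_smul]; field_simp at hab; simp [h01]; linear_combination hab
  have rot : ∀ z ∈ perp D.QK (K ∙ v), refl D.QK w₀ (refl D.QK b z) + refl D.QK b (refl D.QK w₀ z) =
      (4 * (α * α) - 2) • z := fun z hz => by
    obtain ⟨s, t, rfl⟩ := dec z hz
    simp only [refl_apply, hqb]
    simp only [hb, map_add, map_sub, map_smul, LinearMap.add_apply, LinearMap.smul_apply, h01, h10,
      B_self, smul_eq_mul]
    field_simp at hab
    match_scalars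
    · field_simp; ring
    · field_simp; linear_combination (-4 * t * D.QK w₀) * hab
  have fx : ∀ a ∈ perp D.QK (K ∙ v), ∀ z ∈ K ∙ v, refl D.QK a z = z := fun a ha =>
    refl_stable_of_perp ha
  have m : ∀ z ∈ X, refl D.QK w₀ (refl D.QK b z) + refl D.QK b (refl D.QK w₀ z) ∈ X := fun z hz => by
    have hvv := Submodule.mem_span_singleton_self (R := K) v
    refine add_mem ?_ ?_
    · rw [← hc _ (G.RR hqb.symm) (by rw [res_apply, mul_app, fx b hbP v hvv, fx _ hw₀ v hvv])]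
      exact ⟨z, hz, rfl⟩
    · rw [← hc _ (G.RR hqb) (by rw [res_apply, mul_app, fx _ hw₀ v hvv, fx b hbP v hvv])]
      exact ⟨z, hz, rfl⟩
  let T : Subalgebra F K :=
    { carrier := {k | ∀ x ∈ perp D.QK (K ∙ v), x ∈ X → k • x ∈ X}
      mul_mem' := fun {a b} ha hb x hx hy => by
        rw [mul_smul]; exact ha _ (Submodule.smul_mem _ b hx) (hb x hx hy)
      add_mem' := fun {a b} ha hb x hx hy => by
        rw [add_smul]; exact add_mem (ha x hx hy) (hb x hx hy)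
      algebraMap_mem' := fun c x _ hy => by rw [algebraMap_smul]; exact X.smul_mem c hy }
  have hT := subalgebra_eq_top D.prime T (fun x hx hX => by rw [← rot x hx]; exact m x hX) hF
  have h1 : (4 * (α * α) - 2 - 2) • x ∈ X := by
    have := sub_mem (m _ hl) (add_mem hl hl)
    simp only [map_add, fx b hbP y hy, fx _ hw₀ y hy] at this
    rw [sub_smul, ← rot x hx, two_smul]
    convert this using 1; abel
  have h0 : (4 * (α * α) - 2 - 2) • x ≠ 0 := smul_ne_zero (fun e => hF 2 (by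
    rw [map_ofNat]; exact sub_eq_zero.1 e)) hx0
  refine hn _ h0 (Submodule.eq_of_le_of_finrank_eq (fun z hz => ?_)
    (by rw [d0, finrank_KL h0])).symm
  obtain ⟨k, rfl⟩ := mem_KL.1 hz
  exact hT k _ (Submodule.smul_mem _ _ hx) h1

lemma G3.ts (G : G3 D M) {X : Submodule F V} (hX : D.ML M X) : TS Q X := by
  obtain ⟨h, hh, u, hu, hu0, rfl⟩ := hX
  rintro _ ⟨x, hx, rfl⟩
  rw [LinearEquiv.coe_coe, G.leO hh]; exact D.ts hu x hx

lemma eich_KL {u w : V} (hu : D.QK u = 0) (hw : B D.QK u w = 0) :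
    ∀ x ∈ KL F K u, eich D.QK u w x = x := fun x hx => by
  obtain ⟨k, rfl⟩ := mem_KL.1 hx
  rw [map_smul, eich_apply_self hu hw]

lemma G3.not_le_perp (G : G3 D M) (S : D.Star M) {u : V} (hu : D.QK u = 0) {Y : Submodule F V}
    (P : D.Pair M (KL F K u) Y) : ∃ y ∈ Y, B D.QK u y ≠ 0 := by
  by_contra hY
  push Not at hY
  obtain ⟨v, hv, hvL⟩ := P.exists_notMem
  have huv := hY v hv
  obtain ⟨a, haL, haY, ha0⟩ := P.exists_mem
  obtain ⟨α, rfl⟩ := mem_KL.1 haL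
  obtain ⟨w', hw', hne⟩ := D.ndK.exists_perp_B_ne (X := K ∙ u) (a := v) hvL
  set w := (α / B D.QK v w') • w' with hw
  have w1 : B D.QK u w = 0 := by rw [hw, map_smul, mem_perp_span_singleton.1 hw', smul_zero]
  have w2 : B D.QK w v = α := by rw [B_comm, hw, map_smul, smul_eq_mul, div_mul_cancel₀ _ hne]
  have tL := eich_KL hu w1
  have e : eich D.QK u w v = v + (-1 : F) • α • u := by
    rw [eich_apply_of_perp_left hu w1 huv, w2]; simp [sub_eq_add_neg]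
  have := P.mY.fix S (G.T hu w1) (P.stab (G.T hu w1) (fun x a b => by rwa [res_apply, tL x a])
    hv hvL (by rw [res_apply, e]; exact add_mem hv (Y.smul_mem _ haY))) haY ha0 hv
    (fun h => hvL ((Submodule.span_singleton_le_iff_mem _ _).2 haL h)) (c := -1)
    (tL _ haL) e (Or.inr fun x hx => tL _ (by
      rw [res_apply, eich_apply_of_perp_left hu w1 (hY x hx), sub_sub_cancel_left]
      exact neg_mem (smul_mem_KL _ _))) v hv
  rw [res_apply, e] at this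
  simp at this
  simp [this] at ha0

lemma G3.Z_triv (G : G3 D M) (S : D.Star M) {u : V} (Φ : Fr D u) {Y : Submodule F V}
    (P : D.Pair M (KL F K u) Y) {z : V ≃ₗ[F] V} (hz : z ∈ M)
    (h : ∀ x, B D.QK u x = 0 → z x = x) : z = 1 := by
  by_contra hne
  let Z : AddSubgroup (Module.End F K) :=
    { carrier := {ζ | ∃ z ∈ M, ∀ v, z v = v + ζ (B D.QK u v) • u}
      add_mem' := by
        rintro ζ ζ' ⟨z, hz, h⟩ ⟨z', hz', h'⟩
        exact ⟨z * z', mul_mem hz hz', fun v => by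
          rw [mul_app, h', h]; simp [Φ.uu, add_smul]; abel⟩
      zero_mem' := ⟨1, one_mem _, fun v => by simp⟩
      neg_mem' := by
        rintro ζ ⟨z, hz, h⟩
        exact ⟨z⁻¹, inv_mem hz, fun v => z.injective (by rw [apply_inv_apply, h]; simp [Φ.uu])⟩ }
  let ζ₀ : Module.End F K := (B D.QK Φ.f).restrictScalars F ∘ₗ ((z : V →ₗ[F] V) - LinearMap.id) ∘ₗ
    (LinearMap.toSpanSingleton K V Φ.f).restrictScalars F
  have h0 : ∀ v, z v = v + ζ₀ (B D.QK u v) • u := fun v => by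
    obtain ⟨a, b, c, rfl⟩ := Φ.dec v
    obtain ⟨k, hk⟩ := mem_KL.1 (sub_mem_of_fix_perp D.nd (G.leO hz) (L := KL F K u)
      (fun x hx => h x (D.mem_perp.1 hx)) (c • Φ.f))
    rw [map_add, h _ (by simp [Φ.uu, Φ.un])]
    simp [ζ₀, Φ.uu, Φ.un, Φ.uf, Φ.fu, add_assoc, eq_add_of_sub_eq' hk.symm]
  obtain ⟨v, hv, hb⟩ := G.not_le_perp S Φ.hu P
  obtain ⟨a, haL, haY, ha0⟩ := P.exists_mem
  obtain ⟨α, rfl⟩ := mem_KL.1 haL
  obtain ⟨ζ, ⟨s, hs, h1⟩, h2⟩ := alt_surj D.two D.prime G.odd D.hτ Z (by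
      rintro ζ ⟨s, hs, h1⟩ y
      have := G.leO hs (y • Φ.f)
      rw [h1, D.hQ, D.hQ] at this
      simpa [Q_add, Q_smul, Φ.hu, Φ.hf, Φ.uf, Φ.fu, mul_comm y] using this) (by
      rintro ζ ⟨s, hs, h1⟩ μ hμ
      obtain ⟨g, hg, hgM, g1, -⟩ := G.tor Φ.hu Φ.u0 μ hμ
      refine ⟨_, mul_mem (mul_mem hgM hs) (inv_mem hgM), fun v => ?_⟩
      have := g1 1
      rw [one_smul] at this
      rw [← res_inv, mul_app, mul_app, h1, res_apply, res_apply, ← O_B_inv hg, this, map_add, g1]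
      simp) (ζ₀ := ζ₀) ⟨z, hz, h0⟩ (fun e => hne (LinearEquiv.ext fun v => by simp [h0, e])) hb
    (a := α) (by rw [← D.hB_smul]; exact (G.ts P.mY).B_eq_zero haY hv)
  have hvL : v ∉ KL F K u := fun h => hb (D.BK_KL Φ.hu h)
  have sL : ∀ x ∈ KL F K u, s x = x := fun x hx => by simp [h1, D.BK_KL Φ.hu hx]
  have e : s v = v + (1 : F) • α • u := by rw [h1, h2, one_smul]
  have := P.mY.fix S hs (P.stab hs (fun x a b => by rwa [sL x a]) hv hvL
    (by rw [e]; exact add_mem hv (Y.smul_mem _ haY))) haY ha0 hv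
    (fun h => hvL ((Submodule.span_singleton_le_iff_mem _ _).2 haL h)) (c := 1)
    (sL _ haL) e (Or.inr fun x _ => sL _ (by rw [h1, add_sub_cancel_left]; exact smul_mem_KL _ _)) v hv
  rw [e] at this
  exact ha0 (by simpa using this)

/-- the root elements -/
noncomputable def Fr.t {u : V} (Φ : Fr D u) (w : K) : V ≃ₗ[F] V := res F (eich D.QK u (w • Φ.n))

namespace Fr
variable {u : V} (Φ : Fr D u)

lemma t_apply (w : K) (x : V) : Φ.t w x = x + (B D.QK u x * w) • Φ.n -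
    (w * B D.QK Φ.n x + w * w * algebraMap F K Φ.κ * B D.QK u x) • u := by
  rw [t, res_apply, eich_apply Φ.hu (Φ.un' w), Q_smul, Φ.hn, smul_smul]; simp

lemma t_add (w w' : K) : Φ.t (w + w') = Φ.t w * Φ.t w' := by
  rw [t, t, t, ← res_mul, eich_mul Φ.hu (Φ.un' w) (Φ.un' w'), add_smul]

lemma t_zero : Φ.t 0 = 1 := by ext x; simp [t_apply]

lemma t_L (w : K) : ∀ x ∈ KL F K u, Φ.t w x = x := eich_KL Φ.hu (Φ.un' w)

lemma t_fix {w : K} (hw : w ≠ 0) {x : V} (h : Φ.t w x = x) : x ∈ KL F K u := by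
  obtain ⟨a, b, c, rfl⟩ := Φ.dec x
  rw [t_apply, add_sub_assoc, add_eq_left] at h
  have h1 := congrArg (B D.QK Φ.n) h
  have h2 := congrArg (B D.QK Φ.f) h
  simp [Φ.uu, Φ.un, Φ.uf, Φ.nu, Φ.nn, Φ.nf, Φ.fn, Φ.fu, hw, D.twoK, Φ.hκ] at h1 h2
  simp [h1, hw, D.twoK, Φ.hκ] at h2
  simpa [h1, h2] using smul_mem_KL a u

lemma B_fix {h : V ≃ₗ[F] V} (hh : h ∈ O Q) (hL : ∀ x ∈ KL F K u, h x = x) (x : V) :
    B D.QK u (h x) = B D.QK u x := sub_eq_zero.1 (tau_nondeg D.hτ fun k => by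
  rw [mul_sub, map_sub, ← D.hB_smul, ← D.hB_smul, ← O_B hh _ x, hL _ (smul_mem_KL _ _), sub_self])

lemma dec' {x : V} (hx : B D.QK u x = 0) : ∃ a b : K, x = a • u + b • Φ.n := by
  obtain ⟨a, b, c, rfl⟩ := Φ.dec x
  have : c = 0 := by simpa [Φ.uu, Φ.un, Φ.uf] using hx
  exact ⟨a, b, by simp [this]⟩

lemma apply_n {h : V ≃ₗ[F] V} (hh : h ∈ O Q) (hL : ∀ x ∈ KL F K u, h x = x) {ε : K}
    (hε : ε * ε = 1) (hc : ∀ w, h * Φ.t w = Φ.t (ε * w) * h) :
    ∃ ν, ∀ w : K, h (w • Φ.n) = Φ.t ν ((ε * w) • Φ.n) := by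
  obtain ⟨a, b, c, e⟩ := Φ.dec (h Φ.f)
  have hc1 : c = 1 := by simpa [e, Φ.uu, Φ.un, Φ.uf] using B_fix (D := D) hh hL Φ.f
  refine ⟨b, fun w => ?_⟩
  have := LinearEquiv.congr_fun (hc w) Φ.f
  rw [mul_app, mul_app, t_apply, t_apply, map_sub, map_add, hL _ (smul_mem_KL _ _), e, hc1] at this
  simp only [Φ.uu, Φ.un, Φ.uf, Φ.nu, Φ.nn, Φ.nf, map_add, map_smul, smul_eq_mul, one_mul, mul_zero,
    zero_add, add_zero, mul_one, t_apply] at this ⊢
  linear_combination (norm := skip) this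
  match_scalars
  all_goals first | ring1 | linear_combination (-(w * w * algebraMap F K Φ.κ)) * hε

end Fr

lemma det_refl' {a : V} (ha : D.QK a ≠ 0) :
    LinearMap.det (refl D.QK a : V →ₗ[K] V) = -1 := by
  have : (refl D.QK a : V →ₗ[K] V) = LinearMap.transvection (-((D.QK a)⁻¹ • B D.QK a)) a := by
    ext x
    simp [refl_apply, LinearMap.transvection.apply, sub_eq_add_neg]
  rw [this, LinearMap.transvection.det]
  simp only [LinearMap.neg_apply, LinearMap.smul_apply, B_self, smul_eq_mul]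
  field_simp; ring

lemma G3.refl_notMem (G : G3 D M) {a : V} (ha : D.QK a ≠ 0) : res F (refl D.QK a) ∉ EO Q := by
  intro h
  rw [← D.nd.commutator_O (D.dimF G.hm.ge)] at h
  have h1 := congrArg Units.val ((Subgroup.commutator_mono le_top le_top).trans
    (Abelianization.commutator_subset_ker LinearEquiv.det) h)
  rw [LinearEquiv.coe_det, Units.val_one] at h1
  have h2 := LinearMap.det_restrictScalars (R := F) (f := (refl D.QK a : V →ₗ[K] V))
  rw [det_refl' ha, ← map_one (algebraMap F K), ← map_neg, Algebra.norm_algebraMap,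
    G.odd.neg_one_pow] at h2
  exact D.two (by linear_combination h2.symm.trans h1 |>.symm)

lemma G3.eq_T (G : G3 D M) (S : D.Star M) {u : V} (Φ : Fr D u) {Y : Submodule F V}
    (P : D.Pair M (KL F K u) Y) {h : V ≃ₗ[F] V} (hh : h ∈ M) (hL : ∀ x ∈ KL F K u, h x = x) :
    ∃ w, h = Φ.t w := by
  have tM : ∀ w, Φ.t w ∈ M := fun w => G.T Φ.hu (Φ.un' w)
  have tP : ∀ w x, B D.QK u x = 0 → Φ.t w x = x - (w * B D.QK Φ.n x) • u := fun w x hx => by
    simp [Φ.t_apply, hx]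
  have eqv : ∀ g ∈ M, ∀ g' ∈ M, (∀ x, B D.QK u x = 0 → g x = g' x) → g = g' := fun g hg g' hg' e =>
    (inv_mul_eq_one.1 (G.Z_triv S Φ P (mul_mem (inv_mem hg') hg) fun x hx => by
      rw [mul_app, e x hx, inv_apply_apply])).symm
  have fin : ∀ g ∈ M, (∀ x ∈ KL F K u, g x = x) → (∀ w, g * Φ.t w = Φ.t (1 * w) * g) →
      ∃ w, g = Φ.t w := fun g hg gL gc => by
    obtain ⟨ν, hν⟩ := Φ.apply_n (G.leO hg) gL (one_mul 1) gc
    refine ⟨ν, eqv _ hg _ (tM ν) fun x hx => ?_⟩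
    obtain ⟨a, b, rfl⟩ := Φ.dec' hx
    rw [map_add, map_add, hν, one_mul, gL _ (smul_mem_KL _ _), Φ.t_L _ _ (smul_mem_KL _ _)]
  have hi : ∀ x ∈ KL F K u, h⁻¹ x = x := fun x hx => by
    nth_rewrite 1 [← hL x hx]; simp
  have hp := Fr.B_fix (D := D) (inv_mem (G.leO hh)) hi
  have cj : ∀ w x, B D.QK u x = 0 → (h * Φ.t w * h⁻¹) x = x - (w * B D.QK Φ.n (h⁻¹ x)) • u :=
    fun w x hx => by
      rw [mul_app, mul_app, tP _ _ (by rw [hp, hx]), map_sub, hL _ (smul_mem_KL _ _), apply_inv_apply]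
  obtain ⟨ε, hε⟩ := fin (h * Φ.t 1 * h⁻¹) (mul_mem (mul_mem hh (tM 1)) (inv_mem hh))
    (fun x hx => by rw [mul_app, mul_app, hi x hx, Φ.t_L _ x hx, hL x hx]) fun w =>
      eqv _ (mul_mem (mul_mem (mul_mem hh (tM 1)) (inv_mem hh)) (tM w)) _
      (mul_mem (tM _) (mul_mem (mul_mem hh (tM 1)) (inv_mem hh))) fun x hx => by
        rw [mul_app, mul_app _ (h * _ * _), cj _ x hx, tP _ x hx, map_sub, map_sub, cj _ x hx,
          tP _ x hx, cj _ _ (by simp [Φ.uu]), Φ.t_L _ _ (smul_mem_KL _ _), hi _ (smul_mem_KL _ _)]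
        simp [Φ.nu]; abel
  have h1 : ∀ x, B D.QK u x = 0 → B D.QK Φ.n (h⁻¹ x) = ε * B D.QK Φ.n x := fun x hx => by
    have := cj 1 x hx
    rw [hε, tP _ x hx, sub_right_inj, one_mul] at this
    exact (smul_left_injective K Φ.u0 this).symm
  have h2 : ε * ε = 1 := by
    have := sq_nondeg D.two D.hτ (c := algebraMap F K Φ.κ * (ε * ε - 1)) fun y => by
      obtain ⟨a, b, e⟩ := Φ.dec' (x := h⁻¹ (y • Φ.n)) (by rw [hp, Φ.un'])
      have e1 := h1 _ (Φ.un' y)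
      have e2 := inv_mem (G.leO hh) (y • Φ.n)
      rw [e, D.hQ, D.hQ] at e2
      have e3 : b = ε * y := by
        simp only [e, map_add, map_smul, Φ.nu, Φ.nn, smul_eq_mul, mul_zero, zero_add] at e1
        exact mul_right_cancel₀ (mul_ne_zero D.twoK Φ.hκ') (e1.trans (mul_assoc _ _ _).symm)
      rw [← sub_eq_zero.2 e2, ← map_sub]
      simp only [Q_add, Q_smul, Φ.hu, Φ.hn, map_smul, LinearMap.smul_apply, Φ.un, e3]
      congr 1; simp; ring
    exact sub_eq_zero.1 ((mul_eq_zero.1 this).resolve_left Φ.hκ')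
  have h3 : ∀ w, h * Φ.t w = Φ.t (ε * w) * h := fun w => by
    rw [← mul_inv_eq_iff_eq_mul]
    exact eqv _ (mul_mem (mul_mem hh (tM w)) (inv_mem hh)) _ (tM _) fun x hx => by
      rw [cj _ x hx, tP _ x hx, h1 x hx, mul_left_comm, mul_assoc]
  rcases mul_self_eq_one_iff.1 h2 with rfl | rfl
  · exact fin h hh hL h3
  obtain ⟨ν, hν⟩ := Φ.apply_n (G.leO hh) hL h2 h3
  have hq : D.QK Φ.n ≠ 0 := Φ.hn.trans_ne Φ.hκ'
  have hR := D.res_mem_O (refl_mem_O D.QK Φ.n)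
  have := mem_of_fix_perp D.nd (D.ts Φ.hu) (M := EO Q) (fun _ _ _ _ => eich_mem_EO _ _)
    (mul_mem (inv_mem (G.leO hh)) (mul_mem (G.leO (tM ν)) hR)) fun x hx => by
      obtain ⟨a, b, rfl⟩ := Φ.dec' (D.mem_perp.1 hx)
      apply h.injective
      rw [mul_app, apply_inv_apply, mul_app, res_apply, map_add h, hν, hL _ (smul_mem_KL _ _),
        map_add, map_smul, map_smul, refl_of_perp Φ.nu, refl_self hq, map_add,
        Φ.t_L _ _ (smul_mem_KL _ _)]
      simp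
  exact absurd (by simpa using mul_mem (inv_mem (G.le (tM ν))) (mul_mem (G.le hh) this))
    (G.refl_notMem hq)

end Cfsg.Agent.H3
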