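import Cfsg.Agent.H3.X3

/-! `Ω_3(q^r).r` in `Ω_{3r}(q)`, part 4: transfer and trace argument. -/

set_option autoImplicit false
set_option linter.unusedSectionVars false

namespace Cfsg.Agent.H3

open Module Cfsg.Agent.Orth Cfsg.Geo

section
variable {F V : Type*} [Field F] [AddCommGroup V] [Module F V]
  {K : Type*} [Field K] [Algebra F K] [Module K V] [IsScalarTower F K V] {Q : QuadraticForm F V}
  {D : XD Q K} {M : Subgroup (V ≃ₗ[F] V)}
  [Finite F] [Finite K] [FiniteDimensional F V] [FiniteDimensional K V]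

/-- `k ↦ k • u` -/
def sm (F K : Type*) [Field F] [Field K] [Algebra F K] [Module F V] [Module K V]
    [IsScalarTower F K V] (u : V) : K →ₗ[F] V :=
  (LinearMap.toSpanSingleton K V u).restrictScalars F

@[simp] lemma sm_apply (u : V) (k : K) : sm F K u k = k • u := rfl

lemma G3.exists_phi (G : G3 D M) {u : V} (Φ : Fr D u) (σ : K ≃ₐ[F] K) : ∃ φ ∈ M, φ u = u ∧
    φ Φ.n = Φ.n ∧ φ Φ.f = Φ.f ∧ ∀ (a : K) x, φ (a • x) = σ a • φ x := by
  have aux : ∀ σ : K ≃ₐ[F] K, ∃ φ ∈ O Q, φ u = u ∧ φ Φ.n = Φ.n ∧ φ Φ.f = Φ.f ∧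
      ∀ (a : K) x, φ (a • x) = σ a • φ x := fun σ => by
    let φ : V →ₗ[F] V := sm F K u ∘ₗ σ.toLinearMap ∘ₗ (B D.QK Φ.f).restrictScalars F +
      sm F K Φ.n ∘ₗ σ.toLinearMap ∘ₗ
        (B D.QK ((2 * algebraMap F K Φ.κ)⁻¹ • Φ.n)).restrictScalars F +
      sm F K Φ.f ∘ₗ σ.toLinearMap ∘ₗ (B D.QK u).restrictScalars F
    have e : ∀ a b c : K, φ (a • u + b • Φ.n + c • Φ.f) = σ a • u + σ b • Φ.n + σ c • Φ.f := by
      intro a b c
      simp only [φ, LinearMap.add_apply, LinearMap.comp_apply, LinearMap.restrictScalars_apply,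
        sm_apply, map_add, map_smul, LinearMap.smul_apply, Φ.uu, Φ.un, Φ.uf, Φ.nu, Φ.nn, Φ.nf, Φ.fu,
        Φ.fn, Φ.ff, smul_eq_mul, inv_mul_cancel₀ (mul_ne_zero D.twoK Φ.hκ')]
      simp
    have q : ∀ a b c : K, D.QK (a • u + b • Φ.n + c • Φ.f) = b * b * algebraMap F K Φ.κ + a * c := by
      intro a b c
      simp [Q_add, Q_smul, Φ.hu, Φ.hn, Φ.hf, Φ.un, Φ.uf, Φ.nf, mul_comm]
    have hQ : ∀ v, Q (φ v) = Q v := fun v => by
      obtain ⟨a, b, c, rfl⟩ := Φ.dec v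
      rw [e, D.hQ, D.hQ, q, q, G.tr, ← Algebra.trace_eq_of_algEquiv σ (b * b * _ + _)]
      simp
    have hi : Function.Injective φ := by
      rw [← LinearMap.ker_eq_bot, eq_bot_iff]
      intro v hv
      refine D.nd v fun x => ?_
      have := hQ (x + v)
      rw [map_add, LinearMap.mem_ker.1 hv, add_zero, hQ, Q_add, ← hQ v, LinearMap.mem_ker.1 hv] at this
      simpa using this
    refine ⟨LinearEquiv.ofInjectiveEndo φ hi, hQ, by simpa using e 1 0 0, by simpa using e 0 1 0,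
      by simpa using e 0 0 1, fun k x => ?_⟩
    obtain ⟨a, b, c, rfl⟩ := Φ.dec x
    simp only [LinearEquiv.coe_ofInjectiveEndo, smul_add, smul_smul, e, map_mul]
  obtain ⟨j, hj⟩ := G.odd
  obtain ⟨φ, h0, h1, h2, h3, h4⟩ := aux (σ ^ (j + 1))
  have e : σ ^ (j + 1) * σ ^ (j + 1) = σ := by
    rw [← pow_add, show j + 1 + (j + 1) = 2 * j + 1 + 1 by ring, pow_succ, ← hj,
      ← IsGalois.card_aut_eq_finrank, pow_card_eq_one', one_mul]
  have h5 : ∀ (a : K) x, (φ * φ) (a • x) = σ a • (φ * φ) x := fun a x => by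
    rw [mul_app, mul_app, h4, h4, ← AlgEquiv.mul_apply, e]
  exact ⟨φ * φ, G.hH _ (D.nd.sq_mem_EO (D.dimF G.hm.ge) h0) fun a => ⟨_, h5 a⟩,
    by rw [mul_app, h1, h1], by rw [mul_app, h2, h2], by rw [mul_app, h3, h3], h5⟩

lemma G3.semi (G : G3 D M) (S : D.Star M) {u : V} (Φ : Fr D u) {Y : Submodule F V}
    (P : D.Pair M (KL F K u) Y) {g : V ≃ₗ[F] V} (hg : g ∈ M) (hu : g u = u)
    (hL : ∀ x ∈ KL F K u, g x ∈ KL F K u) : ∃ σ : K ≃ₐ[F] K,
    (∀ (a : K) x, g (a • x) = σ a • g x) ∧ g Φ.n = Φ.n + B D.QK Φ.f (g Φ.n) • u := by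
  let s : K →ₗ[F] K := (B D.QK Φ.f).restrictScalars F ∘ₗ (g : V →ₗ[F] V) ∘ₗ sm F K u
  have hs : ∀ a : K, g (a • u) = s a • u := fun a => by
    obtain ⟨c, hc⟩ := mem_KL.1 (hL _ (smul_mem_KL a u))
    simp [s, ← hc, Φ.fu]
  let σ₀ : K →ₐ[F] K := AlgHom.ofLinearMap s (by simp [s, hu, Φ.fu]) fun a b => by
    obtain ⟨c, hc⟩ := S u Φ.hu Φ.u0 g hg hL a
    have h1 := hc u (self_mem_KL u)
    rw [hs, hu] at h1
    apply smul_left_injective K Φ.u0
    simp only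
    rw [← hs, mul_smul, hc _ (smul_mem_KL _ _), hs, ← smul_left_injective K Φ.u0 h1, mul_smul]
  let σ : K ≃ₐ[F] K := AlgEquiv.ofBijective σ₀ (Finite.injective_iff_bijective.1 σ₀.injective)
  obtain ⟨φ, hφ, h1, h2, -, h4⟩ := G.exists_phi Φ σ
  obtain ⟨w, hw⟩ := G.eq_T S Φ P (mul_mem (inv_mem hφ) hg) fun x hx => by
    obtain ⟨a, rfl⟩ := mem_KL.1 hx
    apply φ.injective
    rw [mul_app, apply_inv_apply, h4, h1, hs]; rfl
  rw [inv_mul_eq_iff_eq_mul] at hw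
  refine ⟨σ, fun a x => by rw [hw, mul_app, mul_app, ← h4, Fr.t, res_apply, res_apply, map_smul], ?_⟩
  rw [hw, mul_app, Φ.t_apply]
  simp [Φ.un, h4, h1, h2, Φ.fn, Φ.fu, sub_eq_add_neg]

lemma G3.exists_pow (G : G3 D M) (S : D.Star M) {u : V} (Φ : Fr D u) {Y : Submodule F V}
    (P : D.Pair M (KL F K u) Y) {g : V ≃ₗ[F] V} (hg : g ∈ M) (hu : g u = u)
    (hL : ∀ x ∈ KL F K u, g x ∈ KL F K u) (hne : Algebra.trace F K (B D.QK Φ.f (g Φ.n)) ≠ 0) :
    ∃ j w, w ≠ 0 ∧ g ^ j = Φ.t w := by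
  classical
  obtain ⟨σ, h1, h2⟩ := G.semi S Φ P hg hu hL
  set β := B D.QK Φ.f (g Φ.n)
  have h3 : ∀ i : ℕ, (∀ a : K, (g ^ i) (a • u) = (σ ^ i) a • u) ∧
      (g ^ i) Φ.n = Φ.n + (∑ k ∈ Finset.range i, (σ ^ k) β) • u := fun i => by
    induction i with
    | zero => simp
    | succ i ih =>
      refine ⟨fun a => by rw [pow_succ, mul_app, h1, hu, ih.1, pow_succ]; rfl, ?_⟩
      rw [pow_succ, mul_app, h2, map_add, ih.1, ih.2, Finset.sum_range_succ, add_smul, add_assoc]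
  obtain ⟨w, hw⟩ := G.eq_T S Φ P (pow_mem hg (orderOf σ)) fun x hx => by
    obtain ⟨a, rfl⟩ := mem_KL.1 hx
    rw [(h3 _).1, pow_orderOf_eq_one]; rfl
  refine ⟨_, w, fun h0 => hne ?_, hw⟩
  have h4 := (h3 (orderOf σ)).2
  rw [hw, h0, Φ.t_zero, one_app, left_eq_add, smul_eq_zero, or_iff_left Φ.u0] at h4
  by_cases hσ : σ = 1
  · rw [hσ] at h4
    simp at h4
    simp [h4]
  have := Fact.mk D.prime
  have h5 := zpowers_eq_top_of_prime_card (IsGalois.card_aut_eq_finrank F K) hσ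
  have h6 : orderOf σ = Nat.card (K ≃ₐ[F] K) := by rw [← Nat.card_zpowers, h5, Subgroup.card_top]
  apply (algebraMap F K).injective
  rw [trace_eq_sum_automorphisms, map_zero, ← h4, ← IsCyclic.image_range_card (a := σ)
    (fun x => by rw [h5]; trivial), Finset.sum_image, h6]
  intro a ha b hb e
  exact pow_injOn_Iio_orderOf (by simpa [h6] using ha) (by simpa [h6] using hb) e

lemma Fr.trace_t {u : V} (Φ : Fr D u) (w : K) :
    LinearMap.trace F V (Φ.t w : V →ₗ[F] V) = finrank F V := by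
  have : IsNilpotent ((Φ.t w : V →ₗ[F] V) - 1) := ⟨3, LinearMap.ext fun x => by
    simp [pow_succ, Φ.t_apply, Φ.uu, Φ.un, Φ.nu, add_sub_assoc]⟩
  have := (LinearMap.isNilpotent_trace_of_isNilpotent this).eq_zero
  rwa [map_sub, LinearMap.trace_one, sub_eq_zero] at this

lemma G3.le_perp (G : G3 D M) (S : D.Star M) {u : V} (Φ : Fr D u) {Y : Submodule F V}
    (P : D.Pair M (KL F K u) Y) {g : V ≃ₗ[F] V} (hg : g ∈ M) (hu : g u = u) (c : K) :
    B D.QK u (g (c • u)) = 0 := by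
  have : Finite V := Module.finite_of_finite F
  have : Finite (V ≃ₗ[F] V) := Finite.of_injective _ DFunLike.coe_injective
  let Γ : Subgroup (V ≃ₗ[F] V) := M ⊓ MulAction.stabilizer _ u
  let N : Subgroup Γ := (stab (KL F K u)).subgroupOf Γ
  let θ : N →* Multiplicative F := MonoidHom.mk'
    (fun g => Multiplicative.ofAdd (Algebra.trace F K (B D.QK Φ.f (g.1.1 Φ.n)))) fun a b => by
      obtain ⟨σ, h1, -⟩ := G.semi S Φ P a.1.2.1 a.1.2.2 a.2
      obtain ⟨-, -, h2⟩ := G.semi S Φ P b.1.2.1 b.1.2.2 b.2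
      have h3 : a.1.1 u = u := a.1.2.2
      rw [← ofAdd_add, ← Algebra.trace_eq_of_algEquiv σ (B D.QK Φ.f (b.1.1 Φ.n)), ← map_add]
      change Multiplicative.ofAdd (Algebra.trace F K (B D.QK Φ.f (a.1.1 (b.1.1 Φ.n)))) = _
      rw [h2, map_add, h1, h3, map_add, map_smul, Φ.fu, ← h2, smul_eq_mul, mul_one]
  obtain ⟨lam, l1, l2⟩ := exists_transfer N θ
  have pw : ∀ (g x : Γ) (k : ℕ) (h : x⁻¹ * g ^ k * x ∈ N), θ ⟨_, h⟩ ≠ 1 →
      ∃ j w, w ≠ 0 ∧ (x.1⁻¹ * g.1 * x.1) ^ j = Φ.t w := fun g x k h hθ => by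
    obtain ⟨j, w, h1, h2⟩ := G.exists_pow S Φ P (x⁻¹ * g ^ k * x).2.1 (x⁻¹ * g ^ k * x).2.2 h hθ
    refine ⟨k * j, w, h1, ?_⟩
    rw [← h2, pow_mul]
    congr 1
    simpa using conj_pow (a := x.1⁻¹) (b := g.1) (i := k)
  have tΓ : ∀ w, Φ.t w ∈ Γ := fun w => ⟨G.T Φ.hu (Φ.un' w), Φ.t_L w u (self_mem_KL u)⟩
  have l3 : ∀ w, lam ⟨_, tΓ w⟩ = Multiplicative.ofAdd (-(2 * Φ.κ * Algebra.trace F K w)) := by
    intro w
    rw [l2 ⟨⟨_, tΓ w⟩, fun x hx => (Φ.t_L w x hx).symm ▸ hx⟩ fun x k h hx => ?_]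
    · change Multiplicative.ofAdd (Algebra.trace F K (B D.QK Φ.f (Φ.t w Φ.n))) = _
      rw [← smul_eq_mul, ← map_smul, Algebra.smul_def, ← map_neg]
      simp [Φ.t_apply, Φ.un, Φ.nn, Φ.fn, Φ.fu, map_ofNat, mul_comm]
    · by_contra hθ
      obtain ⟨j, w', h1, h2⟩ := pw _ x k h hθ
      refine hx (N.inv_mem_iff.1 fun l hl => Φ.t_fix h1 ?_)
      rw [← h2]
      clear h2
      induction j with
      | zero => rfl
      | succ j ih => rw [pow_succ', mul_app, ih]; simp [Φ.t_L w l hl]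
  have tr : ∀ g : Γ, lam g ≠ 1 → LinearMap.trace F V (g.1 : V →ₗ[F] V) = finrank F V ∨
      LinearMap.trace F V (g.1 : V →ₗ[F] V) = 0 := fun g hg => by
    obtain ⟨x, k, h, hθ⟩ := l1 g hg
    obtain ⟨j, w, h1, h2⟩ := pw g x k h hθ
    have e : LinearMap.trace F V (g.1 : V →ₗ[F] V) =
        LinearMap.trace F V ((x⁻¹ * g * x).1 : V →ₗ[F] V) := by
      rw [show ((x⁻¹ * g * x).1 : V →ₗ[F] V) = ((x.1⁻¹ * g.1 : V ≃ₗ[F] V) : V →ₗ[F] V) * x.1 from rfl,
        LinearMap.trace_mul_comm]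
      congr 1; ext v; simp
    have hL : ∀ l ∈ KL F K u, (x⁻¹ * g * x).1 l ∈ KL F K u := fun l hl => Φ.t_fix h1 (by
      nth_rewrite 2 [← Φ.t_L w l hl]
      rw [← h2, ← mul_app, ← mul_app]
      exact congrFun (congrArg _ ((pow_succ _ _).symm.trans (pow_succ' _ _))) l)
    obtain ⟨σ, s1, -⟩ := G.semi S Φ P (x⁻¹ * g * x).2.1 (x⁻¹ * g * x).2.2 hL
    rw [e]
    by_cases hσ : σ = 1
    · obtain ⟨w', hw'⟩ := G.eq_T S Φ P (x⁻¹ * g * x).2.1 fun l hl => by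
        obtain ⟨a, rfl⟩ := mem_KL.1 hl
        rw [s1, hσ, show (x⁻¹ * g * x).1 u = u from (x⁻¹ * g * x).2.2]; rfl
      exact Or.inl (by rw [hw', Φ.trace_t])
    · exact Or.inr (trace_semi hσ s1)
  let m := LinearMap.mul F K
  let sw : (K →ₗ[F] V) → (V →ₗ[K] K) → K →ₗ[F] V →ₗ[F] V := fun ι π =>
    LinearMap.llcomp F V K V ι ∘ₗ LinearMap.lcomp F K (π.restrictScalars F) ∘ₗ m
  let ψ : Γ → Module.End F K := fun g =>
    (B D.QK u).restrictScalars F ∘ₗ (g.1 : V →ₗ[F] V) ∘ₗ sm F K u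
  have key : ∀ (g : Γ) (k : K), LinearMap.trace F K (m k * ψ g) = 0 := fun g k => by
    let T := LinearMap.trace F V ∘ₗ LinearMap.mulLeft F (g.1 : V →ₗ[F] V)
    have := chi_zero D.two G.three_le (τ := Algebra.trace F K) (G.tr ▸ D.hτ) (n := finrank F V)
      (α := T 1) (c₀ := (lam g).toAdd / (2 * Φ.κ)) (fun h => by
        rw [← Module.finrank_mul_finrank F K V, G.hm]; simp [h])
      (T ∘ₗ (sw (sm F K Φ.n) (B D.QK u) - sw (sm F K u) (B D.QK Φ.n)))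
      (T ∘ₗ ((-Φ.κ) • sw (sm F K u) (B D.QK u))) fun w hw => by
        have := tr (g * ⟨_, tΓ w⟩) fun h => hw (by
          rw [map_mul, l3, mul_eq_one_iff_eq_inv] at h
          rw [h, eq_div_iff (mul_ne_zero D.two Φ.hκ)]; simp [mul_comm])
        simp only [LinearMap.comp_apply, ← map_add]
        convert this using 2 <;>
        · change LinearMap.trace F V (_ * _) = _
          congr 1; ext x
          change g.1 _ = g.1 (Φ.t w x)
          congr 1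
          rw [Φ.t_apply]
          change x + ((w * B D.QK u x) • Φ.n - (w * B D.QK Φ.n x) • u) +
            (-Φ.κ) • (w * w * B D.QK u x) • u = _
          rw [← algebraMap_smul K (-Φ.κ), map_neg]
          module
    have h1 := LinearMap.congr_fun this ((-Φ.κ)⁻¹ • k)
    rw [LinearMap.comp_apply, LinearMap.smul_apply, map_smul (sw _ _), smul_smul,
      mul_inv_cancel₀ (neg_ne_zero.2 Φ.hκ), one_smul] at h1
    exact (LinearMap.trace_comp_comm' ((g.1 : V →ₗ[F] V) ∘ₗ sm F K u)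
      (m k ∘ₗ (B D.QK u).restrictScalars F)).trans h1
  let Ψ : AddSubgroup (Module.End F K) := AddSubgroup.closure {α | ∃ k g, α = m k * ψ g}
  let A : Subring (Module.End F K) :=
    { carrier := {α | ∀ n ∈ Ψ, α * n ∈ Ψ}
      mul_mem' := fun ha hb n hn => ha _ (hb n hn)
      one_mem' := fun n hn => hn
      add_mem' := fun ha hb n hn => by rw [add_mul]; exact add_mem (ha n hn) (hb n hn)
      zero_mem' := fun n _ => by rw [zero_mul]; exact zero_mem _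
      neg_mem' := fun ha n hn => neg_mem (ha n hn) }
  have hA : ∀ α : Module.End F K, (∀ k g, ∃ k' g', α * (m k * ψ g) = m k' * ψ g') → α ∈ A := fun α h n hn => by
    induction hn using AddSubgroup.closure_induction with
    | mem x hx => obtain ⟨k, g, rfl⟩ := hx; exact AddSubgroup.subset_closure (h k g)
    | zero => rw [mul_zero]; exact zero_mem _
    | add x y _ _ a b => rw [mul_add]; exact add_mem a b
    | neg x _ a => convert neg_mem a using 1; ext; simp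
  have hΨ : ∀ n ∈ Ψ, LinearMap.trace F K n = 0 := fun n hn => by
    induction hn using AddSubgroup.closure_induction with
    | mem x hx => obtain ⟨k, g, rfl⟩ := hx; exact key g k
    | zero => simp
    | add x y _ _ a b => rw [map_add, a, b, add_zero]
    | neg x _ a => rw [map_neg, a, neg_zero]
  have : Nontrivial (K ≃ₐ[F] K) := Finite.one_lt_card_iff_nontrivial.1 (by
    rw [IsGalois.card_aut_eq_finrank]; exact D.prime.one_lt)
  obtain ⟨σ, hσ⟩ := exists_ne (1 : K ≃ₐ[F] K)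
  obtain ⟨φ, hφ, p1, p2, p3, p4⟩ := G.exists_phi Φ σ
  obtain ⟨φ₀, q1, q2⟩ := exists_rank_one D.prime A (fun c => hA _ fun k g => ⟨c * k, g, by
      ext; simp [m, mul_assoc]⟩) (ψ := σ.toLinearMap) (hA _ fun k g => ⟨σ k, ⟨φ, hφ, p1⟩ * g, by
      ext y
      obtain ⟨a, b, c, e⟩ := Φ.dec (g.1 (y • u))
      simp [m, ψ, e, p1, p2, p3, p4, Φ.uu, Φ.un, Φ.uf]⟩) fun b hb => hσ (by
      have h1 : b = 1 := by simpa using (LinearMap.congr_fun hb 1).symm
      ext y; simpa [h1] using LinearMap.congr_fun hb y)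
  refine tau_nondeg (τ := φ₀) (by
    by_contra h; push Not at h; exact q1 (LinearMap.ext h)) fun k => ?_
  have := hΨ _ (q2 c _ (AddSubgroup.subset_closure ⟨k, ⟨g, hg, hu⟩, rfl⟩))
  rwa [LinearMap.trace_mul_comm, show m k * ψ ⟨g, hg, hu⟩ * φ₀.smulRight c =
    φ₀.smulRight (k * B D.QK u (g (c • u))) by ext; simp [m, ψ], LinearMap.trace_smulRight] at this

theorem G3.no_pair (G : G3 D M) (S : D.Star M) {u : V} (Φ : Fr D u) {Y : Submodule F V}
    (P : D.Pair M (KL F K u) Y) (huY : u ∈ Y) : False := by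
  obtain ⟨g, hg, u₀, hu₀, hu₀0, hY⟩ := P.mY
  obtain ⟨Φ₀⟩ := G.fr hu₀ hu₀0
  have sM : ∀ w, g * Φ₀.t w * g⁻¹ ∈ M := fun w =>
    mul_mem (mul_mem hg (G.T hu₀ (Φ₀.un' w))) (inv_mem hg)
  have sY : ∀ w, ∀ y ∈ Y, (g * Φ₀.t w * g⁻¹) y = y := fun w y hy => by
    rw [hY] at hy
    obtain ⟨x, hx, rfl⟩ := hy
    simp [Φ₀.t_L w x hx]
  have h1 : ∀ w, ∃ σ : K ≃ₐ[F] K, ∀ a : K, (g * Φ₀.t w * g⁻¹) (a • u) = σ a • u := fun w => by
    by_cases e : KL F K u = (KL F K u).map ((g * Φ₀.t w * g⁻¹ : V ≃ₗ[F] V) : V →ₗ[F] V)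
    · obtain ⟨σ, h, -⟩ := G.semi S Φ P (sM w) (sY w u huY) fun x hx => e ▸ ⟨x, hx, rfl⟩
      exact ⟨σ, fun a => by rw [h, sY w u huY]⟩
    obtain ⟨_, ⟨x, hx, rfl⟩, h⟩ := G.not_le_perp S Φ.hu (P.symm.of_le (P.mX.map (sM w)) e
      fun x hx => ⟨x, hx.2, sY w x hx.1⟩)
    obtain ⟨a, rfl⟩ := mem_KL.1 hx
    exact absurd (G.le_perp S Φ P (sM w) (sY w u huY) a) h
  choose σ hσ using h1
  have h2 : Function.Injective σ := fun w w' e => by
    by_contra hne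
    obtain ⟨v, hv, hvY⟩ := P.symm.exists_notMem
    obtain ⟨a, rfl⟩ := mem_KL.1 hv
    refine hvY (hY ▸ ⟨g⁻¹ (a • u), Φ₀.t_fix (sub_ne_zero.2 hne) ((Φ₀.t w').injective ?_), by simp⟩)
    rw [← mul_app, ← Φ₀.t_add, add_sub_cancel]
    exact g.injective ((hσ w a).trans (e ▸ (hσ w' a).symm))
  have h3 := Nat.card_le_card_of_injective σ h2
  rw [IsGalois.card_aut_eq_finrank, Module.natCard_eq_pow_finrank (K := F) (V := K)] at h3
  exact absurd h3 (not_le.2 (Nat.lt_pow_self Finite.one_lt_card))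

theorem G3.max (G : G3 D M) : (∀ g ∈ M, SemiK K g) ∨ EO Q ≤ M := by
  by_cases S : D.Star M
  swap
  · exact Or.inr (G.EO_le_of_not_star S)
  left
  by_cases hc : ∀ X, D.ML M X → ∃ u, u ≠ 0 ∧ X = KL F K u
  · intro g hg a
    obtain ⟨b, hb⟩ := D.scalar_of_sing G.hm.ge
      ((g : V →ₗ[F] V) ∘ₗ (LinearMap.lsmul K V a).restrictScalars F ∘ₗ (g⁻¹ : V ≃ₗ[F] V))
      (fun x hx => by
        by_cases hx0 : x = 0
        · simp [hx0]
        obtain ⟨u, -, hu⟩ := hc _ ((XD.ML.base hx hx0).map (inv_mem hg))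
        have h1 : g⁻¹ x ∈ KL F K u := hu ▸ ⟨x, self_mem_KL x, rfl⟩
        have h2 := KL_smul_mem h1 a
        rw [← hu] at h2
        obtain ⟨y, hy, e⟩ := h2
        simp only [LinearEquiv.coe_coe] at e
        change g (a • g⁻¹ x) ∈ _
        rwa [← e, apply_inv_apply])
    exact ⟨b, fun x => by simpa using hb (g x)⟩
  exfalso
  push Not at hc
  obtain ⟨X, hX, hn⟩ := hc
  obtain ⟨X', Y', h1, h2, h3, h4⟩ := G.exists_inter hX hn
  have : Finite V := Module.finite_of_finite F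
  obtain ⟨⟨X₀, Y₀⟩, ⟨a1, a2, a3⟩, hmax⟩ := Set.exists_max_image
    {p : Submodule F V × Submodule F V | D.ML M p.1 ∧ D.ML M p.2 ∧ p.1 ≠ p.2}
    (fun p => finrank F (p.1 ⊓ p.2 : Submodule F V)) (Set.toFinite _) ⟨(X', Y'), h1, h2, h3⟩
  have P : D.Pair M X₀ Y₀ := ⟨a1, a2, a3, fun h => h4 (by
    have : finrank F (X' ⊓ Y' : Submodule F V) ≤ finrank F (X₀ ⊓ Y₀ : Submodule F V) :=
      hmax (X', Y') ⟨h1, h2, h3⟩
    rw [h, finrank_bot, nonpos_iff_eq_zero] at this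
    exact Submodule.finrank_eq_zero.1 this), fun X' Y' a b c => hmax (X', Y') ⟨a, b, c⟩⟩
  obtain ⟨g, hg, u, hu, hu0, rfl⟩ := a1
  have P' := P.map (inv_mem hg)
  have e : ((KL F K u).map (g : V →ₗ[F] V)).map ((g⁻¹ : V ≃ₗ[F] V) : V →ₗ[F] V) = KL F K u := by
    rw [← Submodule.map_comp]
    convert Submodule.map_id _
    ext; simp
  rw [e] at P'
  obtain ⟨a, haL, haY, ha0⟩ := P'.exists_mem
  obtain ⟨Φ⟩ := G.fr (D.QK_KL hu haL) ha0
  rw [show KL F K u = KL F K a from (Submodule.eq_of_le_of_finrank_eq (fun x hx => by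
    obtain ⟨k, rfl⟩ := mem_KL.1 hx; exact KL_smul_mem haL k)
    (by rw [finrank_KL ha0, finrank_KL hu0])).symm] at P'
  exact G.no_pair S Φ P' haY

end

variable {ι : Type} [Fintype ι] [DecidableEq ι] {F : Type*} [Field F] [Fintype F]
  {Q : (ι → F) → F} (hQ : IsNondegenerateQuadraticForm Q)
include hQ

theorem max_ext3 (hodd : Odd (Fintype.card F)) {r : ℕ} (hr : r.Prime) (hr2 : Odd r)
    (hd : Fintype.card ι = 3 * r) {K : Subalgebra F (Matrix ι ι F)}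
    (hK : IsFieldSubalgebra r K) (hsa : IsSelfAdjointFor (QuadraticMap.polar Q) K) :
    IsMaximalIn (omegaGL Q) (subalgebraNormalizer K ⊓ omegaGL Q) := by
  have := hr.two_le
  have : Nonempty ι := Fintype.card_pos_iff.1 (by omega)
  have hN := nd_toQF hQ
  refine field_bridge hK fun L _ _ _ _ _ hr' h1 h2 hS => ?_
  have : FiniteDimensional L (ι → F) := Module.Finite.of_restrictScalars_finite F L _
  obtain ⟨D₀⟩ := exists_XD (K := L) hN (hr' ▸ hr) (two_ne_zero_of_odd hodd) (fun a x y => by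
    obtain ⟨k, hk, ha⟩ := h1 a
    rw [ha, ha]; exact hsa k hk x y)
  have hτ : ∃ c, Algebra.trace F L c ≠ 0 := by
    by_contra h; push Not at h; exact Algebra.trace_ne_zero F L (LinearMap.ext h)
  obtain ⟨e, he⟩ := exists_tau_mul hτ D₀.τ
  let D : XD (toQF hQ) L := ⟨e • D₀.QK, Algebra.trace F L, hτ, fun x => by
    rw [D₀.hQ, he]; rfl, D₀.prime, D₀.two, D₀.nd⟩
  have hm : finrank L (ι → F) = 3 := by
    have := Module.finrank_mul_finrank F L (ι → F)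
    rw [hr', finrank_fintype_fun_eq_card, hd, mul_comm] at this
    exact Nat.eq_of_mul_eq_mul_right hr.pos this
  exact isMaximalIn_of hQ (by omega) _ (SemiK L) (fun g _ => hS g)
    (D.exists_not_semi hm.ge) fun M hM hH => G3.max (D := D) ⟨hM, hH, hm, hr' ▸ hr2, rfl⟩

/-- odd dimension: all cases -/
theorem max_ext_odd (hodd : Odd (Fintype.card F)) {r : ℕ} (hr : r.Prime)
    (hn : Odd (Fintype.card ι)) (hne : Fintype.card ι ≠ r) {K : Subalgebra F (Matrix ι ι F)}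
    (hK : IsFieldSubalgebra r K) (hsa : IsSelfAdjointFor (QuadraticMap.polar Q) K) :
    IsMaximalIn (omegaGL Q) (subalgebraNormalizer K ⊓ omegaGL Q) := by
  have : Nonempty ι := Fintype.card_pos_iff.1 hn.pos
  obtain ⟨d, hd⟩ : r ∣ Fintype.card ι := field_bridge hK fun L _ _ _ _ _ hr' _ _ _ =>
    ⟨finrank L (ι → F), by rw [← hr', Module.finrank_mul_finrank, finrank_fintype_fun_eq_card]⟩
  rw [hd, Nat.odd_mul] at hn
  by_cases h3 : d = 3
  · exact max_ext3 hQ hodd hr hn.1 (by rw [hd, h3, mul_comm]) hK hsa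
  refine max_ext hQ hodd hr ?_ hK hsa
  have : d ≠ 1 := by rintro rfl; exact hne (by simpa using hd)
  obtain ⟨j, hj⟩ := hn.2
  rw [hd, mul_comm]
  exact Nat.mul_lt_mul_of_pos_left (by omega) hr.pos

end Cfsg.Agent.H3
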